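import Mathlib

/-!
# S4306 (a fixed point free non-abelian group of order `pq` forces Fitting height `≤ 2`): definitions

Everything is in *ambient form*: `Γ` a finite group, `ρ : Γ →* Module.End E U` a representation,
`Q, S, R, K, … ≤ Γ` subgroups, `f, h, b, x ∈ Γ` elements.  `⁅a, b⁆ = a * b * a⁻¹ * b⁻¹`.
-/

set_option autoImplicit false
set_option linter.unusedSectionVars false
set_option linter.unusedVariables false

namespace Cfsg.Agent.Lib.Helper46.FrobPQ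

open Subgroup
open scoped commutatorElement

/-- `f, h` generate (an image of) the non-abelian group of order `pq`: `⟨f⟩` of order `q` is
normalized but not centralized by `h` of order `p`. -/
structure Rel {Γ : Type*} [Group Γ] (p q : ℕ) (f h : Γ) : Prop where
  pP : p.Prime
  qP : q.Prime
  ne : p ≠ q
  fq : f ^ q = 1
  hp : h ^ p = 1
  nF : h * f * h⁻¹ ∈ zpowers f
  nc : h * f ≠ f * h

variable {E : Type*} [Field E] {U : Type*} [AddCommGroup U] [Module E U]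
  {Γ : Type*} [Group Γ]

/-- the weight space of the subgroup `Z` for the "weight" `μ` -/
def wt (ρ : Γ →* Module.End E U) (Z : Subgroup Γ) (μ : Γ → E) : Submodule E U where
  carrier := {v | ∀ z ∈ Z, ρ z v = μ z • v}
  add_mem' := by
    intro a b ha hb z hz
    rw [map_add, ha z hz, hb z hz, smul_add]
  zero_mem' := by
    intro z _
    simp
  smul_mem' := by
    intro c v hv z hz
    rw [map_smul, hv z hz, smul_comm]

theorem mem_wt {ρ : Γ →* Module.End E U} {Z : Subgroup Γ} {μ : Γ → E} {v : U} :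
    v ∈ wt ρ Z μ ↔ ∀ z ∈ Z, ρ z v = μ z • v := Iff.rfl

/-- the stabilizer (in the normalizer of `Z`) of the weight `μ` of `Z` -/
def stab (Z : Subgroup Γ) (μ : Γ → E) : Subgroup Γ where
  carrier := {g | g ∈ normalizer (Z : Set Γ) ∧ ∀ z ∈ Z, μ (g * z * g⁻¹) = μ z}
  mul_mem' := by
    rintro a b ⟨ha, ha'⟩ ⟨hb, hb'⟩
    refine ⟨mul_mem ha hb, fun z hz => ?_⟩
    have h1 : b * z * b⁻¹ ∈ Z := (mem_normalizer_iff.1 hb z).1 hz
    have h2 : a * b * z * (a * b)⁻¹ = a * (b * z * b⁻¹) * a⁻¹ := by group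
    rw [h2, ha' _ h1, hb' z hz]
  one_mem' := ⟨one_mem _, fun z _ => by simp⟩
  inv_mem' := by
    rintro a ⟨ha, ha'⟩
    refine ⟨inv_mem ha, fun z hz => ?_⟩
    have h1 : a⁻¹ * z * a⁻¹⁻¹ ∈ Z := (mem_normalizer_iff.1 (inv_mem ha) z).1 hz
    have h2 := ha' _ h1
    have h3 : a * (a⁻¹ * z * a⁻¹⁻¹) * a⁻¹ = z := by group
    rw [h3] at h2
    exact h2.symm

theorem mem_stab {Z : Subgroup Γ} {μ : Γ → E} {g : Γ} :
    g ∈ stab Z μ ↔ g ∈ normalizer (Z : Set Γ) ∧ ∀ z ∈ Z, μ (g * z * g⁻¹) = μ z := Iff.rfl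

/-- the hypotheses of the non-abelian key lemma `nab`, together with the radical `R` of the
form `(g, y) ↦ μ ⁅g, y⁆` on `Q` -/
structure NB (ρ : Γ →* Module.End E U) (Q S R : Subgroup Γ) (b : Γ) (t s n : ℕ) (μ : Γ → E) :
    Prop where
  tP : t.Prime
  sP : s.Prime
  nP : n.Prime
  ts : t ≠ s
  nt : n ≠ t
  ns : n ≠ s
  Qt : IsPGroup t Q
  Ss : IsPGroup s S
  tE : (t : E) ≠ 0
  nE : (n : E) ≠ 0
  SQ : S ≤ normalizer (Q : Set Γ)
  bQ : b ∈ normalizer (Q : Set Γ)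
  bS : b ∈ normalizer (S : Set Γ)
  bn : b ^ n = 1
  cl2 : ∀ g ∈ Q, ∀ y ∈ Q, ⁅g, y⁆ ∈ centralizer (Q : Set Γ)
  SZ : S ≤ centralizer ((Q ⊓ centralizer (Q : Set Γ) : Subgroup Γ) : Set Γ)
  Sab : ⁅S, S⁆ ≤ centralizer (Q : Set Γ)
  HY : ∀ y ∈ Q, (∀ x ∈ S, ⁅x, b⁆ * y = y * ⁅x, b⁆) → b * y = y * b →
    y ∈ centralizer (Q : Set Γ)
  hne : wt ρ (Q ⊓ centralizer (Q : Set Γ)) μ ≠ ⊥
  bμ : ∀ z ∈ Q ⊓ centralizer (Q : Set Γ), μ (b * z * b⁻¹) = μ z
  bfix : ∀ v ∈ wt ρ (Q ⊓ centralizer (Q : Set Γ)) μ, ρ b v = v → v = 0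
  hR : ∀ g, g ∈ R ↔ g ∈ Q ∧ ∀ y ∈ Q, μ ⁅g, y⁆ = 1

/-- standing hypotheses of the core theorem -/
structure Hyp0 (ρ : Γ →* Module.End E U) (Q S : Subgroup Γ) (f h : Γ) (t s p q : ℕ) : Prop where
  rel : Rel p q f h
  tP : t.Prime
  sP : s.Prime
  ts : t ≠ s
  tp : t ≠ p
  tq : t ≠ q
  sp : s ≠ p
  sq : s ≠ q
  Qt : IsPGroup t Q
  Ss : IsPGroup s S
  SQ : S ≤ normalizer (Q : Set Γ)
  fQ : f ∈ normalizer (Q : Set Γ)
  hQ : h ∈ normalizer (Q : Set Γ)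
  fS : f ∈ normalizer (S : Set Γ)
  hS : h ∈ normalizer (S : Set Γ)
  fixQ : ∀ g ∈ Q, f * g = g * f → h * g = g * h → g = 1
  fixS : ∀ g ∈ S, f * g = g * f → h * g = g * h → g = 1
  fixU : ∀ v : U, ρ f v = v → ρ h v = v → v = 0
  tE : (t : E) ≠ 0
  pE : (p : E) ≠ 0
  qE : (q : E) ≠ 0
  inj : ∀ g ∈ Q, ρ g = 1 → g = 1

/-- a minimal counterexample to the core theorem -/
structure Cfg (ρ : Γ →* Module.End E U) (Q S : Subgroup Γ) (f h : Γ) (t s p q : ℕ) : Prop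
    extends Hyp0 ρ Q S f h t s p q where
  bad : ¬ S ≤ centralizer (Q : Set Γ)
  minS : ∀ S₀ : Subgroup Γ, S₀ ≤ S → S₀ ≠ S → f ∈ normalizer (S₀ : Set Γ) →
    h ∈ normalizer (S₀ : Set Γ) → S₀ ≤ centralizer (Q : Set Γ)
  minQ : ∀ Q₀ : Subgroup Γ, Q₀ ≤ Q → Q₀ ≠ Q → S ≤ normalizer (Q₀ : Set Γ) →
    f ∈ normalizer (Q₀ : Set Γ) → h ∈ normalizer (Q₀ : Set Γ) → S ≤ centralizer (Q₀ : Set Γ)

/-- `Q` acts on the invariant subspace `X ≠ 0`, `R ≤ Q` acts by scalars, `Q/R` is abelian and the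
commutator pairing `Q/R × Q/R → E^×` is non-degenerate. -/
structure SympCfg (ρ : Γ →* Module.End E U) (X : Submodule E U) (Q R : Subgroup Γ) : Prop where
  ne : X ≠ ⊥
  inv : ∀ g ∈ Q, ∀ v ∈ X, ρ g v ∈ X
  le : R ≤ Q
  scal : ∀ z ∈ R, ∃ a : E, ∀ v ∈ X, ρ z v = a • v
  comm : ∀ g ∈ Q, ∀ y ∈ Q, ⁅g, y⁆ ∈ R
  nd : ∀ g ∈ Q, g ∉ R → ∃ y ∈ Q, ∃ v ∈ X, ρ ⁅g, y⁆ v ≠ v
  card : (Nat.card Q : E) ≠ 0

/-- type level version: `Q` a finite group, `ρ` a representation on `V`, `R ≤ Q`. -/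
structure TL {Q : Type*} [Group Q] {V : Type*} [AddCommGroup V] [Module E V]
    (ρ : Q →* Module.End E V) (R : Subgroup Q) : Prop where
  scal : ∀ z ∈ R, ∃ a : E, ρ z = a • 1
  comm : ∀ g y : Q, ⁅g, y⁆ ∈ R
  nd : ∀ g : Q, g ∉ R → ∃ y : Q, ρ ⁅g, y⁆ ≠ 1
  card : (Nat.card Q : E) ≠ 0

/-- the hypotheses of S4306, ambient form -/
structure Hyp {Γ : Type*} [Group Γ] (p q : ℕ) (G : Subgroup Γ) (f h : Γ) : Prop where
  rel : Rel p q f h
  normal : G.Normal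
  sup : G ⊔ closure {f, h} = ⊤
  sol : Group.IsSolvable G
  cop : (Nat.card G).Coprime (p * q)
  fix : ∀ x ∈ G, f * x = x * f → h * x = x * h → x = 1

/-- restriction of a representation to an invariant subspace -/
def resRep {Q : Type*} [Group Q] {V : Type*} [AddCommGroup V] [Module E V]
    (ρ : Q →* Module.End E V) (W : Submodule E V) (hW : ∀ g, ∀ v ∈ W, ρ g v ∈ W) :
    Q →* Module.End E W where
  toFun g := (ρ g).restrict (hW g)
  map_one' := by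
    ext v
    simp [LinearMap.restrict_apply]
  map_mul' a b := by
    ext v
    simp [LinearMap.restrict_apply]

theorem resRep_apply {Q : Type*} [Group Q] {V : Type*} [AddCommGroup V] [Module E V]
    (ρ : Q →* Module.End E V) (W : Submodule E V) (hW : ∀ g, ∀ v ∈ W, ρ g v ∈ W) (g : Q) (v : W) :
    ((resRep ρ W hW g v : W) : V) = ρ g v := rfl

end Cfsg.Agent.Lib.Helper46.FrobPQ
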