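import Mathlib
import Cfsg.Agent.Lib.Helper46.FrobPQ.Defs

/-!
# S4306 farm, piece [EW]   (file Cfsg/Agent/Lib/Helper46/FrobPQ/ExWt.lean)

PAPER PROOF.
* exists_wt0 (common eigenvector of a commuting family on X ≠ ⊥): take an R-invariant subspace ⊥ ≠ Y ≤ X of minimal finrank
  (Nat.find / WellFounded.min).  For z ∈ R the restriction of ρ z to Y has an eigenvalue a (`Module.End.exists_eigenvalue`
  on ↥Y, Nontrivial); Y_a = {v ∈ Y | ρ z v = a • v} is ≠ ⊥ and R-invariant by Rcomm, so Y_a = Y.  So each z ∈ R is a scalar on Y;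
  define η z by `Classical.choose` (dite on z ∈ R), take 0 ≠ v ∈ Y.
* exists_wt: X' := image of X under (ρ z₁ - 1): it is ≤ X, ≠ ⊥, R-invariant (Rcomm).  exists_wt0 on X' gives η, u = ρ z₁ v - v ≠ 0.
  If η z₁ = 1 then ρ z₁ u = u, so ρ (z₁^k) v = v + k • u by induction; with k = Nat.card R (z₁^k = 1, `pow_card_eq_one'` in ↥R):
  (card R : E) • u = 0, so u = 0: contradiction.
-/

set_option autoImplicit false
set_option linter.unusedSectionVars false
set_option linter.unusedVariables false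

namespace Cfsg.Agent.Lib.Helper46.FrobPQ

open Subgroup
open scoped commutatorElement

universe u

variable {E : Type*} [Field E] {U : Type*} [AddCommGroup U] [Module E U]
  {Γ : Type*} [Group Γ] [Finite Γ]

theorem exists_wt0 [IsAlgClosed E] [FiniteDimensional E U] (ρ : Γ →* Module.End E U)
    (X : Submodule E U) (R : Subgroup Γ) (RX : ∀ z ∈ R, ∀ v ∈ X, ρ z v ∈ X)
    (Rcomm : ∀ z ∈ R, ∀ w ∈ R, ∀ v ∈ X, ρ z (ρ w v) = ρ w (ρ z v)) (hne : X ≠ ⊥) :
    ∃ (η : Γ → E) (v : U), v ∈ X ∧ v ≠ 0 ∧ v ∈ wt ρ R η := by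
  classical
  let 𝒮 : Set (Submodule E U) := {Y | Y ≤ X ∧ Y ≠ ⊥ ∧ ∀ z ∈ R, ∀ v ∈ Y, ρ z v ∈ Y}
  obtain ⟨Y, ⟨hYX, hY0, hYR⟩, hmin⟩ :=
    WellFounded.has_min (measure (fun Y : Submodule E U => Module.finrank E Y)).wf 𝒮
      ⟨X, le_rfl, hne, RX⟩
  have hsc : ∀ z ∈ R, ∃ a : E, ∀ v ∈ Y, ρ z v = a • v := by
    intro z hz
    have : Nontrivial Y := (Submodule.nontrivial_iff_ne_bot).2 hY0
    obtain ⟨a, ha⟩ := Module.End.exists_eigenvalue ((ρ z).restrict (hYR z hz))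
    obtain ⟨y, hy⟩ := ha.exists_hasEigenvector
    have hy1 : ρ z (y : U) = a • (y : U) := congrArg Subtype.val hy.apply_eq_smul
    have hy0 : (y : U) ≠ 0 := fun h => hy.2 (Subtype.ext h)
    let Ya : Submodule E U := Y ⊓ LinearMap.ker (ρ z - a • 1)
    have hmem : ∀ v, v ∈ Ya ↔ v ∈ Y ∧ ρ z v = a • v := by
      intro v
      change v ∈ Y ∧ v ∈ LinearMap.ker (ρ z - a • 1) ↔ _
      rw [LinearMap.mem_ker, LinearMap.sub_apply, LinearMap.smul_apply, Module.End.one_apply,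
        sub_eq_zero]
    have hYa : Ya ∈ 𝒮 := by
      refine ⟨inf_le_left.trans hYX, ?_, ?_⟩
      · intro h
        have : (y : U) ∈ Ya := (hmem _).2 ⟨y.2, hy1⟩
        rw [h, Submodule.mem_bot] at this
        exact hy0 this
      · intro w hw v hv
        obtain ⟨hv1, hv2⟩ := (hmem v).1 hv
        refine (hmem _).2 ⟨hYR w hw v hv1, ?_⟩
        rw [Rcomm z hz w hw v (hYX hv1), hv2, map_smul]
    have h1 : ¬ Module.finrank E Ya < Module.finrank E Y := hmin Ya hYa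
    have h2 : Module.finrank E Ya ≤ Module.finrank E Y := Submodule.finrank_mono inf_le_left
    have h3 : Ya = Y := Submodule.eq_of_le_of_finrank_eq inf_le_left (by omega)
    refine ⟨a, fun v hv => ?_⟩
    rw [← h3] at hv
    exact ((hmem v).1 hv).2
  obtain ⟨v, hv, hv0⟩ := Submodule.exists_mem_ne_zero_of_ne_bot hY0
  refine ⟨fun z => if hz : z ∈ R then Classical.choose (hsc z hz) else 0, v, hYX hv, hv0, ?_⟩
  intro z hz
  simp only [dif_pos hz]
  exact Classical.choose_spec (hsc z hz) v hv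

theorem exists_wt [IsAlgClosed E] [FiniteDimensional E U] (ρ : Γ →* Module.End E U)
    (X : Submodule E U) (R : Subgroup Γ) (RX : ∀ z ∈ R, ∀ v ∈ X, ρ z v ∈ X)
    (Rcomm : ∀ z ∈ R, ∀ w ∈ R, ∀ v ∈ X, ρ z (ρ w v) = ρ w (ρ z v))
    (Rcard : (Nat.card R : E) ≠ 0) (z₁ : Γ) (hz₁ : z₁ ∈ R) (hne : ∃ v ∈ X, ρ z₁ v ≠ v) :
    ∃ (η : Γ → E) (v : U), v ∈ X ∧ v ≠ 0 ∧ v ∈ wt ρ R η ∧ η z₁ ≠ 1 := by
  let X' : Submodule E U := X.map (ρ z₁ - 1)
  have hX'X : X' ≤ X := by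
    rintro _ ⟨v, hv, rfl⟩
    rw [LinearMap.sub_apply, Module.End.one_apply]
    exact X.sub_mem (RX z₁ hz₁ v hv) hv
  have hX'0 : X' ≠ ⊥ := by
    obtain ⟨v, hv, hv1⟩ := hne
    intro h
    have : (ρ z₁ - 1) v ∈ X' := ⟨v, hv, rfl⟩
    rw [h, Submodule.mem_bot, LinearMap.sub_apply, Module.End.one_apply, sub_eq_zero] at this
    exact hv1 this
  have hX'R : ∀ z ∈ R, ∀ v ∈ X', ρ z v ∈ X' := by
    rintro w hw _ ⟨v, hv, rfl⟩
    refine ⟨ρ w v, RX w hw v hv, ?_⟩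
    rw [LinearMap.sub_apply, LinearMap.sub_apply, Module.End.one_apply, Module.End.one_apply,
      map_sub, Rcomm z₁ hz₁ w hw v hv]
  obtain ⟨η, u, hu, hu0, huw⟩ := exists_wt0 ρ X' R hX'R
    (fun z hz w hw v hv => Rcomm z hz w hw v (hX'X hv)) hX'0
  refine ⟨η, u, hX'X hu, hu0, huw, ?_⟩
  intro h1
  obtain ⟨v, hv, hvu⟩ := hu
  rw [LinearMap.sub_apply, Module.End.one_apply] at hvu
  have hfix : ρ z₁ u = u := by rw [huw z₁ hz₁, h1, one_smul]
  have hzv : ρ z₁ v = v + u := by rw [← hvu]; abel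
  have hpow : ∀ k : ℕ, ρ (z₁ ^ k) v = v + (k : E) • u := by
    intro k
    induction k with
    | zero => simp
    | succ k ih =>
      rw [pow_succ', map_mul, Module.End.mul_apply, ih, map_add, map_smul, hfix, hzv]
      push_cast
      rw [add_smul, one_smul]
      abel
  have hcard : z₁ ^ Nat.card R = 1 := by
    have := pow_card_eq_one' (G := R) (x := ⟨z₁, hz₁⟩)
    exact congrArg Subtype.val this
  have h2 := hpow (Nat.card R)
  rw [hcard, map_one, Module.End.one_apply] at h2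
  have h3 : (Nat.card R : E) • u = 0 := by
    have := h2.symm
    rwa [add_eq_left] at this
  exact hu0 ((smul_eq_zero.1 h3).resolve_left Rcard)

end Cfsg.Agent.Lib.Helper46.FrobPQ
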