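import Mathlib
import Cfsg.Agent.Lib.Helper46.FrobPQ.Defs

/-!
# S4306 farm, piece [RA]   (file Cfsg/Agent/Lib/Helper46/FrobPQ/Rel.lean)

PAPER PROOF.
Elementary facts on `A = ⟨f, h⟩`, `F = zpowers f` (order q, normal in A), `zpowers h` (order p).
* f ≠ 1, h ≠ 1 by `nc`; so orderOf f = q, orderOf h = p (`orderOf_eq_prime`).
* conj_mem: a = f^k, h f^k h⁻¹ = (h f h⁻¹)^k.  conj_mem': conjugation by h is an injective map F → F, F finite,
  so it is onto (or h⁻¹ = h^(p-1)).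
* mem_closure: the set {a * c} is a subgroup since h normalizes F (closure_induction; (a c)(a' c') = a (c a' c⁻¹) c c').
* disjoint: orders q and p are coprime.  card_closure: (a, c) ↦ a * c is a bijection F × ⟨h⟩ → A.
* solvable_closure: F.subgroupOf A is normal abelian with abelian (cyclic, generated by the image of h) quotient;
  or: A' ≤ F (`commutator_le`/closure) and F abelian, so derivedSeries 2 = ⊥.
* zpowers_f_eq / zpowers_h_eq: groups of prime order.
* not_comm: if a ≠ 1 then f ∈ zpowers a, so f commutes with h: contradiction with nc.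
* conj_surj: a ↦ a h a⁻¹ h⁻¹ maps F to F (= a * (h a⁻¹ h⁻¹)), injective by not_comm (a h a⁻¹ = a' h a'⁻¹ ⇒ a'⁻¹ a
  commutes with h), so surjective (Finite.injective_iff_surjective on ↥(zpowers f)).
* conj: all fields are immediate (a commutes with f; (a h a⁻¹) f (a h a⁻¹)⁻¹ = a (h f h⁻¹) a⁻¹ = h f h⁻¹).
* closure_conj: both inclusions by closure_le.
* outside: g = a₀ c with c ∈ ⟨h⟩, c ≠ 1.  `Rel p q f c` holds (c generates ⟨h⟩; c does not commute with f since h is a
  power of c), so conj_surj for c gives a ∈ F with a c a⁻¹ c⁻¹ = a₀, i.e. g = a c a⁻¹; h = c^i, so a h a⁻¹ = g^i.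
* closure_two_conj: (a h a⁻¹) h⁻¹ ∈ F is ≠ 1 by not_comm, so it generates F (zpowers_f_eq).
* comm_zpowers_le: `Subgroup.commutator_le`; ⁅x, b^(j+1)⁆ = ⁅x, b^j⁆ * ⁅b^j x b^(-j), b⁆ and
  ⁅x, b⁻¹⁆ = ⁅b⁻¹ x b, b⁆⁻¹ (induction on the integer exponent, for all x ∈ S simultaneously).
-/

set_option autoImplicit false
set_option linter.unusedSectionVars false
set_option linter.unusedVariables false

namespace Cfsg.Agent.Lib.Helper46.FrobPQ

open Subgroup
open scoped commutatorElement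

universe u

namespace Rel

variable {Γ : Type*} [Group Γ] [Finite Γ] {p q : ℕ} {f h : Γ}

theorem orderOf_f (r : Rel p q f h) : orderOf f = q := by
  have := Fact.mk r.qP
  refine orderOf_eq_prime r.fq ?_
  intro h1
  exact r.nc (by rw [h1]; simp)

theorem orderOf_h (r : Rel p q f h) : orderOf h = p := by
  have := Fact.mk r.pP
  refine orderOf_eq_prime r.hp ?_
  intro h1
  exact r.nc (by rw [h1]; simp)

theorem conj_mem (r : Rel p q f h) {a : Γ} (ha : a ∈ zpowers f) : h * a * h⁻¹ ∈ zpowers f := by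
  obtain ⟨k, rfl⟩ := ha
  change h * f ^ k * h⁻¹ ∈ zpowers f
  rw [← conj_zpow]
  exact zpow_mem r.nF k

theorem conj_mem' (r : Rel p q f h) {a : Γ} (ha : a ∈ zpowers f) : h⁻¹ * a * h ∈ zpowers f := by
  have h1 : ∀ n : ℕ, h ^ n * a * (h ^ n)⁻¹ ∈ zpowers f := by
    intro n
    induction n with
    | zero => simpa using ha
    | succ n ih =>
      have := r.conj_mem ih
      have e : h ^ (n + 1) * a * (h ^ (n + 1))⁻¹ = h * (h ^ n * a * (h ^ n)⁻¹) * h⁻¹ := by
        rw [pow_succ']; group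
      rw [e]
      exact this
  have h2 : h ^ (p - 1) = h⁻¹ := by
    apply eq_inv_of_mul_eq_one_left
    rw [← pow_succ, Nat.sub_add_cancel r.pP.one_le, r.hp]
  have h3 := h1 (p - 1)
  rw [h2, inv_inv] at h3
  exact h3

theorem closure_le_normalizer (r : Rel p q f h) :
    closure {f, h} ≤ normalizer ((zpowers f : Subgroup Γ) : Set Γ) := by
  rw [closure_le]
  rintro x (rfl | rfl)
  · exact le_normalizer (mem_zpowers x)
  · rw [SetLike.mem_coe, mem_normalizer_iff]
    intro y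
    constructor
    · exact fun hy => r.conj_mem hy
    · intro hy
      have := r.conj_mem' hy
      have e : x⁻¹ * (x * y * x⁻¹) * x = y := by group
      rwa [e] at this

theorem RA_f_mem : f ∈ closure ({f, h} : Set Γ) := subset_closure (by simp)

theorem RA_h_mem : h ∈ closure ({f, h} : Set Γ) := subset_closure (by simp)

theorem RA_zf_le : zpowers f ≤ closure ({f, h} : Set Γ) := by
  rw [zpowers_le]; exact RA_f_mem

theorem RA_zh_le : zpowers h ≤ closure ({f, h} : Set Γ) := by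
  rw [zpowers_le]; exact RA_h_mem

theorem RA_norm (r : Rel p q f h) {g a : Γ} (hg : g ∈ closure ({f, h} : Set Γ))
    (ha : a ∈ zpowers f) : g * a * g⁻¹ ∈ zpowers f :=
  (mem_normalizer_iff.1 (r.closure_le_normalizer hg) a).1 ha

theorem mem_closure (r : Rel p q f h) (g : Γ) :
    g ∈ closure {f, h} ↔ ∃ a ∈ zpowers f, ∃ c ∈ zpowers h, g = a * c := by
  constructor
  · intro hg
    induction hg using closure_induction with
    | mem x hx =>
      rcases hx with rfl | rfl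
      · exact ⟨x, mem_zpowers x, 1, one_mem _, by simp⟩
      · exact ⟨1, one_mem _, x, mem_zpowers x, by simp⟩
    | one => exact ⟨1, one_mem _, 1, one_mem _, by simp⟩
    | mul x y _ _ hx hy =>
      obtain ⟨a, ha, c, hc, rfl⟩ := hx
      obtain ⟨a', ha', c', hc', rfl⟩ := hy
      refine ⟨a * (c * a' * c⁻¹), mul_mem ha (r.RA_norm (RA_zh_le hc) ha'), c * c',
        mul_mem hc hc', by group⟩
    | inv x _ hx =>
      obtain ⟨a, ha, c, hc, rfl⟩ := hx
      refine ⟨c⁻¹ * a⁻¹ * c⁻¹⁻¹, r.RA_norm (RA_zh_le (inv_mem hc)) (inv_mem ha), c⁻¹,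
        inv_mem hc, by group⟩
  · rintro ⟨a, ha, c, hc, rfl⟩
    exact mul_mem (RA_zf_le ha) (RA_zh_le hc)

theorem disjoint (r : Rel p q f h) {g : Γ} (h1 : g ∈ zpowers f) (h2 : g ∈ zpowers h) : g = 1 := by
  have d1 := orderOf_dvd_of_mem_zpowers h1
  have d2 := orderOf_dvd_of_mem_zpowers h2
  rw [r.orderOf_f] at d1
  rw [r.orderOf_h] at d2
  have hc : Nat.Coprime q p := (Nat.coprime_primes r.qP r.pP).2 r.ne.symm
  exact orderOf_eq_one_iff.1 (Nat.eq_one_of_dvd_coprimes hc d1 d2)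

theorem card_closure (r : Rel p q f h) : Nat.card (closure ({f, h} : Set Γ)) = p * q := by
  let φ : zpowers f × zpowers h → closure ({f, h} : Set Γ) :=
    fun x => ⟨x.1 * x.2, mul_mem (RA_zf_le x.1.2) (RA_zh_le x.2.2)⟩
  have hφ : Function.Bijective φ := by
    constructor
    · rintro ⟨⟨a, ha⟩, ⟨c, hc⟩⟩ ⟨⟨a', ha'⟩, ⟨c', hc'⟩⟩ hx
      have e : a * c = a' * c' := congrArg Subtype.val hx
      have e1 : a'⁻¹ * a = c' * c⁻¹ := by
        rw [inv_mul_eq_iff_eq_mul, ← mul_assoc, ← e]; group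
      have e2 : a'⁻¹ * a = 1 :=
        r.disjoint (mul_mem (inv_mem ha') ha) (by rw [e1]; exact mul_mem hc' (inv_mem hc))
      have e3 : c' * c⁻¹ = 1 := by rw [← e1, e2]
      have e4 : a = a' := (inv_mul_eq_one.1 e2).symm
      have e5 : c' = c := mul_inv_eq_one.1 e3
      subst e4 e5
      rfl
    · rintro ⟨g, hg⟩
      obtain ⟨a, ha, c, hc, rfl⟩ := (r.mem_closure g).1 hg
      exact ⟨(⟨a, ha⟩, ⟨c, hc⟩), rfl⟩
  rw [← Nat.card_congr (Equiv.ofBijective φ hφ), Nat.card_prod, Nat.card_zpowers, Nat.card_zpowers,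
    r.orderOf_f, r.orderOf_h, mul_comm]

theorem solvable_closure (r : Rel p q f h) : Group.IsSolvable (closure ({f, h} : Set Γ)) := by
  set A := closure ({f, h} : Set Γ) with hA
  let N : Subgroup A := (zpowers f).subgroupOf A
  have hN : N.Normal := by
    refine ⟨fun n hn g => ?_⟩
    rw [mem_subgroupOf] at hn ⊢
    exact r.RA_norm g.2 hn
  have s1 : Group.IsSolvable N := by
    apply Group.isSolvable_of_comm
    rintro ⟨⟨a, ha⟩, ha'⟩ ⟨⟨b, hb⟩, hb'⟩
    rw [mem_subgroupOf] at ha' hb'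
    obtain ⟨k, hk⟩ := ha'
    obtain ⟨l, hl⟩ := hb'
    apply Subtype.ext
    apply Subtype.ext
    change a * b = b * a
    have hk' : f ^ k = a := hk
    have hl' : f ^ l = b := hl
    rw [← hk', ← hl', ← zpow_add, ← zpow_add, add_comm]
  have s2 : Group.IsSolvable (A ⧸ N) := by
    have key : ∀ x : A ⧸ N, ∃ k : ℤ, x = (QuotientGroup.mk (⟨h, RA_h_mem⟩ : A) : A ⧸ N) ^ k := by
      intro x
      obtain ⟨⟨g, hg⟩, rfl⟩ := QuotientGroup.mk_surjective x
      obtain ⟨a, ha, c, ⟨k, hk⟩, rfl⟩ := (r.mem_closure g).1 hg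
      refine ⟨k, ?_⟩
      rw [← QuotientGroup.mk_zpow, QuotientGroup.eq, mem_subgroupOf]
      have hk' : h ^ k = c := hk
      change (a * c)⁻¹ * h ^ k ∈ zpowers f
      rw [hk']
      have e : (a * c)⁻¹ * c = c⁻¹ * a⁻¹ * c⁻¹⁻¹ := by group
      rw [e]
      exact r.RA_norm (RA_zh_le (inv_mem ⟨k, hk⟩)) (inv_mem ha)
    apply Group.isSolvable_of_comm
    intro x y
    obtain ⟨k, rfl⟩ := key x
    obtain ⟨l, rfl⟩ := key y
    rw [← zpow_add, ← zpow_add, add_comm]
  exact Group.isSolvable_of_ker_le_range N.subtype (QuotientGroup.mk' N) (by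
    rw [QuotientGroup.ker_mk', Subgroup.range_subtype])

theorem RA_zpowers_eq {x a : Γ} {n : ℕ} (hn : n.Prime) (hx : orderOf x = n) (ha : a ∈ zpowers x)
    (h1 : a ≠ 1) : zpowers a = zpowers x := by
  apply Subgroup.eq_of_le_of_card_ge
  · rw [zpowers_le]; exact ha
  · rw [Nat.card_zpowers, Nat.card_zpowers, hx]
    have d := orderOf_dvd_of_mem_zpowers ha
    rw [hx] at d
    rcases (Nat.dvd_prime hn).1 d with h | h
    · exact absurd (orderOf_eq_one_iff.1 h) h1
    · exact h.ge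

theorem zpowers_f_eq (r : Rel p q f h) {a : Γ} (ha : a ∈ zpowers f) (h1 : a ≠ 1) :
    zpowers a = zpowers f := RA_zpowers_eq r.qP r.orderOf_f ha h1

theorem zpowers_h_eq (r : Rel p q f h) {c : Γ} (hc : c ∈ zpowers h) (h1 : c ≠ 1) :
    zpowers c = zpowers h := RA_zpowers_eq r.pP r.orderOf_h hc h1

theorem not_comm (r : Rel p q f h) {a : Γ} (ha : a ∈ zpowers f) (hc : a * h = h * a) : a = 1 := by
  by_contra h1
  have h2 : f ∈ zpowers a := by rw [r.zpowers_f_eq ha h1]; exact mem_zpowers f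
  obtain ⟨k, hk⟩ := h2
  have hk' : a ^ k = f := hk
  apply r.nc
  rw [← hk']
  have : Commute a h := hc
  exact (this.zpow_left k).eq.symm

theorem conj_surj (r : Rel p q f h) {c : Γ} (hc : c ∈ zpowers f) :
    ∃ a ∈ zpowers f, a * h * a⁻¹ * h⁻¹ = c := by
  let T : zpowers f → zpowers f := fun a => ⟨a * h * (a : Γ)⁻¹ * h⁻¹, by
    have := mul_mem a.2 (r.conj_mem (inv_mem a.2))
    have e : (a : Γ) * (h * (a : Γ)⁻¹ * h⁻¹) = a * h * (a : Γ)⁻¹ * h⁻¹ := by group
    rwa [e] at this⟩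
  have hT : Function.Injective T := by
    rintro ⟨a, ha⟩ ⟨a', ha'⟩ hx
    have e : a * h * a⁻¹ * h⁻¹ = a' * h * a'⁻¹ * h⁻¹ := congrArg Subtype.val hx
    have e1 : a * h * a⁻¹ = a' * h * a'⁻¹ := mul_right_cancel e
    have e2 : (a'⁻¹ * a) * h = h * (a'⁻¹ * a) := by
      calc (a'⁻¹ * a) * h = a'⁻¹ * (a * h * a⁻¹) * a := by group
        _ = a'⁻¹ * (a' * h * a'⁻¹) * a := by rw [e1]
        _ = _ := by group
    have e3 := r.not_comm (mul_mem (inv_mem ha') ha) e2
    apply Subtype.ext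
    exact (inv_mul_eq_one.1 e3).symm
  obtain ⟨a, ha⟩ := (Finite.injective_iff_surjective.1 hT) ⟨c, hc⟩
  exact ⟨a, a.2, congrArg Subtype.val ha⟩

theorem RA_comm_f {a : Γ} (ha : a ∈ zpowers f) : Commute a f := by
  obtain ⟨k, hk⟩ := ha
  have hk' : f ^ k = a := hk
  rw [← hk']
  exact (Commute.refl f).zpow_left k

theorem conj (r : Rel p q f h) {a : Γ} (ha : a ∈ zpowers f) : Rel p q f (a * h * a⁻¹) := by
  have hmem : a * h * a⁻¹ ∈ closure ({f, h} : Set Γ) :=
    mul_mem (mul_mem (RA_zf_le ha) RA_h_mem) (inv_mem (RA_zf_le ha))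
  refine ⟨r.pP, r.qP, r.ne, r.fq, ?_, r.RA_norm hmem (mem_zpowers f), ?_⟩
  · rw [conj_pow, r.hp]; group
  · intro hc
    apply r.nc
    have c1 : a * f = f * a := (RA_comm_f ha).eq
    have c2 : a⁻¹ * f = f * a⁻¹ := ((RA_comm_f ha).inv_left).eq
    calc h * f = a⁻¹ * (a * h * a⁻¹ * f) * a := by
          rw [mul_assoc (a * h), c2]
          have : a⁻¹ * (a * h * (f * a⁻¹)) * a = h * f := by group
          exact this.symm
      _ = a⁻¹ * (f * (a * h * a⁻¹)) * a := by rw [hc]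
      _ = (a⁻¹ * f) * a * h := by group
      _ = f * h := by rw [c2]; group

theorem closure_conj (r : Rel p q f h) {a : Γ} (ha : a ∈ zpowers f) :
    closure {f, a * h * a⁻¹} = closure {f, h} := by
  apply le_antisymm
  · rw [closure_le]
    rintro x (rfl | rfl)
    · exact RA_f_mem
    · exact mul_mem (mul_mem (RA_zf_le ha) RA_h_mem) (inv_mem (RA_zf_le ha))
  · rw [closure_le]
    rintro x (rfl | rfl)
    · exact RA_f_mem
    · have h1 : a ∈ closure ({f, a * x * a⁻¹} : Set Γ) := RA_zf_le ha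
      have h2 : a * x * a⁻¹ ∈ closure ({f, a * x * a⁻¹} : Set Γ) := RA_h_mem
      have e : a⁻¹ * (a * x * a⁻¹) * a = x := by group
      have h3 := mul_mem (mul_mem (inv_mem h1) h2) h1
      rw [e] at h3
      exact h3

theorem outside (r : Rel p q f h) {g : Γ} (hg : g ∈ closure {f, h}) (hgF : g ∉ zpowers f) :
    ∃ a ∈ zpowers f, a * h * a⁻¹ ∈ zpowers g := by
  obtain ⟨a₀, ha₀, c, hc, rfl⟩ := (r.mem_closure g).1 hg
  have hc1 : c ≠ 1 := by
    rintro rfl
    apply hgF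
    simpa using ha₀
  have hzc := r.zpowers_h_eq hc hc1
  obtain ⟨i, hi⟩ : h ∈ zpowers c := by rw [hzc]; exact mem_zpowers h
  have hi' : c ^ i = h := hi
  have rc : Rel p q f c := by
    refine ⟨r.pP, r.qP, r.ne, r.fq, ?_, r.RA_norm (RA_zh_le hc) (mem_zpowers f), ?_⟩
    · obtain ⟨k, hk⟩ := hc
      have hk' : h ^ k = c := hk
      rw [← hk', ← zpow_natCast, ← zpow_mul, mul_comm, zpow_mul, zpow_natCast, r.hp, one_zpow]
    · intro hcf
      apply r.nc
      rw [← hi']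
      have : Commute c f := hcf
      exact (this.zpow_left i).eq
  obtain ⟨a, ha, hac⟩ := rc.conj_surj ha₀
  refine ⟨a, ha, ?_⟩
  have e : a₀ * c = a * c * a⁻¹ := by rw [← hac]; group
  rw [e, ← hi', ← conj_zpow]
  exact zpow_mem (mem_zpowers _) i

theorem closure_two_conj (r : Rel p q f h) {a : Γ} (ha : a ∈ zpowers f) (h1 : a ≠ 1) :
    closure {h, a * h * a⁻¹} = closure {f, h} := by
  apply le_antisymm
  · rw [closure_le]
    rintro x (rfl | rfl)
    · exact RA_h_mem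
    · exact mul_mem (mul_mem (RA_zf_le ha) RA_h_mem) (inv_mem (RA_zf_le ha))
  · have m1 : h ∈ closure ({h, a * h * a⁻¹} : Set Γ) := subset_closure (by simp)
    have m2 : a * h * a⁻¹ ∈ closure ({h, a * h * a⁻¹} : Set Γ) := subset_closure (by simp)
    have hd : a * h * a⁻¹ * h⁻¹ ∈ zpowers f := by
      have := mul_mem ha (r.conj_mem (inv_mem ha))
      have e : a * (h * a⁻¹ * h⁻¹) = a * h * a⁻¹ * h⁻¹ := by group
      rwa [e] at this
    have hd1 : a * h * a⁻¹ * h⁻¹ ≠ 1 := by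
      intro e
      apply h1
      apply r.not_comm ha
      have e1 : a * h * a⁻¹ = h := mul_inv_eq_one.1 e
      exact mul_inv_eq_iff_eq_mul.1 e1
    have hz := r.zpowers_f_eq hd hd1
    have hf : f ∈ closure ({h, a * h * a⁻¹} : Set Γ) := by
      have h2 : f ∈ zpowers (a * h * a⁻¹ * h⁻¹) := by rw [hz]; exact mem_zpowers f
      have h3 : zpowers (a * h * a⁻¹ * h⁻¹) ≤ closure ({h, a * h * a⁻¹} : Set Γ) := by
        rw [zpowers_le]; exact mul_mem m2 (inv_mem m1)
      exact h3 h2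
    rw [closure_le]
    rintro x (rfl | rfl)
    · exact hf
    · exact m1

end Rel

theorem comm_zpowers_le {Γ : Type*} [Group Γ] (S H : Subgroup Γ) (b : Γ)
    (bS : b ∈ normalizer (S : Set Γ)) (hH : ∀ x ∈ S, ⁅x, b⁆ ∈ H) : ⁅S, zpowers b⁆ ≤ H := by
  have hn : ∀ (j : ℤ) (x : Γ), x ∈ S → b ^ j * x * (b ^ j)⁻¹ ∈ S := fun j x hx =>
    (mem_normalizer_iff.1 (zpow_mem bS j) x).1 hx
  have hinv : ∀ y ∈ S, ⁅y, b⁻¹⁆ ∈ H := by
    intro y hy
    have h1 : b⁻¹ * y * b ∈ S := by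
      have := hn (-1) y hy
      simpa using this
    have e : ⁅y, b⁻¹⁆ = ⁅b⁻¹ * y * b, b⁆⁻¹ := by
      simp only [commutatorElement_def]; group
    rw [e]
    exact inv_mem (hH _ h1)
  have key : ∀ (k : ℤ), ∀ x ∈ S, ⁅x, b ^ k⁆ ∈ H := by
    intro k
    induction k using Int.induction_on with
    | zero => intro x _; simp
    | succ j ih =>
      intro x hx
      have e : ⁅x, b ^ ((j : ℤ) + 1)⁆ = ⁅x, b ^ (j : ℤ)⁆ * ⁅b ^ (j : ℤ) * x * (b ^ (j : ℤ))⁻¹, b⁆ := by
        simp only [commutatorElement_def]; group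
      rw [e]
      exact mul_mem (ih x hx) (hH _ (hn _ x hx))
    | pred j ih =>
      intro x hx
      have e : ⁅x, b ^ (-(j : ℤ) - 1)⁆ =
          ⁅x, b ^ (-(j : ℤ))⁆ * ⁅b ^ (-(j : ℤ)) * x * (b ^ (-(j : ℤ)))⁻¹, b⁻¹⁆ := by
        simp only [commutatorElement_def]; group
      rw [e]
      exact mul_mem (ih x hx) (hinv _ (hn _ x hx))
  rw [Subgroup.commutator_le]
  rintro x hx _ ⟨k, rfl⟩
  exact key k x hx

end Cfsg.Agent.Lib.Helper46.FrobPQ
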