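import Mathlib
import Cfsg.Agent.Lib.Helper46.FrobPQ.Defs

/-!
# S4306 farm, piece [WI]   (file Cfsg/Agent/Lib/Helper46/FrobPQ/Wt.lean)

PAPER PROOF.
* wt_indep (independence of weight vectors): Finset induction on `s`.  For `insert a s'`: for z ∈ Z apply ρ z to the
  relation and subtract μ a z times the relation: ∑_{i ∈ s'} (μ i z - μ a z) • v i = 0; the vectors
  (μ i z - μ a z) • v i are again weight vectors, so by IH (μ i z - μ a z) • v i = 0 for all i ∈ s', z ∈ Z; choose z with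
  μ i z ≠ μ a z.  Then v a = 0 too.
* wt_conj: ρ z (ρ g v) = ρ g (ρ (g⁻¹ z g) v).  wt_stab: same + definition of stab (applied to g⁻¹ ∈ stab).
* wt_mul, wt_one, wt_inv, wt_pow: pick 0 ≠ v ∈ wt (Submodule.exists_mem_ne_zero_of_ne_bot), compare scalars.
* sum_fixed_mem: reindex by Equiv.mulLeft.  sum_fixed_norm: ρ c ρ g v = ρ (c g c⁻¹) ρ c v; reindex by conjugation.
* free_orbit: wt_indep with ι = ↥B, s = univ, μ_g z = μ (g⁻¹ z g), v_g = ρ g v (wt_conj).  If μ_g = μ_g' on Z then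
  g'⁻¹ g ∈ stab Z μ (substitute z = g z' g⁻¹), so g = g'.  Hence ρ 1 v = 0.
-/

set_option autoImplicit false
set_option linter.unusedSectionVars false
set_option linter.unusedVariables false

namespace Cfsg.Agent.Lib.Helper46.FrobPQ

open Subgroup
open scoped commutatorElement

universe u

variable {E : Type*} [Field E] {U : Type*} [AddCommGroup U] [Module E U]
  {Γ : Type*} [Group Γ] [Finite Γ]

theorem wt_indep (ρ : Γ →* Module.End E U) (Z : Subgroup Γ) {ι : Type*} (s : Finset ι)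
    (μ : ι → Γ → E) (v : ι → U) (hv : ∀ i ∈ s, v i ∈ wt ρ Z (μ i))
    (hdist : ∀ i ∈ s, ∀ j ∈ s, i ≠ j → ∃ z ∈ Z, μ i z ≠ μ j z)
    (hsum : ∑ i ∈ s, v i = 0) : ∀ i ∈ s, v i = 0 := by
  classical
  induction s using Finset.induction_on generalizing v with
  | empty => simp
  | insert a s' ha ih =>
    have key : ∀ i ∈ s', v i = 0 := by
      intro i hi
      obtain ⟨z, hz, hne⟩ := hdist i (Finset.mem_insert_of_mem hi) a (Finset.mem_insert_self _ _)
        (by rintro rfl; exact ha hi)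
      have h1 : ∑ j ∈ s', (μ j z - μ a z) • v j = 0 := by
        have e1 := congrArg (ρ z) hsum
        rw [Finset.sum_insert ha, map_add, map_sum, map_zero,
          hv a (Finset.mem_insert_self _ _) z hz] at e1
        rw [Finset.sum_insert ha] at hsum
        have e2 : ∑ j ∈ s', ρ z (v j) = ∑ j ∈ s', μ j z • v j :=
          Finset.sum_congr rfl (fun j hj => hv j (Finset.mem_insert_of_mem hj) z hz)
        rw [e2] at e1
        simp only [sub_smul, Finset.sum_sub_distrib, ← Finset.smul_sum]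
        have e3 : ∑ j ∈ s', v j = - v a := by
          rw [eq_neg_iff_add_eq_zero, add_comm]; exact hsum
        rw [e3, smul_neg, sub_neg_eq_add, add_comm]
        exact e1
      have h2 := ih (fun j => (μ j z - μ a z) • v j)
        (fun j hj => (wt ρ Z (μ j)).smul_mem _ (hv j (Finset.mem_insert_of_mem hj)))
        (fun i hi j hj => hdist i (Finset.mem_insert_of_mem hi) j (Finset.mem_insert_of_mem hj))
        h1 i hi
      exact (smul_eq_zero.1 h2).resolve_left (sub_ne_zero.2 hne)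
    intro i hi
    rcases Finset.mem_insert.1 hi with rfl | hi
    · rw [Finset.sum_insert ha, Finset.sum_eq_zero key, add_zero] at hsum
      exact hsum
    · exact key i hi

theorem wt_conj (ρ : Γ →* Module.End E U) (Z : Subgroup Γ) (μ : Γ → E) {g : Γ}
    (hg : g ∈ normalizer (Z : Set Γ)) {v : U} (hv : v ∈ wt ρ Z μ) :
    ρ g v ∈ wt ρ Z (fun z => μ (g⁻¹ * z * g)) := by
  intro z hz
  have h1 : g⁻¹ * z * g ∈ Z := by
    have := (mem_normalizer_iff.1 (inv_mem hg) z).1 hz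
    simpa using this
  have h2 := hv _ h1
  calc ρ z (ρ g v) = ρ g (ρ (g⁻¹ * z * g) v) := by
        rw [← Module.End.mul_apply, ← Module.End.mul_apply, ← map_mul, ← map_mul]
        congr 2
        group
    _ = _ := by rw [h2, map_smul]

theorem wt_stab (ρ : Γ →* Module.End E U) (Z : Subgroup Γ) (μ : Γ → E) {g : Γ}
    (hg : g ∈ stab Z μ) {v : U} (hv : v ∈ wt ρ Z μ) : ρ g v ∈ wt ρ Z μ := by
  intro z hz
  have h1 := wt_conj ρ Z μ hg.1 hv z hz
  have h2 := (inv_mem hg).2 z hz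
  rw [inv_inv] at h2
  rw [h1]
  change μ (g⁻¹ * z * g) • _ = _
  rw [h2]

theorem wt_mul {ρ : Γ →* Module.End E U} {Z : Subgroup Γ} {μ : Γ → E} (hne : wt ρ Z μ ≠ ⊥)
    {z w : Γ} (hz : z ∈ Z) (hw : w ∈ Z) : μ (z * w) = μ z * μ w := by
  obtain ⟨v, hv, hv0⟩ := Submodule.exists_mem_ne_zero_of_ne_bot hne
  have h1 := hv (z * w) (mul_mem hz hw)
  rw [map_mul, Module.End.mul_apply, hv w hw, map_smul, hv z hz, smul_smul] at h1
  have h2 : (μ w * μ z - μ (z * w)) • v = 0 := by rw [sub_smul, h1, sub_self]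
  have h3 := (smul_eq_zero.1 h2).resolve_right hv0
  rw [mul_comm]
  exact (sub_eq_zero.1 h3).symm

theorem wt_one {ρ : Γ →* Module.End E U} {Z : Subgroup Γ} {μ : Γ → E} (hne : wt ρ Z μ ≠ ⊥) :
    μ 1 = 1 := by
  obtain ⟨v, hv, hv0⟩ := Submodule.exists_mem_ne_zero_of_ne_bot hne
  have h1 := hv 1 (one_mem _)
  rw [map_one, Module.End.one_apply] at h1
  have h2 : (1 - μ 1) • v = 0 := by rw [sub_smul, one_smul, ← h1, sub_self]
  have h3 := (smul_eq_zero.1 h2).resolve_right hv0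
  exact (sub_eq_zero.1 h3).symm

theorem wt_inv {ρ : Γ →* Module.End E U} {Z : Subgroup Γ} {μ : Γ → E} (hne : wt ρ Z μ ≠ ⊥)
    {z : Γ} (hz : z ∈ Z) : μ z⁻¹ = (μ z)⁻¹ := by
  apply eq_inv_of_mul_eq_one_left
  rw [← wt_mul hne (inv_mem hz) hz, inv_mul_cancel, wt_one hne]

theorem wt_pow {ρ : Γ →* Module.End E U} {Z : Subgroup Γ} {μ : Γ → E} (hne : wt ρ Z μ ≠ ⊥)
    {z : Γ} (hz : z ∈ Z) (k : ℕ) : μ (z ^ k) = μ z ^ k := by
  induction k with
  | zero => rw [pow_zero, pow_zero, wt_one hne]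
  | succ k ih => rw [pow_succ, pow_succ, wt_mul hne (pow_mem hz k) hz, ih]

theorem sum_fixed_mem (ρ : Γ →* Module.End E U) (B : Subgroup Γ) [Fintype B] (v : U) {c : Γ}
    (hc : c ∈ B) : ρ c (∑ g : B, ρ (g : Γ) v) = ∑ g : B, ρ (g : Γ) v := by
  rw [map_sum]
  refine Fintype.sum_equiv (Equiv.mulLeft (⟨c, hc⟩ : B)) _ _ ?_
  intro g
  rw [← Module.End.mul_apply, ← map_mul]
  rfl

theorem sum_fixed_norm (ρ : Γ →* Module.End E U) (B : Subgroup Γ) [Fintype B] (v : U) {c : Γ}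
    (hc : c ∈ normalizer (B : Set Γ)) (hcv : ρ c v = v) :
    ρ c (∑ g : B, ρ (g : Γ) v) = ∑ g : B, ρ (g : Γ) v := by
  rw [map_sum]
  let e : B ≃ B :=
    { toFun := fun g => ⟨c * g * c⁻¹, (mem_normalizer_iff.1 hc g).1 g.2⟩
      invFun := fun g => ⟨c⁻¹ * g * c, by
        have := (mem_normalizer_iff.1 (inv_mem hc) g).1 g.2
        simpa using this⟩
      left_inv := fun g => by
        apply Subtype.ext
        change c⁻¹ * (c * g * c⁻¹) * c = g
        group
      right_inv := fun g => by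
        apply Subtype.ext
        change c * (c⁻¹ * g * c) * c⁻¹ = g
        group }
  refine Fintype.sum_equiv e _ _ ?_
  intro g
  change ρ c (ρ (g : Γ) v) = ρ (c * g * c⁻¹) v
  conv_rhs => rw [← hcv]
  rw [← Module.End.mul_apply, ← Module.End.mul_apply, ← map_mul, ← map_mul]
  congr 2
  group

theorem free_orbit (ρ : Γ →* Module.End E U) (Z B : Subgroup Γ) [Fintype B]
    (hB : B ≤ normalizer (Z : Set Γ)) (μ : Γ → E) {v : U} (hv : v ∈ wt ρ Z μ)
    (hfree : ∀ g ∈ B, g ∈ stab Z μ → g = 1) (hsum : ∑ g : B, ρ (g : Γ) v = 0) : v = 0 := by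
  have h := wt_indep ρ Z (Finset.univ : Finset B) (fun g z => μ ((g : Γ)⁻¹ * z * g))
    (fun g => ρ (g : Γ) v) (fun g _ => wt_conj ρ Z μ (hB g.2) hv) ?_ hsum 1 (Finset.mem_univ _)
  · simpa using h
  · intro g _ g' _ hne
    by_contra hcon
    push Not at hcon
    apply hne
    have h1 : (g' : Γ)⁻¹ * g ∈ stab Z μ := by
      refine ⟨mul_mem (inv_mem (hB g'.2)) (hB g.2), fun z hz => ?_⟩
      have hz' : (g : Γ) * z * (g : Γ)⁻¹ ∈ Z := (mem_normalizer_iff.1 (hB g.2) z).1 hz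
      have h2 := hcon _ hz'
      have e1 : (g : Γ)⁻¹ * ((g : Γ) * z * (g : Γ)⁻¹) * g = z := by group
      have e2 : (g' : Γ)⁻¹ * g * z * ((g' : Γ)⁻¹ * g)⁻¹ =
          (g' : Γ)⁻¹ * ((g : Γ) * z * (g : Γ)⁻¹) * g' := by group
      rw [e1] at h2
      rw [e2, ← h2]
    have h3 := hfree _ (mul_mem (inv_mem g'.2) g.2) h1
    apply Subtype.ext
    exact (inv_mul_eq_one.1 h3).symm

end Cfsg.Agent.Lib.Helper46.FrobPQ
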