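import Mathlib
import Cfsg.Agent.Lib.Helper46.FrobPQ.Defs
import Cfsg.Agent.Lib.Helper46.FrobPQ.Rel
import Cfsg.Agent.Lib.Helper46.FrobPQ.Wt

/-!
# S4306 farm, piece [ST]   (file Cfsg/Agent/Lib/Helper46/FrobPQ/StabTri.lean)

PAPER PROOF.
T := stab Z μ, A := closure {f, h} ≤ normalizer Z, F := zpowers f.  Fix 0 ≠ v ∈ wt ρ Z μ where needed.
Case f ∈ T, h ∈ T: first alternative.
Case f ∈ T, h ∉ T: second alternative.  Let v ∈ wt, ρ f v = v.  B := zpowers h.  w = ∑_{g:B} ρ g v is fixed by h (sum_fixed_mem) and by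
  f: ρ f ρ g v = ρ g ρ (g⁻¹ f g) v and g⁻¹ f g ∈ F fixes v (every power of f fixes v).  So w = 0 by fixU.
  B ⊓ T = 1 (g ∈ B, g ≠ 1, g ∈ T ⇒ h ∈ zpowers g ≤ T by Rel.zpowers_h_eq).  free_orbit ⇒ v = 0.
Case f ∉ T and some a ∈ F has h' := a h a⁻¹ ∈ T: third alternative.  Let v ∈ wt, ρ h' v = v, B := F.  w = ∑_{g:F} ρ g v is fixed by f
  (sum_fixed_mem) and by h' (sum_fixed_norm; h' normalizes F), hence by h = a⁻¹ h' a.  w = 0; F ⊓ T = 1 (Rel.zpowers_f_eq); free_orbit.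
Case f ∉ T and no a h a⁻¹ ∈ T (a ∈ F): then A ⊓ T = 1 (g ∈ A ⊓ T: if g ∈ F, g ≠ 1 then f ∈ T; if g ∉ F then Rel.outside gives
  a h a⁻¹ ∈ zpowers g ≤ T).  For 0 ≠ v ∈ wt, w = ∑_{g:A} ρ g v is fixed by f and h, so w = 0, free_orbit ⇒ v = 0: contradiction with hne.
-/

set_option autoImplicit false
set_option linter.unusedSectionVars false
set_option linter.unusedVariables false

namespace Cfsg.Agent.Lib.Helper46.FrobPQ

open Subgroup
open scoped commutatorElement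

universe u

variable {E : Type*} [Field E] {U : Type*} [AddCommGroup U] [Module E U]
  {Γ : Type*} [Group Γ] [Finite Γ]

/-- the elements fixing a vector -/
def ST_fixer (ρ : Γ →* Module.End E U) (v : U) : Subgroup Γ where
  carrier := {a | ρ a v = v}
  mul_mem' := by
    intro a b ha hb
    show ρ (a * b) v = v
    rw [map_mul, Module.End.mul_apply, (hb : ρ b v = v), (ha : ρ a v = v)]
  one_mem' := by
    show ρ 1 v = v
    rw [map_one, Module.End.one_apply]
  inv_mem' := by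
    intro a ha
    show ρ a⁻¹ v = v
    have h1 : ρ a⁻¹ (ρ a v) = v := by
      rw [← Module.End.mul_apply, ← map_mul, inv_mul_cancel, map_one, Module.End.one_apply]
    rwa [(ha : ρ a v = v)] at h1

theorem ST_fix_zpowers (ρ : Γ →* Module.End E U) {v : U} {f : Γ} (hf : ρ f v = v) {a : Γ}
    (ha : a ∈ zpowers f) : ρ a v = v := by
  have h1 : zpowers f ≤ ST_fixer ρ v := (zpowers_le).mpr hf
  exact h1 ha

theorem stab_tri (ρ : Γ →* Module.End E U) {p q : ℕ} {f h : Γ} (r : Rel p q f h)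
    (Z : Subgroup Γ) (fZ : f ∈ normalizer (Z : Set Γ)) (hZ : h ∈ normalizer (Z : Set Γ))
    (fixU : ∀ v : U, ρ f v = v → ρ h v = v → v = 0) (μ : Γ → E) (hne : wt ρ Z μ ≠ ⊥) :
    ((∀ z ∈ Z, μ (f * z * f⁻¹) = μ z) ∧ (∀ z ∈ Z, μ (h * z * h⁻¹) = μ z)) ∨
    ((∀ z ∈ Z, μ (f * z * f⁻¹) = μ z) ∧ ∀ v ∈ wt ρ Z μ, ρ f v = v → v = 0) ∨
    (∃ a ∈ zpowers f, (∀ z ∈ Z, μ ((a * h * a⁻¹) * z * (a * h * a⁻¹)⁻¹) = μ z) ∧
      ∀ v ∈ wt ρ Z μ, ρ (a * h * a⁻¹) v = v → v = 0) := by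
  classical
  have hAZ : closure {f, h} ≤ normalizer (Z : Set Γ) := by
    rw [closure_le]
    intro x hx
    rcases hx with rfl | hx
    · exact fZ
    · rw [Set.mem_singleton_iff.mp hx]; exact hZ
  have hfA : f ∈ closure ({f, h} : Set Γ) := subset_closure (by simp)
  have hhA : h ∈ closure ({f, h} : Set Γ) := subset_closure (by simp)
  have hFA : zpowers f ≤ closure ({f, h} : Set Γ) := zpowers_le.mpr hfA
  have hHA : zpowers h ≤ closure ({f, h} : Set Γ) := zpowers_le.mpr hhA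
  have hAF := r.closure_le_normalizer
  by_cases hfT : f ∈ stab Z μ
  · by_cases hhT : h ∈ stab Z μ
    · exact Or.inl ⟨hfT.2, hhT.2⟩
    · refine Or.inr (Or.inl ⟨hfT.2, fun v hv hfv => ?_⟩)
      have : Fintype (zpowers h) := Fintype.ofFinite _
      have h1 : ρ h (∑ g : zpowers h, ρ (g : Γ) v) = ∑ g : zpowers h, ρ (g : Γ) v :=
        sum_fixed_mem ρ (zpowers h) v (mem_zpowers h)
      have h2 : ρ f (∑ g : zpowers h, ρ (g : Γ) v) = ∑ g : zpowers h, ρ (g : Γ) v := by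
        rw [map_sum]
        refine Finset.sum_congr rfl fun g _ => ?_
        have hg : (g : Γ)⁻¹ ∈ normalizer ((zpowers f : Subgroup Γ) : Set Γ) :=
          hAF (inv_mem (hHA g.2))
        have h3 : (g : Γ)⁻¹ * f * (g : Γ)⁻¹⁻¹ ∈ zpowers f :=
          (mem_normalizer_iff.1 hg f).1 (mem_zpowers f)
        have h4 := ST_fix_zpowers ρ hfv h3
        have h5 : f * (g : Γ) = g * ((g : Γ)⁻¹ * f * (g : Γ)⁻¹⁻¹) := by group
        rw [← Module.End.mul_apply, ← map_mul, h5, map_mul, Module.End.mul_apply, h4]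
      have h0 := fixU _ h2 h1
      refine free_orbit ρ Z (zpowers h) (hHA.trans hAZ) μ hv ?_ h0
      intro g hg hgT
      by_contra hg1
      apply hhT
      have h6 := r.zpowers_h_eq hg hg1
      have h7 : zpowers g ≤ stab Z μ := zpowers_le.mpr hgT
      exact h7 (h6 ▸ mem_zpowers h)
  · have hFfree : ∀ g ∈ zpowers f, g ∈ stab Z μ → g = 1 := by
      intro g hg hgT
      by_contra hg1
      apply hfT
      have h6 := r.zpowers_f_eq hg hg1
      have h7 : zpowers g ≤ stab Z μ := zpowers_le.mpr hgT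
      exact h7 (h6 ▸ mem_zpowers f)
    by_cases hex : ∃ a ∈ zpowers f, a * h * a⁻¹ ∈ stab Z μ
    · obtain ⟨a, ha, haT⟩ := hex
      refine Or.inr (Or.inr ⟨a, ha, haT.2, fun v hv hhv => ?_⟩)
      have : Fintype (zpowers f) := Fintype.ofFinite _
      have h1 : ρ f (∑ g : zpowers f, ρ (g : Γ) v) = ∑ g : zpowers f, ρ (g : Γ) v :=
        sum_fixed_mem ρ (zpowers f) v (mem_zpowers f)
      have ha1 : ρ a (∑ g : zpowers f, ρ (g : Γ) v) = ∑ g : zpowers f, ρ (g : Γ) v :=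
        sum_fixed_mem ρ (zpowers f) v ha
      have ha2 : ρ a⁻¹ (∑ g : zpowers f, ρ (g : Γ) v) = ∑ g : zpowers f, ρ (g : Γ) v :=
        sum_fixed_mem ρ (zpowers f) v (inv_mem ha)
      have hh'A : a * h * a⁻¹ ∈ closure ({f, h} : Set Γ) :=
        mul_mem (mul_mem (hFA ha) hhA) (inv_mem (hFA ha))
      have h2 : ρ (a * h * a⁻¹) (∑ g : zpowers f, ρ (g : Γ) v) = ∑ g : zpowers f, ρ (g : Γ) v :=
        sum_fixed_norm ρ (zpowers f) v (hAF hh'A) hhv
      have h3 : ρ h (∑ g : zpowers f, ρ (g : Γ) v) = ∑ g : zpowers f, ρ (g : Γ) v := by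
        have e1 : h = a⁻¹ * (a * h * a⁻¹) * a := by group
        rw [e1, map_mul, map_mul, Module.End.mul_apply, Module.End.mul_apply, ha1, h2, ha2]
      have h0 := fixU _ h1 h3
      exact free_orbit ρ Z (zpowers f) (hFA.trans hAZ) μ hv hFfree h0
    · exfalso
      push Not at hex
      obtain ⟨v, hv, hv0⟩ := Submodule.exists_mem_ne_zero_of_ne_bot hne
      apply hv0
      have : Fintype (closure ({f, h} : Set Γ)) := Fintype.ofFinite _
      have h1 := sum_fixed_mem ρ (closure ({f, h} : Set Γ)) v hfA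
      have h2 := sum_fixed_mem ρ (closure ({f, h} : Set Γ)) v hhA
      have h0 := fixU _ h1 h2
      refine free_orbit ρ Z (closure ({f, h} : Set Γ)) hAZ μ hv ?_ h0
      intro g hg hgT
      by_cases hgF : g ∈ zpowers f
      · exact hFfree g hgF hgT
      · exfalso
        obtain ⟨a, ha, hag⟩ := r.outside hg hgF
        have h7 : zpowers g ≤ stab Z μ := zpowers_le.mpr hgT
        exact hex a ha (h7 hag)

end Cfsg.Agent.Lib.Helper46.FrobPQ
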