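import Mathlib
import Cfsg.Agent.Lib.Helper46.FrobPQ.Defs
import Cfsg.Agent.Lib.Helper46.FrobPQ.Rel
import Cfsg.Agent.Lib.Helper46.FrobPQ.Wt
import Cfsg.Agent.Lib.Helper46.FrobPQ.ExWt
import Cfsg.Agent.Lib.Helper46.FrobPQ.StabTri
import Cfsg.Agent.S0026

/-!
# S4306 farm, piece [AW]   (file Cfsg/Agent/Lib/Helper46/FrobPQ/AbW.lean)

PAPER PROOF.
* cardQ: card Q = t^k and (t : E) ≠ 0.
* exists_lam: by `bad` there are x ∈ S, g ∈ Q with ⁅x,g⁆ ≠ 1; ⁅x,g⁆ ∈ Q (x normalizes Q), ρ ⁅x,g⁆ ≠ 1 by inj.  exists_wt with X = ⊤, R = Q, z₁ = ⁅x,g⁆.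
* inv_triv: A := closure {f,h} ≤ stab Z lam.  S0026 (A acting on Z; card A = p q prime to card Z ∣ card Q = t^k; Z solvable as abelian): Z = ⁅Z,A⁆ ⊔ (Z ⊓ C(A)) = ⁅Z,A⁆ (fixQ).  {g ∈ Z | lam g = 1} is a subgroup (wt_mul, wt_inv) containing all ⁅z,a⁆ = z (a z⁻¹ a⁻¹).
* tri: lam' := fun g => lam (x⁻¹ g x) is a weight: wt ρ Q lam' ≠ ⊥ (wt_conj, ρ x injective).  stab_tri for Z = Q, μ = lam'.  In the alternatives 1, 2: f ∈ stab Q lam', in 3: a h a⁻¹ ∈ stab Q lam'.  And γ ∈ stab Q lam' ⇒ x⁻¹ γ x ∈ stab Q lam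
  (substitute g = x g' x⁻¹).
* cent_le_stab: γ g γ⁻¹ = g.   * lam_comm_of_stab: ⁅x,g⁆ = (x g x⁻¹) g⁻¹, wt_mul, wt_inv, (lam g ≠ 0 since lam g * lam g⁻¹ = lam 1 = 1).
-/

set_option autoImplicit false
set_option linter.unusedSectionVars false
set_option linter.unusedVariables false

namespace Cfsg.Agent.Lib.Helper46.FrobPQ

open Subgroup
open scoped commutatorElement

universe u

variable {E : Type*} [Field E] {U : Type*} [AddCommGroup U] [Module E U]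
  {Γ : Type*} [Group Γ] [Finite Γ]

variable {ρ : Γ →* Module.End E U} {Q S : Subgroup Γ} {f h : Γ} {t s p q : ℕ}

theorem Cfg.cardQ (c : Cfg ρ Q S f h t s p q) : (Nat.card Q : E) ≠ 0 := by
  have : Fact t.Prime := ⟨c.tP⟩
  obtain ⟨k, hk⟩ := IsPGroup.iff_card.mp c.Qt
  rw [hk]
  push_cast
  exact pow_ne_zero k c.tE

theorem Cfg.exists_lam [IsAlgClosed E] [FiniteDimensional E U] (c : Cfg ρ Q S f h t s p q)
    (hab : ∀ g ∈ Q, ∀ y ∈ Q, g * y = y * g) :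
    ∃ lam : Γ → E, wt ρ Q lam ≠ ⊥ ∧ ∃ x ∈ S, ∃ g ∈ Q, lam ⁅x, g⁆ ≠ 1 := by
  have hbad := c.bad
  rw [SetLike.not_le_iff_exists] at hbad
  obtain ⟨x, hx, hxc⟩ := hbad
  rw [mem_centralizer_iff] at hxc
  push Not at hxc
  obtain ⟨g, hg, hgx⟩ := hxc
  have hg' : g ∈ Q := hg
  have hz1 : ⁅x, g⁆ ≠ 1 := by
    intro h1
    rw [commutatorElement_eq_one_iff_mul_comm] at h1
    exact hgx h1.symm
  have hzQ : ⁅x, g⁆ ∈ Q := by
    rw [commutatorElement_def]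
    exact Q.mul_mem ((mem_normalizer_iff.1 (c.SQ hx) g).1 hg') (Q.inv_mem hg')
  have hρ : ρ ⁅x, g⁆ ≠ 1 := fun h1 => hz1 (c.inj _ hzQ h1)
  have hv : ∃ v ∈ (⊤ : Submodule E U), ρ ⁅x, g⁆ v ≠ v := by
    by_contra hcon
    push Not at hcon
    apply hρ
    ext v
    exact hcon v trivial
  obtain ⟨η, v, _, hv0, hvw, hη⟩ := exists_wt ρ ⊤ Q (fun _ _ _ _ => trivial)
    (fun z hz w hw v _ => by
      rw [← Module.End.mul_apply, ← Module.End.mul_apply, ← map_mul, ← map_mul, hab z hz w hw])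
    c.cardQ ⁅x, g⁆ hzQ hv
  refine ⟨η, ?_, x, hx, g, hg', hη⟩
  intro hbot
  rw [hbot, Submodule.mem_bot] at hvw
  exact hv0 hvw

theorem Cfg.inv_triv (c : Cfg ρ Q S f h t s p q) (Z : Subgroup Γ) (hZ : Z ≤ Q)
    (hab : ∀ g ∈ Z, ∀ y ∈ Z, g * y = y * g)
    (lam : Γ → E) (hne : wt ρ Z lam ≠ ⊥) (hf : f ∈ stab Z lam) (hh : h ∈ stab Z lam) :
    ∀ g ∈ Z, lam g = 1 := by
  have : Fact t.Prime := ⟨c.tP⟩
  have hA : closure {f, h} ≤ stab Z lam := by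
    rw [closure_le]
    intro x hx
    rcases hx with rfl | hx
    · exact hf
    · rw [Set.mem_singleton_iff.mp hx]; exact hh
  have hAZ : closure {f, h} ≤ normalizer (Z : Set Γ) := fun x hx => (hA hx).1
  have hcop : (Nat.card (closure ({f, h} : Set Γ))).Coprime (Nat.card Z) := by
    rw [c.rel.card_closure]
    obtain ⟨k, hk⟩ := IsPGroup.iff_card.mp (c.Qt.to_le hZ)
    rw [hk]
    apply Nat.Coprime.pow_right
    exact Nat.Coprime.mul_left ((Nat.coprime_primes c.rel.pP c.tP).mpr c.tp.symm)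
      ((Nat.coprime_primes c.rel.qP c.tP).mpr c.tq.symm)
  have h1 := Cfsg.Agent.S0026.result (closure ({f, h} : Set Γ)) Z hAZ hcop
    (Or.inl c.rel.solvable_closure)
  have h2 : Z ⊓ centralizer ((closure ({f, h} : Set Γ) : Subgroup Γ) : Set Γ) = ⊥ := by
    rw [eq_bot_iff]
    intro g hg
    rw [mem_bot]
    have hgc := mem_centralizer_iff.1 hg.2
    exact c.fixQ g (hZ hg.1) (hgc f (subset_closure (by simp)))
      (hgc h (subset_closure (by simp)))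
  rw [h2, sup_bot_eq] at h1
  let L : Subgroup Γ :=
    { carrier := {g | g ∈ Z ∧ lam g = 1}
      one_mem' := ⟨Z.one_mem, wt_one hne⟩
      mul_mem' := by
        rintro a b ⟨ha, ha'⟩ ⟨hb, hb'⟩
        exact ⟨Z.mul_mem ha hb, by rw [wt_mul hne ha hb, ha', hb', one_mul]⟩
      inv_mem' := by
        rintro a ⟨ha, ha'⟩
        exact ⟨Z.inv_mem ha, by rw [wt_inv hne ha, ha', inv_one]⟩ }
  have h3 : ⁅Z, closure ({f, h} : Set Γ)⁆ ≤ L := by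
    rw [commutator_le]
    intro z hz a ha
    have h4 : a * z⁻¹ * a⁻¹ ∈ Z := (mem_normalizer_iff.1 (hAZ ha) z⁻¹).1 (Z.inv_mem hz)
    have h5 : ⁅z, a⁆ = z * (a * z⁻¹ * a⁻¹) := by
      rw [commutatorElement_def]; group
    rw [h5]
    refine ⟨Z.mul_mem hz h4, ?_⟩
    rw [wt_mul hne hz h4, (hA ha).2 z⁻¹ (Z.inv_mem hz), ← wt_mul hne hz (Z.inv_mem hz),
      mul_inv_cancel, wt_one hne]
  intro g hg
  exact (h3 (h1.symm ▸ hg)).2

/-- transport of the stabilizer -/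
theorem AW_conj_stab {Q : Subgroup Γ} {lam : Γ → E} {x γ : Γ} (hx : x ∈ normalizer (Q : Set Γ))
    (hγ : γ ∈ normalizer (Q : Set Γ))
    (hinv : ∀ z ∈ Q, lam (x⁻¹ * (γ * z * γ⁻¹) * x) = lam (x⁻¹ * z * x)) :
    x⁻¹ * γ * x ∈ stab Q lam := by
  refine ⟨mul_mem (mul_mem (inv_mem hx) hγ) hx, fun z hz => ?_⟩
  have h1 : x * z * x⁻¹ ∈ Q := (mem_normalizer_iff.1 hx z).1 hz
  have h2 := hinv _ h1
  have e1 : x⁻¹ * (γ * (x * z * x⁻¹) * γ⁻¹) * x = x⁻¹ * γ * x * z * (x⁻¹ * γ * x)⁻¹ := by group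
  have e2 : x⁻¹ * (x * z * x⁻¹) * x = z := by group
  rw [e1, e2] at h2
  exact h2

theorem Cfg.tri (c : Cfg ρ Q S f h t s p q)
    (lam : Γ → E) (hne : wt ρ Q lam ≠ ⊥) (x : Γ) (hx : x ∈ S) :
    x⁻¹ * f * x ∈ stab Q lam ∨ ∃ a ∈ zpowers f, x⁻¹ * (a * h * a⁻¹) * x ∈ stab Q lam := by
  have hxQ : x ∈ normalizer (Q : Set Γ) := c.SQ hx
  have hne' : wt ρ Q (fun z => lam (x⁻¹ * z * x)) ≠ ⊥ := by
    obtain ⟨v, hv, hv0⟩ := Submodule.exists_mem_ne_zero_of_ne_bot hne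
    have h1 := wt_conj ρ Q lam hxQ hv
    intro hbot
    rw [hbot, Submodule.mem_bot] at h1
    apply hv0
    have h2 : ρ x⁻¹ (ρ x v) = v := by
      rw [← Module.End.mul_apply, ← map_mul, inv_mul_cancel, map_one, Module.End.one_apply]
    rw [← h2, h1, map_zero]
  rcases stab_tri ρ c.rel Q c.fQ c.hQ c.fixU (fun z => lam (x⁻¹ * z * x)) hne' with h1 | h1 | h1
  · exact Or.inl (AW_conj_stab hxQ c.fQ h1.1)
  · exact Or.inl (AW_conj_stab hxQ c.fQ h1.1)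
  · obtain ⟨a, ha, h2, _⟩ := h1
    have haQ : a ∈ normalizer (Q : Set Γ) := (zpowers_le.mpr c.fQ) ha
    exact Or.inr ⟨a, ha, AW_conj_stab hxQ (mul_mem (mul_mem haQ c.hQ) (inv_mem haQ)) h2⟩

theorem cent_le_stab (Q : Subgroup Γ) (lam : Γ → E) : centralizer (Q : Set Γ) ≤ stab Q lam := by
  intro γ hγ
  refine ⟨centralizer_le_normalizer _ hγ, fun z hz => ?_⟩
  have h1 : z * γ = γ * z := (mem_centralizer_iff.1 hγ) z hz
  rw [← h1, mul_inv_cancel_right]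

theorem lam_comm_of_stab {ρ : Γ →* Module.End E U} {Q : Subgroup Γ} {lam : Γ → E}
    (hne : wt ρ Q lam ≠ ⊥) {x g : Γ} (hx : x ∈ stab Q lam) (hg : g ∈ Q) : lam ⁅x, g⁆ = 1 := by
  have h1 : x * g * x⁻¹ ∈ Q := (mem_normalizer_iff.1 hx.1 g).1 hg
  rw [commutatorElement_def, wt_mul hne h1 (Q.inv_mem hg), hx.2 g hg,
    ← wt_mul hne hg (Q.inv_mem hg), mul_inv_cancel, wt_one hne]

end Cfsg.Agent.Lib.Helper46.FrobPQ
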