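import Mathlib
import Cfsg.Agent.Lib.Helper46.FrobPQ.Defs

/-!
# S4306 farm, piece [SY]   (file Cfsg/Agent/Lib/Helper46/FrobPQ/Syl.lean)
-/

set_option autoImplicit false
set_option linter.unusedSectionVars false
set_option linter.unusedVariables false

namespace Cfsg.Agent.Lib.Helper46.FrobPQ

open Subgroup
open scoped commutatorElement Pointwise

universe u

variable {E : Type*} [Field E] {U : Type*} [AddCommGroup U] [Module E U]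
  {Γ : Type*} [Group Γ] [Finite Γ]

theorem Syl_mem_sup (S B : Subgroup Γ) (γ : Γ) (hB : B ≤ normalizer (S : Set Γ)) :
    γ ∈ S ⊔ B ↔ ∃ x ∈ S, ∃ a ∈ B, γ = x * a := by
  rw [← SetLike.mem_coe, coe_mul_of_right_le_normalizer_left S B hB, Set.mem_mul]
  constructor
  · rintro ⟨x, hx, a, ha, rfl⟩
    exact ⟨x, hx, a, ha, rfl⟩
  · rintro ⟨x, hx, a, ha, rfl⟩
    exact ⟨x, hx, a, ha, rfl⟩

theorem mem_sup_zpowers (S : Subgroup Γ) (f γ : Γ) (fS : f ∈ normalizer (S : Set Γ)) :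
    γ ∈ S ⊔ zpowers f ↔ ∃ x ∈ S, ∃ a ∈ zpowers f, γ = x * a :=
  Syl_mem_sup S _ γ ((zpowers_le).2 fS)

theorem mem_sup_closure (S : Subgroup Γ) (f h γ : Γ) (fS : f ∈ normalizer (S : Set Γ))
    (hS : h ∈ normalizer (S : Set Γ)) :
    γ ∈ S ⊔ closure {f, h} ↔ ∃ x ∈ S, ∃ a ∈ closure {f, h}, γ = x * a := by
  refine Syl_mem_sup S _ γ ((closure_le _).2 ?_)
  rintro x (rfl | rfl)
  · exact fS
  · exact hS

theorem Syl_isPGroup_zpowers {X : Type*} [Group X] (x : X) {q : ℕ} (hx : x ^ q = 1) :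
    IsPGroup q (zpowers x) := by
  rintro ⟨y, hy⟩
  obtain ⟨k, rfl⟩ := mem_zpowers_iff.1 hy
  refine ⟨1, ?_⟩
  ext
  simp only [pow_one, Subgroup.coe_pow, Subgroup.coe_one]
  rw [← zpow_natCast, ← zpow_mul, mul_comm, zpow_mul, zpow_natCast, hx, one_zpow]

theorem sylow_conj (S : Subgroup Γ) (f γ : Γ) {q : ℕ} (hq : q.Prime) (fq : f ^ q = 1)
    (fS : f ∈ normalizer (S : Set Γ)) (cop : ¬ q ∣ Nat.card S) (hγ : γ ∈ S ⊔ zpowers f)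
    (γq : γ ^ q = 1) : ∃ u ∈ S, u * γ * u⁻¹ ∈ zpowers f := by
  haveI : Fact q.Prime := ⟨hq⟩
  have hfH : f ∈ S ⊔ zpowers f := (le_sup_right : zpowers f ≤ S ⊔ zpowers f) (mem_zpowers f)
  have hPf : IsPGroup q (zpowers (⟨f, hfH⟩ : ↥(S ⊔ zpowers f))) :=
    Syl_isPGroup_zpowers _ (by ext; simpa using fq)
  have hPγ : IsPGroup q (zpowers (⟨γ, hγ⟩ : ↥(S ⊔ zpowers f))) :=
    Syl_isPGroup_zpowers _ (by ext; simpa using γq)
  obtain ⟨P₁, hP₁⟩ := hPf.exists_le_sylow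
  obtain ⟨P₂, hP₂⟩ := hPγ.exists_le_sylow
  obtain ⟨g, hg⟩ := MulAction.exists_smul_eq ↥(S ⊔ zpowers f) P₁ P₂
  have hzp : ∀ a : Γ, ∀ ha : a ∈ zpowers f, ∀ haH : a ∈ S ⊔ zpowers f,
      (⟨a, haH⟩ : ↥(S ⊔ zpowers f)) ∈ P₁ := by
    intro a ha haH
    apply hP₁
    obtain ⟨k, rfl⟩ := mem_zpowers_iff.1 ha
    refine mem_zpowers_iff.2 ⟨k, ?_⟩
    ext
    simp
  have key : ∀ x : ↥(S ⊔ zpowers f), x ∈ P₁ → (x : Γ) ∈ zpowers f := by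
    intro x hx
    obtain ⟨y, hy, a, ha, hxa⟩ := (mem_sup_zpowers S f x fS).1 x.2
    have haH : a ∈ S ⊔ zpowers f := (le_sup_right : zpowers f ≤ S ⊔ zpowers f) ha
    have hyH : y ∈ S ⊔ zpowers f := (le_sup_left : S ≤ S ⊔ zpowers f) hy
    have hyP : (⟨y, hyH⟩ : ↥(S ⊔ zpowers f)) ∈ P₁ := by
      have h1 : (⟨y, hyH⟩ : ↥(S ⊔ zpowers f)) = x * (⟨a, haH⟩ : ↥(S ⊔ zpowers f))⁻¹ := by
        ext
        simp [hxa]
      rw [h1]
      exact mul_mem hx (inv_mem (hzp a ha haH))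
    obtain ⟨k, hk⟩ := P₁.2 ⟨_, hyP⟩
    have hk' : y ^ (q ^ k) = 1 := by
      have := congrArg (fun z : ↥(P₁ : Subgroup ↥(S ⊔ zpowers f)) => ((z : ↥(S ⊔ zpowers f)) : Γ)) hk
      simpa using this
    have h2 : orderOf y ∣ q ^ k := orderOf_dvd_of_pow_eq_one hk'
    have h3 : orderOf y ∣ Nat.card S := Subgroup.orderOf_dvd_natCard S hy
    have h4 : Nat.Coprime (q ^ k) (Nat.card S) :=
      Nat.Coprime.pow_left k ((Nat.Prime.coprime_iff_not_dvd hq).2 cop)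
    have h5 : orderOf y = 1 := Nat.eq_one_of_dvd_coprimes h4 h2 h3
    rw [orderOf_eq_one_iff] at h5
    rw [hxa, h5, one_mul]
    exact ha
  have hγP : (⟨γ, hγ⟩ : ↥(S ⊔ zpowers f)) ∈ g • P₁ := by
    rw [hg]
    exact hP₂ (mem_zpowers _)
  have hγP' : (⟨γ, hγ⟩ : ↥(S ⊔ zpowers f)) ∈ MulAut.conj g • (P₁ : Subgroup ↥(S ⊔ zpowers f)) := by
    rw [← Sylow.pointwise_smul_def, ← Sylow.smul_def]
    exact hγP
  rw [Subgroup.mem_pointwise_smul_iff_inv_smul_mem] at hγP'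
  have h6 := key _ hγP'
  obtain ⟨x, hx, a, ha, hga⟩ := (mem_sup_zpowers S f g fS).1 g.2
  refine ⟨x⁻¹, inv_mem hx, ?_⟩
  have h7 : x⁻¹ * γ * x⁻¹⁻¹ = a * ((g : Γ)⁻¹ * γ * g) * a⁻¹ := by
    rw [hga]
    group
  rw [h7]
  refine mul_mem (mul_mem ha ?_) (inv_mem ha)
  simpa [MulAut.smul_def, MulAut.conj_apply] using h6

end Cfsg.Agent.Lib.Helper46.FrobPQ
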