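import Mathlib
import Cfsg.Agent.Lib.Helper46.FrobPQ.Defs
import Cfsg.Agent.Lib.Helper46.FrobPQ.Rel
import Cfsg.Agent.Lib.Helper46.FrobPQ.Wt
import Cfsg.Agent.Lib.Helper46.FrobPQ.Syl
import Cfsg.Agent.Lib.Helper46.FrobPQ.AbW

/-!
# S4306 farm, piece [AF1]   (file Cfsg/Agent/Lib/Helper46/FrobPQ/AF1.lean)

PAPER PROOF.
T := stab Q lam ∋ f; centralizer Q ≤ T (cent_le_stab).  Let x ∈ S.  By c.tri either x⁻¹ f x ∈ T (done) or y := x⁻¹ h' x ∈ T, h' = a h a⁻¹, a ∈ F = zpowers f.  We show that the second case is impossible.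
T_S := T ⊓ S, T₂ := T_S ⊔ F = T_S F (f normalizes S and T ∋ f).  |T₂| = |T_S| q, so F is a Sylow q-subgroup of T₂.  y normalizes S and lies in T, and y f y⁻¹ ∈ T; moreover y f y⁻¹ ∈ S F (S F is normalized by S, f, h), y f y⁻¹ = w f' with w ∈ S, f' ∈ F, so w ∈ T_S: y f y⁻¹ ∈ T₂, of order q.
Sylow in T₂: ∃ u ∈ T₂ with u (y f y⁻¹) u⁻¹ ∈ F.  n := u y ∈ T normalizes F (n f n⁻¹ ∈ F of order q generates F).
Write n = x' a' with x' ∈ S, a' ∈ A = closure {f,h} (n ∈ S A, a group).  a' normalizes F, so x' does: ⁅x',f⁆ ∈ F ⊓ S = ⊥ (⁅x',f⁆ = x' (f x'⁻¹ f⁻¹) ∈ S), so f x' = x' f, x' ∈ C(Q) ≤ T by hF'.  So a' ∈ T ⊓ A.  a' ∉ F: modulo the normal subgroup S F of S A, n ≡ y ≡ h' ≡ h ≢ 1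
  (concretely: if a' ∈ F then y = u⁻¹ n ∈ S F, so h' ∈ S F, h' = x'' f'' ⇒ x'' = h' f''⁻¹ ∈ S ⊓ A = ⊥ (orders) ⇒ h' ∈ F: impossible, Rel.disjoint/orders).
By Rel.outside some F-conjugate a'' h a''⁻¹ ∈ zpowers a' ≤ T; with f ∈ T also a'' ∈ T, so h ∈ T.  Then c.inv_triv (Z = Q) gives lam = 1 on Q: contradiction with hnt.
-/

set_option autoImplicit false
set_option linter.unusedSectionVars false
set_option linter.unusedVariables false

namespace Cfsg.Agent.Lib.Helper46.FrobPQ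

open Subgroup
open scoped commutatorElement

universe u

variable {E : Type*} [Field E] {U : Type*} [AddCommGroup U] [Module E U]
  {Γ : Type*} [Group Γ] [Finite Γ]

variable {ρ : Γ →* Module.End E U} {Q S : Subgroup Γ} {f h : Γ} {t s p q : ℕ}

theorem AF1_cm {S : Subgroup Γ} {g x : Γ} (hg : g ∈ normalizer (S : Set Γ)) (hx : x ∈ S) :
    g * x * g⁻¹ ∈ S := (mem_normalizer_iff.1 hg x).1 hx

theorem AF1_cm' {S : Subgroup Γ} {g x : Γ} (hg : g ∈ normalizer (S : Set Γ)) (hx : x ∈ S) :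
    g⁻¹ * x * g ∈ S := by
  have := AF1_cm (inv_mem hg) hx
  simpa using this

theorem AF1_disj {S : Subgroup Γ} {f g : Γ} {s q : ℕ} (sP : s.Prime) (qP : q.Prime) (sq : s ≠ q)
    (Ss : IsPGroup s S) (fq : f ^ q = 1) (h1 : g ∈ zpowers f) (h2 : g ∈ S) : g = 1 := by
  have hgq : g ^ q = 1 := by
    obtain ⟨k, rfl⟩ := h1
    rw [← zpow_natCast, ← zpow_mul, mul_comm, zpow_mul, zpow_natCast, fq, one_zpow]
  obtain ⟨k, hk⟩ := Ss ⟨g, h2⟩
  have hgs : g ^ (s ^ k) = 1 := by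
    have := congrArg Subtype.val hk
    simpa using this
  have hcop : Nat.Coprime q (s ^ k) :=
    Nat.Coprime.pow_right _ ((Nat.coprime_primes qP sP).2 (Ne.symm sq))
  have h3 : orderOf g ∣ q := orderOf_dvd_of_pow_eq_one hgq
  have h4 : orderOf g ∣ s ^ k := orderOf_dvd_of_pow_eq_one hgs
  have h5 : orderOf g = 1 := Nat.eq_one_of_dvd_coprimes hcop h3 h4
  exact orderOf_eq_one_iff.1 h5

theorem AF1_not_dvd {S : Subgroup Γ} {s q : ℕ} (sP : s.Prime) (qP : q.Prime) (sq : s ≠ q)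
    (Ss : IsPGroup s S) : ¬ q ∣ Nat.card S := by
  have : Fact s.Prime := ⟨sP⟩
  obtain ⟨k, hk⟩ := IsPGroup.iff_card.1 Ss
  rw [hk]
  intro hd
  exact sq ((Nat.prime_dvd_prime_iff_eq qP sP).1 (qP.dvd_of_dvd_pow hd)).symm

theorem Cfg.af1 (c : Cfg ρ Q S f h t s p q)
    (hab : ∀ g ∈ Q, ∀ y ∈ Q, g * y = y * g)
    (hF' : ∀ x ∈ S, f * x = x * f → x ∈ centralizer (Q : Set Γ))
    (lam : Γ → E) (hne : wt ρ Q lam ≠ ⊥) (hnt : ∃ g ∈ Q, lam g ≠ 1) (hf : f ∈ stab Q lam) :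
    ∀ x ∈ S, x⁻¹ * f * x ∈ stab Q lam := by
  intro x hx
  rcases c.tri lam hne x hx with h1 | ⟨a, ha, hy⟩
  · exact h1
  exfalso
  have r := c.rel
  have hFT : zpowers f ≤ stab Q lam := (zpowers_le).2 hf
  have hFS : zpowers f ≤ normalizer (S : Set Γ) := (zpowers_le).2 c.fS
  set h' : Γ := a * h * a⁻¹ with hh'
  have hh'S : h' ∈ normalizer (S : Set Γ) :=
    mul_mem (mul_mem (hFS ha) c.hS) (inv_mem (hFS ha))
  have r' : Rel p q f h' := r.conj ha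
  set y : Γ := x⁻¹ * h' * x with hyd
  -- f' = h' f h'⁻¹
  set f' : Γ := h' * f * h'⁻¹ with hf'd
  have hf'F : f' ∈ zpowers f := r'.nF
  have hf'1 : f' ≠ 1 := by
    intro h0
    have : f = 1 := by
      have h2 : f = h'⁻¹ * f' * h' := by rw [hf'd]; group
      rw [h2, h0]; group
    exact r.nc (by rw [this]; simp)
  have hf'S : f' ∈ normalizer (S : Set Γ) := hFS hf'F
  -- y f y⁻¹ = w f'
  set w : Γ := y * f * y⁻¹ * f'⁻¹ with hwd
  have hwS : w ∈ S := by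
    have e : w = x⁻¹ * (h' * (x * (f * x⁻¹ * f⁻¹)) * h'⁻¹) * (f' * x * f'⁻¹) := by
      rw [hwd, hyd, hf'd]; group
    rw [e]
    exact mul_mem (mul_mem (inv_mem hx)
      (AF1_cm hh'S (mul_mem hx (AF1_cm c.fS (inv_mem hx))))) (AF1_cm hf'S hx)
  have hwT : w ∈ stab Q lam :=
    mul_mem (mul_mem (mul_mem hy hf) (inv_mem hy)) (inv_mem (hFT hf'F))
  have hTS : IsPGroup s (stab Q lam ⊓ S : Subgroup Γ) := c.Ss.to_le inf_le_right
  have hfN : f ∈ normalizer ((stab Q lam ⊓ S : Subgroup Γ) : Set Γ) := by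
    rw [mem_normalizer_iff]
    intro g
    constructor
    · rintro ⟨g1, g2⟩
      exact ⟨(stab Q lam).mul_mem ((stab Q lam).mul_mem hf g1) ((stab Q lam).inv_mem hf),
        AF1_cm c.fS g2⟩
    · rintro ⟨g1, g2⟩
      refine ⟨?_, ?_⟩
      · have := (stab Q lam).mul_mem ((stab Q lam).mul_mem ((stab Q lam).inv_mem hf) g1) hf
        have e : f⁻¹ * (f * g * f⁻¹) * f = g := by group
        rwa [e] at this
      · have := AF1_cm' c.fS g2
        have e : f⁻¹ * (f * g * f⁻¹) * f = g := by group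
        rwa [e] at this
  have hγ : y * f * y⁻¹ ∈ (stab Q lam ⊓ S : Subgroup Γ) ⊔ zpowers f := by
    rw [mem_sup_zpowers _ _ _ hfN]
    exact ⟨w, ⟨hwT, hwS⟩, f', hf'F, by rw [hwd]; group⟩
  have hγq : (y * f * y⁻¹) ^ q = 1 := by
    rw [conj_pow, r.fq]; group
  obtain ⟨u, hu, hun⟩ := sylow_conj (stab Q lam ⊓ S) f (y * f * y⁻¹) r.qP r.fq hfN
    (AF1_not_dvd c.sP r.qP c.sq hTS) hγ hγq
  -- n = u y = x' h'
  set x' : Γ := u * x⁻¹ * (h' * x * h'⁻¹) with hx'd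
  have hx'S : x' ∈ S := mul_mem (mul_mem hu.2 (inv_mem hx)) (AF1_cm hh'S hx)
  have hn : u * y = x' * h' := by rw [hx'd, hyd]; group
  have hnT : x' * h' ∈ stab Q lam := by rw [← hn]; exact mul_mem hu.1 hy
  have h3 : x' * f' * x'⁻¹ ∈ zpowers f := by
    have e : x' * f' * x'⁻¹ = u * (y * f * y⁻¹) * u⁻¹ := by
      have : x' * f' * x'⁻¹ = (x' * h') * f * (x' * h')⁻¹ := by rw [hf'd]; group
      rw [this, ← hn]; group
    rw [e]; exact hun
  have h4 : x' * f' * x'⁻¹ * f'⁻¹ = 1 := by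
    apply AF1_disj c.sP r.qP c.sq c.Ss r.fq (mul_mem h3 (inv_mem hf'F))
    have e : x' * f' * x'⁻¹ * f'⁻¹ = x' * (f' * x'⁻¹ * f'⁻¹) := by group
    rw [e]
    exact mul_mem hx'S (AF1_cm hf'S (inv_mem hx'S))
  have h5 : x' * f' = f' * x' := by
    have : x' * f' = (x' * f' * x'⁻¹ * f'⁻¹) * (f' * x') := by group
    rw [this, h4, one_mul]
  have h6 : f ∈ zpowers f' := by
    rw [r.zpowers_f_eq hf'F hf'1]; exact mem_zpowers f
  have h7 : f * x' = x' * f := by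
    obtain ⟨k, hk⟩ := h6
    rw [← hk]
    exact ((Commute.zpow_right (show Commute x' f' from h5) k).eq).symm
  have h8 : x' ∈ stab Q lam := cent_le_stab Q lam (hF' x' hx'S h7)
  have h9 : h' ∈ stab Q lam := by
    have := mul_mem (inv_mem h8) hnT
    have e : x'⁻¹ * (x' * h') = h' := by group
    rwa [e] at this
  have h10 : h ∈ stab Q lam := by
    have := mul_mem (mul_mem (inv_mem (hFT ha)) h9) (hFT ha)
    have e : a⁻¹ * h' * a = h := by rw [hh']; group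
    rwa [e] at this
  obtain ⟨g, hg, hg1⟩ := hnt
  exact hg1 (c.inv_triv Q le_rfl hab lam hne hf h10 g hg)

end Cfsg.Agent.Lib.Helper46.FrobPQ
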