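import Mathlib
import Cfsg.Agent.Lib.Helper46.FrobPQ.Defs
import Cfsg.Agent.Lib.Helper46.FrobPQ.Rel

/-!
# S4306 farm, piece [CJ]   (file Cfsg/Agent/Lib/Helper46/FrobPQ/Conj.lean)
-/

set_option autoImplicit false
set_option linter.unusedSectionVars false
set_option linter.unusedVariables false

namespace Cfsg.Agent.Lib.Helper46.FrobPQ

open Subgroup
open scoped commutatorElement

universe u

variable {E : Type*} [Field E] {U : Type*} [AddCommGroup U] [Module E U]
  {Γ : Type*} [Group Γ] [Finite Γ]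

variable {ρ : Γ →* Module.End E U} {Q S : Subgroup Γ} {f h : Γ} {t s p q : ℕ}

/-- the stabilizer of a vector -/
def Conj_stabVec (ρ : Γ →* Module.End E U) (v : U) : Subgroup Γ where
  carrier := {g | ρ g v = v}
  mul_mem' := by
    intro a b ha hb
    show ρ (a * b) v = v
    rw [map_mul, Module.End.mul_apply, hb, ha]
  one_mem' := by
    show ρ 1 v = v
    rw [map_one, Module.End.one_apply]
  inv_mem' := by
    intro a ha
    show ρ a⁻¹ v = v
    have h1 : ρ a⁻¹ (ρ a v) = v := by
      rw [← Module.End.mul_apply, ← map_mul, inv_mul_cancel, map_one, Module.End.one_apply]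
    rwa [ha] at h1

theorem Cfg.conj (c : Cfg ρ Q S f h t s p q) (a : Γ) (ha : a ∈ zpowers f) :
    Cfg ρ Q S f (a * h * a⁻¹) t s p q := by
  have haK : ∀ K : Subgroup Γ, f ∈ K → a ∈ K := fun K hK => (zpowers_le.2 hK) ha
  have hconj : ∀ K : Subgroup Γ, f ∈ K → h ∈ K → a * h * a⁻¹ ∈ K := fun K hf hh =>
    mul_mem (mul_mem (haK K hf) hh) (inv_mem (haK K hf))
  have hback : ∀ K : Subgroup Γ, f ∈ K → a * h * a⁻¹ ∈ K → h ∈ K := by
    intro K hf hh
    have h1 : h = a⁻¹ * (a * h * a⁻¹) * a := by group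
    rw [h1]
    exact mul_mem (mul_mem (inv_mem (haK K hf)) hh) (haK K hf)
  have hcomm : ∀ g : Γ, f * g = g * f → (a * h * a⁻¹) * g = g * (a * h * a⁻¹) →
      h * g = g * h := by
    intro g h1 h2
    exact mem_centralizer_singleton_iff.1 (hback (centralizer {g})
      (mem_centralizer_singleton_iff.2 h1) (mem_centralizer_singleton_iff.2 h2))
  refine
    { rel := c.rel.conj ha
      tP := c.tP
      sP := c.sP
      ts := c.ts
      tp := c.tp
      tq := c.tq
      sp := c.sp
      sq := c.sq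
      Qt := c.Qt
      Ss := c.Ss
      SQ := c.SQ
      fQ := c.fQ
      hQ := hconj _ c.fQ c.hQ
      fS := c.fS
      hS := hconj _ c.fS c.hS
      fixQ := fun g hg h1 h2 => c.fixQ g hg h1 (hcomm g h1 h2)
      fixS := fun g hg h1 h2 => c.fixS g hg h1 (hcomm g h1 h2)
      fixU := fun v h1 h2 => c.fixU v h1 (hback (Conj_stabVec ρ v) h1 h2)
      tE := c.tE
      pE := c.pE
      qE := c.qE
      inj := c.inj
      bad := c.bad
      minS := fun S₀ h1 h2 h3 h4 => c.minS S₀ h1 h2 h3 (hback _ h3 h4)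
      minQ := fun Q₀ h1 h2 h3 h4 h5 => c.minQ Q₀ h1 h2 h3 h4 (hback _ h4 h5) }

end Cfsg.Agent.Lib.Helper46.FrobPQ
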