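import Mathlib
import Cfsg.Agent.Lib.Helper46.FrobPQ.Defs
import Cfsg.Agent.Lib.Helper46.FrobPQ.Rel
import Cfsg.Agent.Lib.Helper88.CoprimeAbelian
import Cfsg.Agent.S0026

/-!
# S4306 farm, piece [LY1]   (file Cfsg/Agent/Lib/Helper46/FrobPQ/LyAbs.lean)

PAPER PROOF.
Notation: for γ ∈ L write γ·w = φ γ w.  A := closure {f,h}, F := zpowers f.  S̃ := φ(S) is abelian (Sab).
K₀ := {φ ⁅x,h⁆ | x ∈ S} generates a subgroup K̃₀ ≤ S̃ of MulAut W; for a ∈ F put h_a := a h a⁻¹ and K̃_a := φ(a) K̃₀ φ(a)⁻¹ = ⟨φ ⁅x, h_a⁆ | x ∈ S⟩ (a normalizes S).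
(i) For a ∈ F, a ≠ 1: K̃₀ K̃_a = S̃.  Let M := K̃₀ ⊔ K̃_a ≤ S̃.  For every x̃ = φ x ∈ S̃: φ(h) x̃ φ(h)⁻¹ ∈ x̃ K̃₀ ⊆ x̃ M and φ(h_a) x̃ φ(h_a)⁻¹ ∈ x̃ M.  The set of γ ∈ N_L(S) with φ(γ x γ⁻¹) ∈ φ(x) M for all x ∈ S is a subgroup (M ≤ S̃ is mapped into itself by such γ)
    containing h and h_a, hence A (Rel.closure_two_conj).  For x ∈ S let x* := ∏_{γ ∈ A} γ x γ⁻¹ ∈ S (any order; only φ(x*) = ∏ φ(γ x γ⁻¹), a product in the commutative group S̃, matters).  φ(x*) is centralized by φ(A), so φ ⁅f,x*⁆ = φ ⁅h,x*⁆ = 1, so φ x* = 1 by fixS.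
    But φ x* ∈ φ(x)^{pq} M.  So φ(x)^{pq} ∈ M and, pq being prime to |S|, φ x ∈ M.
(ii) Let w be fixed by h and by K̃₀.  N(w) := ∏_{a ∈ F} a·w is fixed by f (reindex) and by h (h a·w = (h a h⁻¹)·(h·w) = (h a h⁻¹)·w, reindex by conjugation), so N(w) = 1 by fixW.
(iii) ν(u) := ∏_{y ∈ K̃₀} y u (a hom W → W; its values are K̃₀-fixed).  For a ∈ F, a·w is fixed by K̃_a; as S̃ is abelian ν commutes with K̃_a, so ν(a·w) is fixed by K̃₀ and K̃_a, hence by S̃ = K̃₀K̃_a if a ≠ 1; then ν(a·w) = 1 by fixSW.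
     ν(w) = w^{|K̃₀|}.  So 1 = ν(N w) = w^{|K̃₀|}; |K̃₀| divides |S̃| which divides |S|, prime to |W|.  Hence w = 1.
(Cfsg.Agent.Lib.Helper88.CoprimeAbelian has normMap for a subgroup of MulAut M, M a finite CommGroup: usable for ν and N.)
-/

set_option autoImplicit false
set_option linter.unusedSectionVars false
set_option linter.unusedVariables false

namespace Cfsg.Agent.Lib.Helper46.FrobPQ

open Subgroup
open scoped commutatorElement

universe u

open Cfsg.Agent.Lib in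
theorem lyabs_normMap_conj {M : Type*} [CommGroup M] [Finite M] (A : Subgroup (MulAut M))
    (β : MulAut M) (hβ : ∀ α ∈ A, β * α * β⁻¹ ∈ A) (x : M) :
    β (Helper88.normMap A x) = Helper88.normMap A (β x) := by
  letI : Fintype A := Fintype.ofFinite A
  rw [Helper88.normMap_apply, Helper88.normMap_apply, map_prod]
  let e : A → A := fun α => ⟨β * α * β⁻¹, hβ α α.2⟩
  have he : Function.Bijective e := by
    apply Finite.injective_iff_bijective.mp
    intro α α' h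
    have h1 : β * (α : MulAut M) * β⁻¹ = β * (α' : MulAut M) * β⁻¹ := congrArg Subtype.val h
    exact Subtype.ext (by simpa using h1)
  refine Fintype.prod_bijective e he _ _ (fun α => ?_)
  show β ((α : MulAut M) x) = (β * (α : MulAut M) * β⁻¹) (β x)
  simp [MulAut.mul_apply]

/-- the subgroup generated by the `φ ⁅x, c⁆`, `x ∈ S` -/
def lyK {L W : Type*} [Group L] [CommGroup W] (φ : L →* MulAut W) (S : Subgroup L) (c : L) :
    Subgroup (MulAut W) := closure {y | ∃ x ∈ S, y = φ ⁅x, c⁆}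

/-- the stabilizer of a point -/
def lyFix {W : Type*} [CommGroup W] (u : W) : Subgroup (MulAut W) where
  carrier := {α | α u = u}
  one_mem' := rfl
  mul_mem' := by
    intro a b ha hb
    show a (b u) = u
    rw [show b u = u from hb, show a u = u from ha]
  inv_mem' := by
    intro a ha
    show a⁻¹ u = u
    have h1 : a u = u := ha
    conv_lhs => rw [← h1]
    simp

theorem lyabs_gen_mem {L W : Type*} [Group L] [CommGroup W] (φ : L →* MulAut W) (S : Subgroup L)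
    (c : L) {x : L} (hx : x ∈ S) : (φ x)⁻¹ * φ (c * x * c⁻¹) ∈ lyK φ S c := by
  have e : (φ x)⁻¹ * φ (c * x * c⁻¹) = φ ⁅x⁻¹, c⁆ := by
    rw [← map_inv, ← map_mul]
    congr 1
    simp only [commutatorElement_def]
    group
  rw [e]
  exact subset_closure ⟨x⁻¹, S.inv_mem hx, rfl⟩

theorem lyabs_K_le {L W : Type*} [Group L] [CommGroup W] (φ : L →* MulAut W) (S : Subgroup L)
    {c : L} (hc : c ∈ normalizer (S : Set L)) : lyK φ S c ≤ S.map φ := by
  unfold lyK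
  rw [closure_le]
  rintro _ ⟨x, hx, rfl⟩
  refine ⟨⁅x, c⁆, ?_, rfl⟩
  have e : ⁅x, c⁆ = x * (c * x⁻¹ * c⁻¹) := by
    simp only [commutatorElement_def]
    group
  rw [e]
  exact S.mul_mem hx ((mem_normalizer_iff.1 hc _).1 (S.inv_mem hx))

theorem lyabs_sup_eq {L W : Type*} [Group L] [Finite L] [CommGroup W] [Finite W]
    (φ : L →* MulAut W) (S : Subgroup L) (f h : L) {p q : ℕ} (r : Rel p q f h)
    (fS : f ∈ normalizer (S : Set L)) (hS : h ∈ normalizer (S : Set L))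
    (Sab : ∀ x ∈ S, ∀ x' ∈ S, φ (x * x') = φ (x' * x))
    (copA : (p * q).Coprime (Nat.card S))
    (fixS : ∀ x ∈ S, φ ⁅f, x⁆ = 1 → φ ⁅h, x⁆ = 1 → φ x = 1)
    {a : L} (ha : a ∈ zpowers f) (ha1 : a ≠ 1) :
    lyK φ S h ⊔ lyK φ S (a * h * a⁻¹) = S.map φ := by
  have aS : a ∈ normalizer (S : Set L) := (zpowers_le.mpr fS) ha
  have haS : a * h * a⁻¹ ∈ normalizer (S : Set L) := mul_mem (mul_mem aS hS) (inv_mem aS)
  obtain ⟨M, hM⟩ : ∃ M, M = lyK φ S h ⊔ lyK φ S (a * h * a⁻¹) := ⟨_, rfl⟩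
  rw [← hM]
  have hMle : M ≤ S.map φ := hM ▸ sup_le (lyabs_K_le φ S hS) (lyabs_K_le φ S haS)
  let B : Subgroup L :=
    { carrier := {γ | γ ∈ normalizer (S : Set L) ∧ ∀ x ∈ S, (φ x)⁻¹ * φ (γ * x * γ⁻¹) ∈ M}
      one_mem' := ⟨one_mem _, fun x _ => by simp [one_mem]⟩
      mul_mem' := by
        rintro γ γ' ⟨h1, h2⟩ ⟨h1', h2'⟩
        refine ⟨mul_mem h1 h1', fun x hx => ?_⟩
        have hx' : γ' * x * γ'⁻¹ ∈ S := (mem_normalizer_iff.1 h1' x).1 hx
        have e : (φ x)⁻¹ * φ (γ * γ' * x * (γ * γ')⁻¹)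
            = ((φ x)⁻¹ * φ (γ' * x * γ'⁻¹))
              * ((φ (γ' * x * γ'⁻¹))⁻¹ * φ (γ * (γ' * x * γ'⁻¹) * γ⁻¹)) := by
          rw [show γ * γ' * x * (γ * γ')⁻¹ = γ * (γ' * x * γ'⁻¹) * γ⁻¹ by group]
          group
        rw [e]
        exact mul_mem (h2' x hx) (h2 _ hx')
      inv_mem' := by
        rintro γ ⟨h1, h2⟩
        refine ⟨inv_mem h1, fun x hx => ?_⟩
        have hx' : γ⁻¹ * x * γ⁻¹⁻¹ ∈ S := (mem_normalizer_iff.1 (inv_mem h1) x).1 hx
        have h3 := inv_mem (h2 _ hx')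
        rw [show γ * (γ⁻¹ * x * γ⁻¹⁻¹) * γ⁻¹ = x by group] at h3
        rwa [mul_inv_rev, inv_inv] at h3 }
  have hAB : closure {f, h} ≤ B := by
    rw [← r.closure_two_conj ha ha1, closure_le]
    rintro γ (rfl | rfl)
    · exact ⟨hS, fun x hx => hM ▸ (le_sup_left : lyK φ S γ ≤ _) (lyabs_gen_mem φ S _ hx)⟩
    · exact ⟨haS, fun x hx => hM ▸ (le_sup_right : lyK φ S (a * h * a⁻¹) ≤ _)
        (lyabs_gen_mem φ S _ hx)⟩
  have hnorm : (closure {f, h}).map φ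
      ≤ normalizer ((S.map φ : Subgroup (MulAut W)) : Set (MulAut W)) := by
    rintro _ ⟨γ, hγ, rfl⟩
    have hγS : γ ∈ normalizer (S : Set L) := (hAB hγ).1
    rw [mem_normalizer_iff]
    intro y
    constructor
    · rintro ⟨x, hx, rfl⟩
      exact ⟨γ * x * γ⁻¹, (mem_normalizer_iff.1 hγS x).1 hx, by simp⟩
    · rintro ⟨x, hx, hxy⟩
      refine ⟨γ⁻¹ * x * γ, ?_, ?_⟩
      · have h3 := (mem_normalizer_iff.1 (inv_mem hγS) x).1 hx
        rwa [inv_inv] at h3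
      · rw [map_mul, map_mul, hxy, map_inv]
        group
  have hcop : (Nat.card ((closure {f, h}).map φ)).Coprime (Nat.card (S.map φ)) := by
    have h1 : Nat.card ((closure {f, h}).map φ) ∣ p * q := by
      rw [← r.card_closure]
      exact Subgroup.card_map_dvd _ _
    have h2 : Nat.card (S.map φ) ∣ Nat.card S := Subgroup.card_map_dvd _ _
    exact (copA.coprime_dvd_left h1).coprime_dvd_right h2
  have hcomm : ∀ y ∈ S.map φ, ∀ y' ∈ S.map φ, y * y' = y' * y := by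
    rintro _ ⟨x, hx, rfl⟩ _ ⟨x', hx', rfl⟩
    rw [← map_mul, ← map_mul]
    exact Sab x hx x' hx'
  have hsol : Group.IsSolvable (S.map φ) :=
    isSolvable_of_comm (fun a b => Subtype.ext (hcomm a a.2 b b.2))
  have hfac := Cfsg.Agent.S0026.result _ _ hnorm hcop (Or.inr hsol)
  have hfix : S.map φ ⊓ centralizer (((closure {f, h}).map φ : Subgroup (MulAut W)) : Set (MulAut W))
      = ⊥ := by
    rw [eq_bot_iff]
    rintro _ ⟨⟨x, hx, rfl⟩, hc⟩
    rw [mem_bot]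
    have hc' := mem_centralizer_iff.mp hc
    apply fixS x hx
    · have h3 := hc' (φ f) ⟨f, subset_closure (by simp), rfl⟩
      rw [commutatorElement_def, map_mul, map_mul, map_mul, map_inv, map_inv, h3]
      group
    · have h3 := hc' (φ h) ⟨h, subset_closure (by simp), rfl⟩
      rw [commutatorElement_def, map_mul, map_mul, map_mul, map_inv, map_inv, h3]
      group
  rw [hfix, sup_bot_eq] at hfac
  apply le_antisymm hMle
  rw [← hfac, commutator_le]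
  rintro _ ⟨x, hx, rfl⟩ _ ⟨γ, hγ, rfl⟩
  have h3 := (hAB hγ).2 x⁻¹ (S.inv_mem hx)
  have e : ⁅φ x, φ γ⁆ = (φ x⁻¹)⁻¹ * φ (γ * x⁻¹ * γ⁻¹) := by
    simp only [commutatorElement_def, map_mul, map_inv]
    group
  rw [e]
  exact h3

open Cfsg.Agent.Lib in
theorem ly_abs {L W : Type*} [Group L] [Finite L] [CommGroup W] [Finite W] (φ : L →* MulAut W)
    (S : Subgroup L) (f h : L) {p q : ℕ} (r : Rel p q f h)
    (fS : f ∈ normalizer (S : Set L)) (hS : h ∈ normalizer (S : Set L))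
    (Sab : ∀ x ∈ S, ∀ x' ∈ S, φ (x * x') = φ (x' * x))
    (cop : (Nat.card S).Coprime (Nat.card W)) (copA : (p * q).Coprime (Nat.card S))
    (fixW : ∀ w, φ f w = w → φ h w = w → w = 1)
    (fixSW : ∀ w, (∀ x ∈ S, φ x w = w) → w = 1)
    (fixS : ∀ x ∈ S, φ ⁅f, x⁆ = 1 → φ ⁅h, x⁆ = 1 → φ x = 1) :
    ∀ w, φ h w = w → (∀ x ∈ S, φ ⁅x, h⁆ w = w) → w = 1 := by
  intro w hw hK
  obtain ⟨K₀, hK₀⟩ : ∃ K₀, K₀ = lyK φ S h := ⟨_, rfl⟩
  obtain ⟨Ft, hFt⟩ : ∃ Ft, Ft = (zpowers f).map φ := ⟨_, rfl⟩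
  have hK₀le : K₀ ≤ S.map φ := hK₀ ▸ lyabs_K_le φ S hS
  have hcomm : ∀ y ∈ S.map φ, ∀ y' ∈ S.map φ, y * y' = y' * y := by
    rintro _ ⟨x, hx, rfl⟩ _ ⟨x', hx', rfl⟩
    rw [← map_mul, ← map_mul]
    exact Sab x hx x' hx'
  have hwK : w ∈ Helper88.fixedSub K₀ := by
    have hle : K₀ ≤ lyFix w := by
      rw [hK₀, lyK, closure_le]
      rintro _ ⟨x, hx, rfl⟩
      exact hK x hx
    intro α hα
    exact hle hα
  have hN : Helper88.normMap Ft w = 1 := by
    apply fixW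
    · exact Helper88.normMap_mem_fixedSub Ft w (φ f) (hFt ▸ ⟨f, mem_zpowers f, rfl⟩)
    · rw [lyabs_normMap_conj Ft (φ h) _ w, hw]
      rw [hFt]
      rintro _ ⟨a, ha, rfl⟩
      exact ⟨h * a * h⁻¹, r.conj_mem ha, by simp⟩
  have hν : ∀ α ∈ Ft, α ≠ 1 → Helper88.normMap K₀ (α w) = 1 := by
    rw [hFt]
    rintro _ ⟨a, ha, rfl⟩ hne
    have ha1 : a ≠ 1 := by
      rintro rfl
      exact hne (map_one φ)
    have aS : a ∈ normalizer (S : Set L) := (zpowers_le.mpr fS) ha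
    have haS : a * h * a⁻¹ ∈ normalizer (S : Set L) := mul_mem (mul_mem aS hS) (inv_mem aS)
    apply fixSW
    intro x hx
    have hsup := lyabs_sup_eq φ S f h r fS hS Sab copA fixS ha ha1
    have hle : lyK φ S h ⊔ lyK φ S (a * h * a⁻¹) ≤ lyFix (Helper88.normMap K₀ (φ a w)) := by
      apply sup_le
      · intro α hα
        exact Helper88.normMap_mem_fixedSub K₀ _ α (hK₀ ▸ hα)
      · rw [lyK, closure_le]
        rintro _ ⟨y, hy, rfl⟩
        show φ ⁅y, a * h * a⁻¹⁆ (Helper88.normMap K₀ (φ a w)) = Helper88.normMap K₀ (φ a w)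
        have hkS : φ ⁅y, a * h * a⁻¹⁆ ∈ S.map φ :=
          lyabs_K_le φ S haS (subset_closure ⟨y, hy, rfl⟩)
        rw [lyabs_normMap_conj K₀ _ (fun α hα => by
          rw [hcomm _ hkS _ (hK₀le hα), mul_inv_cancel_right]; exact hα)]
        congr 1
        have e : ⁅y, a * h * a⁻¹⁆ * a = a * ⁅a⁻¹ * y * a, h⁆ := by
          simp only [commutatorElement_def]
          group
        have hy' : a⁻¹ * y * a ∈ S := by
          have h3 := (mem_normalizer_iff.1 (inv_mem aS) y).1 hy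
          rwa [inv_inv] at h3
        calc φ ⁅y, a * h * a⁻¹⁆ (φ a w) = φ (⁅y, a * h * a⁻¹⁆ * a) w := by rw [map_mul]; rfl
          _ = φ a (φ ⁅a⁻¹ * y * a, h⁆ w) := by rw [e, map_mul]; rfl
          _ = φ a w := by rw [hK _ hy']
    rw [hsup] at hle
    exact hle ⟨x, hx, rfl⟩
  have hfin : w ^ Nat.card K₀ = 1 := by
    letI : Fintype Ft := Fintype.ofFinite Ft
    have h1 : Helper88.normMap K₀ (Helper88.normMap Ft w) = 1 := by rw [hN, map_one]
    rw [Helper88.normMap_apply Ft, map_prod, Finset.prod_eq_single (1 : Ft)] at h1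
    · rw [← Helper88.normMap_of_mem_fixedSub K₀ hwK]
      exact h1
    · intro α _ hα
      exact hν α α.2 (fun h0 => hα (Subtype.ext h0))
    · intro h0
      exact absurd (Finset.mem_univ _) h0
  have h3 : orderOf w ∣ Nat.card S :=
    (orderOf_dvd_of_pow_eq_one hfin).trans
      ((Subgroup.card_dvd_of_le hK₀le).trans (Subgroup.card_map_dvd _ _))
  have h4 : orderOf w ∣ Nat.card W := orderOf_dvd_natCard w
  exact orderOf_eq_one_iff.1 (Nat.eq_one_of_dvd_coprimes cop h3 h4)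

end Cfsg.Agent.Lib.Helper46.FrobPQ
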