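import Mathlib
import Cfsg.Agent.Lib.Helper46.FrobPQ.Defs

/-!
# S4306 farm, piece [SEC]   (file Cfsg/Agent/Lib/Helper46/FrobPQ/Sec.lean)

Utility: the section Q/(Q ⊓ R) as a type with the conjugation action of N(Q) ⊓ N(R).
-/

set_option autoImplicit false
set_option linter.unusedSectionVars false
set_option linter.unusedVariables false

namespace Cfsg.Agent.Lib.Helper46.FrobPQ

open Subgroup
open scoped commutatorElement

universe u

variable {E : Type*} [Field E] {U : Type*} [AddCommGroup U] [Module E U]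
  {Γ : Type*} [Group Γ] [Finite Γ]

theorem sec_normal (Q R : Subgroup Γ) (hQR : Q ≤ normalizer (R : Set Γ)) :
    (R.subgroupOf Q).Normal := by
  refine ⟨fun n hn g => ?_⟩
  rw [mem_subgroupOf] at hn ⊢
  exact (mem_normalizer_iff.1 (hQR g.2) _).1 hn

/-- conjugation by an element of `N(Q)` as an automorphism of `Q`. -/
def secConj (Q : Subgroup Γ) : ↥(normalizer (Q : Set Γ)) →* MulAut ↥Q where
  toFun γ :=
    { toFun := fun g => ⟨(γ : Γ) * g * (γ : Γ)⁻¹, (mem_normalizer_iff.1 γ.2 _).1 g.2⟩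
      invFun := fun g => ⟨(γ : Γ)⁻¹ * g * (γ : Γ), by
        have := (mem_normalizer_iff.1 (inv_mem γ.2) (g : Γ)).1 g.2
        simpa using this⟩
      left_inv := fun g => by
        ext
        simp only
        group
      right_inv := fun g => by
        ext
        simp only
        group
      map_mul' := fun a b => by
        ext
        simp only [Subgroup.coe_mul]
        group }
  map_one' := by
    ext g
    simp
  map_mul' a b := by
    ext g
    simp only [Subgroup.coe_mul, MulAut.mul_apply, MulEquiv.coe_mk, Equiv.coe_fn_mk]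
    group

theorem secConj_apply (Q : Subgroup Γ) (γ : ↥(normalizer (Q : Set Γ))) (g : ↥Q) :
    ((secConj Q γ g : ↥Q) : Γ) = (γ : Γ) * g * (γ : Γ)⁻¹ := rfl

theorem secConj_map (Q R : Subgroup Γ)
    (γ : ↥(normalizer (Q : Set Γ) ⊓ normalizer (R : Set Γ))) :
    (R.subgroupOf Q).map ((secConj Q (inclusion inf_le_left γ) : ↥Q ≃* ↥Q) : ↥Q →* ↥Q)
      = R.subgroupOf Q := by
  ext x
  constructor
  · rintro ⟨y, hy, rfl⟩
    exact mem_subgroupOf.2 ((mem_normalizer_iff.1 (mem_inf.1 γ.2).2 _).1 (mem_subgroupOf.1 hy))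
  · intro hx
    refine ⟨(secConj Q (inclusion inf_le_left γ))⁻¹ x, ?_, ?_⟩
    · refine mem_subgroupOf.2 ?_
      have h1 := (mem_normalizer_iff.1 (inv_mem (mem_inf.1 γ.2).2) (x : Γ)).1 (mem_subgroupOf.1 hx)
      have h2 : (((secConj Q (inclusion inf_le_left γ))⁻¹ x : ↥Q) : Γ) = (γ : Γ)⁻¹ * x * (γ : Γ)⁻¹⁻¹ := by
        rw [inv_inv]
        rfl
      rw [h2]
      exact h1
    · exact MulEquiv.apply_symm_apply _ x

/-- the action of `N(Q) ⊓ N(R)` on the section `Q / (Q ⊓ R)` -/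
noncomputable def secAct (Q R : Subgroup Γ) [(R.subgroupOf Q).Normal] :
    ↥(normalizer (Q : Set Γ) ⊓ normalizer (R : Set Γ)) →* MulAut (↥Q ⧸ R.subgroupOf Q) where
  toFun γ := QuotientGroup.congr _ _ (secConj Q (inclusion inf_le_left γ)) (secConj_map Q R γ)
  map_one' := by
    ext x
    induction x using QuotientGroup.induction_on with
    | H g =>
      rw [QuotientGroup.congr_mk]
      congr 1
      ext
      rw [secConj_apply]
      simp
  map_mul' a b := by
    ext x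
    induction x using QuotientGroup.induction_on with
    | H g =>
      rw [MulAut.mul_apply, QuotientGroup.congr_mk, QuotientGroup.congr_mk,
        QuotientGroup.congr_mk]
      congr 1
      ext
      simp only [map_mul, MulAut.mul_apply]

theorem secAct_mk (Q R : Subgroup Γ) [(R.subgroupOf Q).Normal]
    (γ : ↥(normalizer (Q : Set Γ) ⊓ normalizer (R : Set Γ))) (g : Γ) (hg : g ∈ Q)
    (hg' : (γ : Γ) * g * (γ : Γ)⁻¹ ∈ Q) :
    secAct Q R γ (QuotientGroup.mk ⟨g, hg⟩) = QuotientGroup.mk ⟨(γ : Γ) * g * (γ : Γ)⁻¹, hg'⟩ := by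
  rfl

theorem sec_mk_eq_one (Q R : Subgroup Γ) [(R.subgroupOf Q).Normal] (g : Γ) (hg : g ∈ Q) :
    (QuotientGroup.mk ⟨g, hg⟩ : ↥Q ⧸ R.subgroupOf Q) = 1 ↔ g ∈ R := by
  rw [QuotientGroup.eq_one_iff, mem_subgroupOf]

theorem sec_fixed_iff (Q R : Subgroup Γ) [(R.subgroupOf Q).Normal]
    (γ : ↥(normalizer (Q : Set Γ) ⊓ normalizer (R : Set Γ))) (g : Γ) (hg : g ∈ Q) :
    secAct Q R γ (QuotientGroup.mk ⟨g, hg⟩) = QuotientGroup.mk ⟨g, hg⟩ ↔ ⁅(γ : Γ), g⁆ ∈ R := by
  have hg' : (γ : Γ) * g * (γ : Γ)⁻¹ ∈ Q := (mem_normalizer_iff.1 (mem_inf.1 γ.2).1 _).1 hg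
  rw [secAct_mk Q R γ g hg hg', eq_comm, QuotientGroup.eq, mem_subgroupOf]
  have h1 : (((⟨g, hg⟩ : ↥Q)⁻¹ * ⟨(γ : Γ) * g * (γ : Γ)⁻¹, hg'⟩ : ↥Q) : Γ)
      = g⁻¹ * ⁅(γ : Γ), g⁆ * g⁻¹⁻¹ := by
    rw [commutatorElement_def]
    simp only [Subgroup.coe_mul, Subgroup.coe_inv]
    group
  rw [h1]
  have hn : (⟨g, hg⟩ : ↥Q)⁻¹ ∈ normalizer ((R.subgroupOf Q : Subgroup ↥Q) : Set ↥Q) := by
    rw [normalizer_eq_top]
    exact mem_top _
  have hc : ⁅(γ : Γ), g⁆ ∈ Q := by
    rw [commutatorElement_def]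
    exact mul_mem hg' (inv_mem hg)
  have h2 := mem_normalizer_iff.1 hn ⟨⁅(γ : Γ), g⁆, hc⟩
  rw [mem_subgroupOf, mem_subgroupOf] at h2
  exact h2.symm

theorem sec_card (Q R : Subgroup Γ) [(R.subgroupOf Q).Normal] :
    Nat.card (↥Q ⧸ R.subgroupOf Q) = R.relIndex Q := by
  rfl

theorem sec_comm (Q R : Subgroup Γ) [(R.subgroupOf Q).Normal]
    (comm : ∀ g ∈ Q, ∀ y ∈ Q, ⁅g, y⁆ ∈ R) (a c : ↥Q ⧸ R.subgroupOf Q) : a * c = c * a := by
  induction a using QuotientGroup.induction_on with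
  | H g =>
    induction c using QuotientGroup.induction_on with
    | H y =>
      rw [← QuotientGroup.mk_mul, ← QuotientGroup.mk_mul, eq_comm, QuotientGroup.eq,
        mem_subgroupOf]
      have := comm _ (inv_mem g.2) _ (inv_mem y.2)
      rw [commutatorElement_def] at this
      simpa [mul_assoc] using this

end Cfsg.Agent.Lib.Helper46.FrobPQ
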