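import Mathlib
import Cfsg.Agent.Lib.Helper46.FrobPQ.Defs
import Cfsg.Agent.Lib.Helper46.FrobPQ.Rel
import Cfsg.Agent.Lib.Helper46.FrobPQ.Sec
import Cfsg.Agent.Lib.Helper46.FrobPQ.LyAbs
import Cfsg.Agent.S0022

/-!
# S4306 farm, piece [LYg]   (file Cfsg/Agent/Lib/Helper46/FrobPQ/LyAmb.lean)

PAPER PROOF.
Apply ly_abs with W := ↥Q ⧸ Z₀.subgroupOf Q (CommGroup by sec_comm), L := ↥(normalizer Q ⊓ normalizer Z₀), φ := secAct Q Z₀ (Sec.lean), S' := S.subgroupOf L, f, h as elements of L (Rel transfers along the injective L.subtype).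
Sab: ⁅S,S⁆ centralizes Q.   cop, copA: card W ∣ card Q.
fixW: if the coset of g ∈ Q is fixed by f and h then ⁅a,g⁆ ∈ Z₀ for all a ∈ A = closure {f,h} (the set of such a ∈ N(Q) ⊓ N(Z₀) is a subgroup); Cfsg.Agent.S0022.result A Q … Z₀ g gives c ∈ Q ⊓ centralizer A with g⁻¹ c ∈ Z₀; c = 1 by fixQ; so g ∈ Z₀.
      (card A = p q: Rel.card_closure; solvable: solQ.)
fixSW: the same with S instead of A: c ∈ Q ⊓ C(S), so c ∈ Z₀ by fixSQ.
fixS: S₀ := {x ∈ S | ∀ g ∈ Q, ⁅x,g⁆ ∈ Z₀} (the kernel of φ on S) is normal in S and normalized by f, h.  If φ ⁅f,x⁆ = φ ⁅h,x⁆ = 1 then ⁅a,x⁆ ∈ S₀ for all a ∈ A; S0022 (A acting on S, N = S₀) gives c ∈ S ⊓ C(A) = 1 with x⁻¹ c ∈ S₀.  So x ∈ S₀.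
Conclusion: the coset of y is fixed by h and by all ⁅x,h⁆, so it is 1: y ∈ Z₀.
-/

set_option autoImplicit false
set_option linter.unusedSectionVars false
set_option linter.unusedVariables false

namespace Cfsg.Agent.Lib.Helper46.FrobPQ

open Subgroup
open scoped commutatorElement

universe u

variable {E : Type*} [Field E] {U : Type*} [AddCommGroup U] [Module E U]
  {Γ : Type*} [Group Γ] [Finite Γ]

/-- `ly_abs` with commutativity as a hypothesis. -/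
theorem LYg_abs' {L W : Type*} [Group L] [Finite L] [Group W] [Finite W]
    (hW : ∀ a c : W, a * c = c * a) (φ : L →* MulAut W)
    (S : Subgroup L) (f h : L) {p q : ℕ} (r : Rel p q f h)
    (fS : f ∈ normalizer (S : Set L)) (hS : h ∈ normalizer (S : Set L))
    (Sab : ∀ x ∈ S, ∀ x' ∈ S, φ (x * x') = φ (x' * x))
    (cop : (Nat.card S).Coprime (Nat.card W)) (copA : (p * q).Coprime (Nat.card S))
    (fixW : ∀ w, φ f w = w → φ h w = w → w = 1)
    (fixSW : ∀ w, (∀ x ∈ S, φ x w = w) → w = 1)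
    (fixS : ∀ x ∈ S, φ ⁅f, x⁆ = 1 → φ ⁅h, x⁆ = 1 → φ x = 1) :
    ∀ w, φ h w = w → (∀ x ∈ S, φ ⁅x, h⁆ w = w) → w = 1 := by
  let _ : CommGroup W := { (inferInstance : Group W) with mul_comm := hW }
  exact ly_abs φ S f h r fS hS Sab cop copA fixW fixSW fixS

theorem LYg_le_normalizer (H Z : Subgroup Γ) (hyp : ∀ g ∈ H, ∀ z ∈ Z, g * z * g⁻¹ ∈ Z) :
    H ≤ normalizer (Z : Set Γ) := by
  intro g hg
  rw [mem_normalizer_iff]
  intro z
  refine ⟨hyp g hg z, fun hz => ?_⟩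
  have := hyp g⁻¹ (H.inv_mem hg) _ hz
  have e : g⁻¹ * (g * z * g⁻¹) * g⁻¹⁻¹ = z := by group
  rwa [e] at this

theorem LYg_comm_closure (Z : Subgroup Γ) (g : Γ) (X : Set Γ)
    (hX : ∀ a ∈ X, a ∈ normalizer (Z : Set Γ) ∧ ⁅a, g⁆ ∈ Z) :
    ∀ a ∈ closure X, a ∈ normalizer (Z : Set Γ) ∧ ⁅a, g⁆ ∈ Z := by
  intro a ha
  induction ha using closure_induction with
  | mem a ha => exact hX a ha
  | one => exact ⟨one_mem _, by simp⟩
  | mul a b _ _ iha ihb =>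
    refine ⟨mul_mem iha.1 ihb.1, ?_⟩
    have e : ⁅a * b, g⁆ = (a * ⁅b, g⁆ * a⁻¹) * ⁅a, g⁆ := by
      simp only [commutatorElement_def]
      group
    rw [e]
    exact Z.mul_mem ((mem_normalizer_iff.1 iha.1 _).1 ihb.2) iha.2
  | inv a _ iha =>
    refine ⟨inv_mem iha.1, ?_⟩
    have e : ⁅a⁻¹, g⁆ = a⁻¹ * (⁅a, g⁆)⁻¹ * a⁻¹⁻¹ := by
      simp only [commutatorElement_def]
      group
    rw [e]
    exact (mem_normalizer_iff.1 (inv_mem iha.1) _).1 (Z.inv_mem iha.2)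

theorem LYg_triv_iff (Q R : Subgroup Γ) [(R.subgroupOf Q).Normal]
    (γ : ↥(normalizer (Q : Set Γ) ⊓ normalizer (R : Set Γ))) :
    secAct Q R γ = 1 ↔ ∀ g ∈ Q, ⁅(γ : Γ), g⁆ ∈ R := by
  constructor
  · intro h1 g hg
    rw [← sec_fixed_iff Q R γ g hg, h1]
    rfl
  · intro h1
    ext w
    obtain ⟨⟨g, hg⟩, rfl⟩ := QuotientGroup.mk_surjective w
    rw [(sec_fixed_iff Q R γ g hg).2 (h1 g hg)]
    rfl

theorem ly_amb (Q S Z₀ : Subgroup Γ) (f h : Γ) {p q : ℕ} (r : Rel p q f h)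
    (ZQ : Z₀ ≤ Q) (comm : ∀ g ∈ Q, ∀ y ∈ Q, ⁅g, y⁆ ∈ Z₀)
    (SQ : S ≤ normalizer (Q : Set Γ)) (fQ : f ∈ normalizer (Q : Set Γ))
    (hQ : h ∈ normalizer (Q : Set Γ)) (fS : f ∈ normalizer (S : Set Γ))
    (hS : h ∈ normalizer (S : Set Γ)) (SZ : S ≤ normalizer (Z₀ : Set Γ))
    (fZ : f ∈ normalizer (Z₀ : Set Γ)) (hZ : h ∈ normalizer (Z₀ : Set Γ))
    (Sab : ⁅S, S⁆ ≤ centralizer (Q : Set Γ))
    (cop : (Nat.card S).Coprime (Nat.card Q)) (copS : (p * q).Coprime (Nat.card S))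
    (copQ : (p * q).Coprime (Nat.card Q)) (solQ : Group.IsSolvable Q) (solS : Group.IsSolvable S)
    (fixQ : ∀ g ∈ Q, f * g = g * f → h * g = g * h → g = 1)
    (fixS : ∀ g ∈ S, f * g = g * f → h * g = g * h → g = 1)
    (fixSQ : ∀ g ∈ Q, (∀ x ∈ S, x * g = g * x) → g ∈ Z₀) :
    ∀ y ∈ Q, (∀ x ∈ S, ⁅x, h⁆ * y = y * ⁅x, h⁆) → h * y = y * h → y ∈ Z₀ := by
  have QZ : Q ≤ normalizer (Z₀ : Set Γ) := by
    apply LYg_le_normalizer
    intro g hg z hz
    have e : g * z * g⁻¹ = ⁅g, z⁆ * z := by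
      rw [commutatorElement_def]
      group
    rw [e]
    exact Z₀.mul_mem (comm g hg z (ZQ hz)) hz
  have hnorm : (Z₀.subgroupOf Q).Normal := sec_normal Q Z₀ QZ
  set N : Subgroup Γ := normalizer (Q : Set Γ) ⊓ normalizer (Z₀ : Set Γ) with hN
  set φ := secAct Q Z₀ with hφ
  have SN : S ≤ N := le_inf SQ SZ
  set fL : N := ⟨f, fQ, fZ⟩ with hfL
  set hL : N := ⟨h, hQ, hZ⟩ with hhL
  set S' : Subgroup N := S.subgroupOf N with hS'
  set A : Subgroup Γ := closure {f, h} with hA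
  have cardA : Nat.card A = p * q := r.card_closure
  have fA : f ∈ A := subset_closure (by simp)
  have hhA : h ∈ A := subset_closure (by simp)
  have AQ : A ≤ normalizer (Q : Set Γ) := by
    rw [hA, closure_le]
    rintro a (rfl | rfl)
    · exact fQ
    · exact hQ
  have AZ : A ≤ normalizer (Z₀ : Set Γ) := by
    rw [hA, closure_le]
    rintro a (rfl | rfl)
    · exact fZ
    · exact hZ
  have AS : A ≤ normalizer (S : Set Γ) := by
    rw [hA, closure_le]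
    rintro a (rfl | rfl)
    · exact fS
    · exact hS
  have rel' : Rel p q fL hL := by
    refine ⟨r.pP, r.qP, r.ne, Subtype.ext (by simpa using r.fq), Subtype.ext (by simpa using r.hp),
      ?_, fun hc => r.nc (congrArg Subtype.val hc)⟩
    obtain ⟨k, hk⟩ := mem_zpowers_iff.1 r.nF
    exact mem_zpowers_iff.2 ⟨k, Subtype.ext (by simpa using hk)⟩
  have fS' : fL ∈ normalizer (S' : Set N) := by
    rw [mem_normalizer_iff]
    intro x
    exact mem_normalizer_iff.1 fS x.1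
  have hS'' : hL ∈ normalizer (S' : Set N) := by
    rw [mem_normalizer_iff]
    intro x
    exact mem_normalizer_iff.1 hS x.1
  have cardS' : Nat.card S' = Nat.card S :=
    Nat.card_congr (Subgroup.subgroupOfEquivOfLe SN).toEquiv
  have cardW : Nat.card (↥Q ⧸ Z₀.subgroupOf Q) ∣ Nat.card Q := by
    rw [sec_card]
    exact Subgroup.relIndex_dvd_card _ _
  have Sab' : ∀ x ∈ S', ∀ x' ∈ S', φ (x * x') = φ (x' * x) := by
    intro x hx x' hx'
    have e : x * x' = ⁅x, x'⁆ * (x' * x) := by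
      rw [commutatorElement_def]
      group
    have h1 : φ ⁅x, x'⁆ = 1 := by
      rw [hφ, LYg_triv_iff]
      intro g hg
      have h2 : ((⁅x, x'⁆ : N) : Γ) ∈ centralizer (Q : Set Γ) :=
        Sab (commutator_mem_commutator hx hx')
      have h3 := (mem_centralizer_iff.1 h2) g hg
      have h4 : ⁅((⁅x, x'⁆ : N) : Γ), g⁆ = 1 := by
        rw [commutatorElement_eq_one_iff_mul_comm]
        exact h3.symm
      rw [h4]
      exact Z₀.one_mem
    rw [e, map_mul, h1, one_mul]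
  have fixW : ∀ w, φ fL w = w → φ hL w = w → w = 1 := by
    intro w h1 h2
    obtain ⟨⟨g, hg⟩, rfl⟩ := QuotientGroup.mk_surjective w
    rw [hφ, sec_fixed_iff] at h1 h2
    have h3 := LYg_comm_closure Z₀ g {f, h} (by
      rintro a (rfl | rfl)
      · exact ⟨fZ, h1⟩
      · exact ⟨hZ, h2⟩)
    obtain ⟨c, hc, hgc⟩ := Cfsg.Agent.S0022.result A Q AQ (cardA ▸ copQ) (Or.inr solQ) Z₀ ZQ QZ AZ
      g hg (fun a ha => by
        have := (h3 a ha).2
        rwa [commutatorElement_def] at this)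
    have hcA := mem_centralizer_iff.1 hc.2
    have hc1 : c = 1 := fixQ c hc.1 (hcA f fA) (hcA h hhA)
    rw [hc1, mul_one] at hgc
    rw [sec_mk_eq_one]
    exact Z₀.inv_mem_iff.1 hgc
  have fixSW : ∀ w, (∀ x ∈ S', φ x w = w) → w = 1 := by
    intro w h1
    obtain ⟨⟨g, hg⟩, rfl⟩ := QuotientGroup.mk_surjective w
    obtain ⟨c, hc, hgc⟩ := Cfsg.Agent.S0022.result S Q SQ cop (Or.inr solQ) Z₀ ZQ QZ SZ
      g hg (fun a ha => by
        have := h1 ⟨a, SN ha⟩ (mem_subgroupOf.2 ha)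
        rw [hφ, sec_fixed_iff, commutatorElement_def] at this
        exact this)
    have hcS := mem_centralizer_iff.1 hc.2
    have hcZ : c ∈ Z₀ := fixSQ c hc.1 (fun x hx => hcS x hx)
    rw [sec_mk_eq_one]
    have : g⁻¹ ∈ Z₀ := by
      have := Z₀.mul_mem hgc (Z₀.inv_mem hcZ)
      rwa [mul_inv_cancel_right] at this
    exact Z₀.inv_mem_iff.1 this
  -- the kernel of `φ` on `S`
  set S₀ : Subgroup Γ := (φ.ker ⊓ S').map N.subtype with hS₀
  have S₀S : S₀ ≤ S := by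
    rintro _ ⟨γ, hγ, rfl⟩
    exact mem_subgroupOf.1 hγ.2
  have HS₀ : normalizer (S : Set Γ) ⊓ N ≤ normalizer (S₀ : Set Γ) := by
    apply LYg_le_normalizer
    rintro a ha _ ⟨γ, hγ, rfl⟩
    refine ⟨⟨a, ha.2⟩ * γ * ⟨a, ha.2⟩⁻¹, ⟨?_, ?_⟩, rfl⟩
    · exact (MonoidHom.normal_ker φ).conj_mem γ hγ.1 _
    · exact mem_subgroupOf.2 ((mem_normalizer_iff.1 ha.1 _).1 (mem_subgroupOf.1 hγ.2))
  have SS₀ : S ≤ normalizer (S₀ : Set Γ) := (le_inf le_normalizer SN).trans HS₀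
  have AS₀ : A ≤ normalizer (S₀ : Set Γ) := (le_inf AS (le_inf AQ AZ)).trans HS₀
  have fixS' : ∀ x ∈ S', φ ⁅fL, x⁆ = 1 → φ ⁅hL, x⁆ = 1 → φ x = 1 := by
    intro x hx h1 h2
    have hxS : (x : Γ) ∈ S := mem_subgroupOf.1 hx
    have m1 : ⁅f, (x : Γ)⁆ ∈ S₀ := by
      refine ⟨⁅fL, x⁆, ⟨MonoidHom.mem_ker.2 h1, ?_⟩, rfl⟩
      apply mem_subgroupOf.2
      change ⁅f, (x : Γ)⁆ ∈ S
      rw [commutatorElement_def]
      exact S.mul_mem ((mem_normalizer_iff.1 fS _).1 hxS) (S.inv_mem hxS)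
    have m2 : ⁅h, (x : Γ)⁆ ∈ S₀ := by
      refine ⟨⁅hL, x⁆, ⟨MonoidHom.mem_ker.2 h2, ?_⟩, rfl⟩
      apply mem_subgroupOf.2
      change ⁅h, (x : Γ)⁆ ∈ S
      rw [commutatorElement_def]
      exact S.mul_mem ((mem_normalizer_iff.1 hS _).1 hxS) (S.inv_mem hxS)
    have h3 := LYg_comm_closure S₀ (x : Γ) {f, h} (by
      rintro a (rfl | rfl)
      · exact ⟨AS₀ fA, m1⟩
      · exact ⟨AS₀ hhA, m2⟩)
    obtain ⟨c, hc, hgc⟩ := Cfsg.Agent.S0022.result A S AS (cardA ▸ copS) (Or.inr solS) S₀ S₀S SS₀ AS₀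
      (x : Γ) hxS (fun a ha => by
        have := (h3 a ha).2
        rwa [commutatorElement_def] at this)
    have hcA := mem_centralizer_iff.1 hc.2
    have hc1 : c = 1 := fixS c hc.1 (hcA f fA) (hcA h hhA)
    rw [hc1, mul_one] at hgc
    obtain ⟨γ, hγ, hγx⟩ := S₀.inv_mem_iff.1 hgc
    have : γ = x := Subtype.ext hγx
    rw [← this]
    exact MonoidHom.mem_ker.1 hγ.1
  intro y hy h1 h2
  have key := LYg_abs' (sec_comm Q Z₀ comm) φ S' fL hL rel' fS' hS'' Sab'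
    (by rw [cardS']; exact Nat.Coprime.coprime_dvd_right cardW cop)
    (by rw [cardS']; exact copS) fixW fixSW fixS' (QuotientGroup.mk ⟨y, hy⟩)
    (by
      rw [hφ, sec_fixed_iff]
      have : ⁅(hL : Γ), y⁆ = 1 := by
        rw [commutatorElement_eq_one_iff_mul_comm]
        exact h2
      rw [this]
      exact Z₀.one_mem)
    (by
      intro x hx
      rw [hφ, sec_fixed_iff]
      have : ⁅((⁅x, hL⁆ : N) : Γ), y⁆ = 1 := by
        rw [commutatorElement_eq_one_iff_mul_comm]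
        exact h1 x.1 (mem_subgroupOf.1 hx)
      rw [this]
      exact Z₀.one_mem)
  exact (sec_mk_eq_one Q Z₀ y hy).1 key

end Cfsg.Agent.Lib.Helper46.FrobPQ
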