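import Mathlib
import Cfsg.Agent.Lib.Helper46.FrobPQ.Defs
import Cfsg.Agent.Lib.Helper46.FrobPQ.Sec
import Cfsg.Agent.Lib.Helper46.FrobPQ.Syl
import Cfsg.Agent.S0026
import Cfsg.Agent.S0027
import Cfsg.Agent.Lib.Helper88.CoprimeAbelian

/-!
# S4306 farm, piece [S1]   (file Cfsg/Agent/Lib/Helper46/FrobPQ/Struct.lean)
-/

set_option autoImplicit false
set_option linter.unusedSectionVars false
set_option linter.unusedVariables false

namespace Cfsg.Agent.Lib.Helper46.FrobPQ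

open Subgroup
open scoped commutatorElement

universe u

variable {E : Type*} [Field E] {U : Type*} [AddCommGroup U] [Module E U]
  {Γ : Type*} [Group Γ] [Finite Γ]

theorem Struct_norm_of_forall {K H : Subgroup Γ} (hK : ∀ g ∈ K, ∀ y ∈ H, g * y * g⁻¹ ∈ H) :
    K ≤ normalizer (H : Set Γ) := by
  intro g hg
  refine mem_normalizer_iff.2 fun y => ⟨fun hy => hK g hg y hy, fun hy => ?_⟩
  have h1 := hK g⁻¹ (inv_mem hg) _ hy
  have h2 : g⁻¹ * (g * y * g⁻¹) * g⁻¹⁻¹ = y := by group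
  rwa [h2] at h1

theorem Struct_norm_comm {γ : Γ} {A B : Subgroup Γ} (hA : γ ∈ normalizer (A : Set Γ))
    (hB : γ ∈ normalizer (B : Set Γ)) : γ ∈ normalizer ((⁅A, B⁆ : Subgroup Γ) : Set Γ) := by
  rw [mem_normalizer_iff_map_conj_eq] at hA hB ⊢
  rw [map_commutator, hA, hB]

theorem Struct_norm_inf {γ : Γ} {A B : Subgroup Γ} (hA : γ ∈ normalizer (A : Set Γ))
    (hB : γ ∈ normalizer (B : Set Γ)) : γ ∈ normalizer ((A ⊓ B : Subgroup Γ) : Set Γ) := by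
  refine mem_normalizer_iff.2 fun y => ?_
  rw [mem_inf, mem_inf, mem_normalizer_iff.1 hA y, mem_normalizer_iff.1 hB y]

theorem Struct_norm_sup {γ : Γ} {A B : Subgroup Γ} (hA : γ ∈ normalizer (A : Set Γ))
    (hB : γ ∈ normalizer (B : Set Γ)) : γ ∈ normalizer ((A ⊔ B : Subgroup Γ) : Set Γ) :=
  normalizer_inf_normalizer_le_normalizer_sup A B (mem_inf.2 ⟨hA, hB⟩)

theorem Struct_norm_cent {γ : Γ} {A : Subgroup Γ} (hA : γ ∈ normalizer (A : Set Γ)) :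
    γ ∈ normalizer ((centralizer (A : Set Γ) : Subgroup Γ) : Set Γ) := by
  refine mem_normalizer_iff.2 fun y => ⟨fun hy => ?_, fun hy => ?_⟩
  · refine mem_centralizer_iff.2 fun a ha => ?_
    have ha' : γ⁻¹ * a * γ⁻¹⁻¹ ∈ A := (mem_normalizer_iff.1 (inv_mem hA) a).1 ha
    have h1 := mem_centralizer_iff.1 hy _ ha'
    have h2 : a * (γ * y * γ⁻¹) = γ * ((γ⁻¹ * a * γ⁻¹⁻¹) * y) * γ⁻¹ := by group
    rw [h2, h1]
    group
  · refine mem_centralizer_iff.2 fun a ha => ?_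
    have ha' : γ * a * γ⁻¹ ∈ A := (mem_normalizer_iff.1 hA a).1 ha
    have h1 := mem_centralizer_iff.1 hy _ ha'
    have h2 : a * y = γ⁻¹ * ((γ * a * γ⁻¹) * (γ * y * γ⁻¹)) * γ := by group
    rw [h2, h1]
    group

/-- abstract version: a fixed point of `A` in `[M, A]` is trivial (coprime action). -/
theorem Struct_abs {M : Type*} [Group M] [Finite M] (hM : ∀ a c : M, a * c = c * a)
    (A : Subgroup (MulAut M)) (cop : (Nat.card A).Coprime (Nat.card M)) (x : M)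
    (hfix : ∀ α ∈ A, α x = x)
    (hx : x ∈ closure {y : M | ∃ α ∈ A, ∃ z : M, y = z⁻¹ * α z}) : x = 1 := by
  letI : CommGroup M := { (inferInstance : Group M) with mul_comm := hM }
  have h1 := Helper88.fixedSub_inf_commSub A cop
  have h4 : x ∈ Helper88.fixedSub A ⊓ Helper88.commSub A := ⟨hfix, hx⟩
  rw [h1] at h4
  exact h4

theorem Struct_comm_lt {Q : Subgroup Γ} (hs : Group.IsSolvable Q) (hne : Q ≠ ⊥) : ⁅Q, Q⁆ < Q := by
  rw [← nontrivial_iff_ne_bot] at hne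
  have h1 := Group.IsSolvable.commutator_lt_top_of_nontrivial Q
  have h2 := (map_subtype_lt_map_subtype).2 h1
  rw [map_subtype_commutator, ← MonoidHom.range_eq_map, Q.range_subtype] at h2
  exact h2

variable {ρ : Γ →* Module.End E U} {Q S : Subgroup Γ} {f h : Γ} {t s p q : ℕ}

theorem Cfg.struct (c : Cfg ρ Q S f h t s p q) :
    ⁅Q, S⁆ = Q ∧
    (∀ g ∈ Q, (∀ x ∈ S, x * g = g * x) → g ∈ centralizer (Q : Set Γ)) ∧
    (∀ g ∈ Q, ∀ y ∈ Q, ⁅g, y⁆ ∈ centralizer (Q : Set Γ)) ∧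
    ((∃ g ∈ Q, ∃ y ∈ Q, g * y ≠ y * g) →
      S ≤ centralizer ((Q ⊓ centralizer (Q : Set Γ) : Subgroup Γ) : Set Γ)) ∧
    ((∀ g ∈ Q, ∀ y ∈ Q, g * y = y * g) → ∀ g ∈ Q, (∀ x ∈ S, x * g = g * x) → g = 1) := by
  haveI : Fact t.Prime := ⟨c.tP⟩
  haveI : Fact s.Prime := ⟨c.sP⟩
  have hcop : (Nat.card S).Coprime (Nat.card Q) :=
    IsPGroup.coprime_card_of_ne s t c.ts.symm S Q c.Ss c.Qt
  haveI hnil : Group.IsNilpotent Q := c.Qt.isNilpotent
  have hsolQ : Group.IsSolvable Q := inferInstance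
  have hSS : S ≤ normalizer (S : Set Γ) := le_normalizer
  have hQQ : Q ≤ normalizer (Q : Set Γ) := le_normalizer
  have hQSle : ⁅Q, S⁆ ≤ Q := le_normalizer_iff_commutator_le_left.mp c.SQ
  have hDle : ⁅Q, Q⁆ ≤ Q := le_normalizer_iff_commutator_le_left.mp hQQ
  have hQne : Q ≠ ⊥ := by
    intro h0
    apply c.bad
    rw [h0]
    intro x _
    refine mem_centralizer_iff.2 fun y hy => ?_
    have : y = 1 := hy
    rw [this, one_mul, mul_one]
  -- (1)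
  have h1 : ⁅Q, S⁆ = Q := by
    by_contra hne
    have hc := c.minQ ⁅Q, S⁆ hQSle hne (fun x hx => Struct_norm_comm (c.SQ hx) (hSS hx))
      (Struct_norm_comm c.fQ c.fS) (Struct_norm_comm c.hQ c.hS)
    have h2 : ⁅⁅Q, S⁆, S⁆ = ⊥ := by
      rw [commutator_eq_bot_iff_le_centralizer]
      exact le_centralizer_iff.1 hc
    rw [Cfsg.Agent.S0027.result S Q c.SQ hcop (Or.inr hsolQ)] at h2
    rw [commutator_eq_bot_iff_le_centralizer] at h2
    exact c.bad (le_centralizer_iff.1 h2)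
  -- (A)
  have hA : ∀ Q₀ : Subgroup Γ, Q₀ ≤ Q → Q₀ ≠ Q → Q ≤ normalizer (Q₀ : Set Γ) →
      S ≤ normalizer (Q₀ : Set Γ) → f ∈ normalizer (Q₀ : Set Γ) → h ∈ normalizer (Q₀ : Set Γ) →
      Q₀ ≤ centralizer (Q : Set Γ) := by
    intro Q₀ hle hne hQn hSn hfn hhn
    have hc := c.minQ Q₀ hle hne hSn hfn hhn
    have e1 : ⁅S, Q₀⁆ = ⊥ := commutator_eq_bot_iff_le_centralizer.2 hc
    have e2 : ⁅Q₀, S⁆ = ⊥ := by
      rw [commutator_comm]
      exact e1
    have e3 : ⁅⁅Q, S⁆, Q₀⁆ = ⊥ := by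
      apply commutator_commutator_eq_bot_of_rotate
      · rw [e1, commutator_bot_left]
      · rw [eq_bot_iff, ← e2]
        exact commutator_mono (le_normalizer_iff_commutator_le_left.mp hQn) le_rfl
    rw [h1, commutator_eq_bot_iff_le_centralizer] at e3
    exact le_centralizer_iff.1 e3
  -- (B)
  have hQ₁le : (Q ⊓ centralizer (S : Set Γ)) ⊔ ⁅Q, Q⁆ ≤ Q := sup_le inf_le_left hDle
  have hnorm₁ : ∀ γ : Γ, γ ∈ normalizer (Q : Set Γ) → γ ∈ normalizer (S : Set Γ) →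
      γ ∈ normalizer (((Q ⊓ centralizer (S : Set Γ)) ⊔ ⁅Q, Q⁆ : Subgroup Γ) : Set Γ) :=
    fun γ hQ hS => Struct_norm_sup (Struct_norm_inf hQ (Struct_norm_cent hS))
      (Struct_norm_comm hQ hQ)
  have hQ₁ne : (Q ⊓ centralizer (S : Set Γ)) ⊔ ⁅Q, Q⁆ ≠ Q := by
    intro heq
    have hle : ⁅(Q ⊓ centralizer (S : Set Γ)) ⊔ ⁅Q, Q⁆, S⁆ ≤ ⁅Q, Q⁆ := by
      rw [commutator_le]
      intro g hg x hx
      rw [sup_comm] at hg
      obtain ⟨d, hd, c₀, hc₀, rfl⟩ := (Syl_mem_sup ⁅Q, Q⁆ (Q ⊓ centralizer (S : Set Γ)) g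
        (fun y hy => Struct_norm_comm (hQQ (mem_inf.1 hy).1) (hQQ (mem_inf.1 hy).1))).1 hg
      have hcx : x * c₀ = c₀ * x := mem_centralizer_iff.1 (mem_inf.1 hc₀).2 x hx
      have e1 : ⁅d * c₀, x⁆ = d * (x * d⁻¹ * x⁻¹) := by
        rw [commutatorElement_def]
        have : d * c₀ * x * (d * c₀)⁻¹ * x⁻¹ = d * (c₀ * x) * c₀⁻¹ * d⁻¹ * x⁻¹ := by group
        rw [this, ← hcx]
        group
      rw [e1]
      exact mul_mem hd ((mem_normalizer_iff.1 (Struct_norm_comm (c.SQ hx) (c.SQ hx)) _).1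
        (inv_mem hd))
    rw [heq, h1] at hle
    exact (Struct_comm_lt hsolQ hQne).not_ge hle
  have hQ₁c : (Q ⊓ centralizer (S : Set Γ)) ⊔ ⁅Q, Q⁆ ≤ centralizer (Q : Set Γ) := by
    refine hA _ hQ₁le hQ₁ne (Struct_norm_of_forall ?_) (fun x hx => hnorm₁ x (c.SQ hx) (hSS hx))
      (hnorm₁ f c.fQ c.fS) (hnorm₁ h c.hQ c.hS)
    intro g hg y hy
    have e1 : g * y * g⁻¹ = ⁅g, y⁆ * y := by
      rw [commutatorElement_def]
      group
    rw [e1]
    exact mul_mem ((le_sup_right : ⁅Q, Q⁆ ≤ _) (commutator_mem_commutator hg (hQ₁le hy))) hy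
  refine ⟨h1, ?_, ?_, ?_, ?_⟩
  · intro g hg hgS
    exact hQ₁c ((le_sup_left : Q ⊓ centralizer (S : Set Γ) ≤ _)
      (mem_inf.2 ⟨hg, mem_centralizer_iff.2 hgS⟩))
  · intro g hg y hy
    exact hQ₁c ((le_sup_right : ⁅Q, Q⁆ ≤ _) (commutator_mem_commutator hg hy))
  · rintro ⟨g, hg, y, hy, hgy⟩
    refine c.minQ _ inf_le_left ?_ (fun x hx => Struct_norm_inf (c.SQ hx) (Struct_norm_cent (c.SQ hx)))
      (Struct_norm_inf c.fQ (Struct_norm_cent c.fQ)) (Struct_norm_inf c.hQ (Struct_norm_cent c.hQ))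
    intro heq
    have hy' : y ∈ Q ⊓ centralizer (Q : Set Γ) := by
      rw [heq]
      exact hy
    exact hgy (mem_centralizer_iff.1 (mem_inf.1 hy').2 g hg)
  · intro hab g hg hgS
    have hcomm : ∀ a c : ↥Q, a * c = c * a := by
      intro a c
      ext
      exact hab a a.2 c c.2
    have hcard : (Nat.card ((S.subgroupOf (normalizer (Q : Set Γ))).map (secConj Q))).Coprime
        (Nat.card Q) := by
      refine Nat.Coprime.coprime_dvd_left (Subgroup.card_map_dvd _ _) ?_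
      rw [Nat.card_congr (subgroupOfEquivOfLe c.SQ).toEquiv]
      exact hcop
    have hle : ⁅Q, S⁆ ≤ (closure {y : ↥Q | ∃ α ∈ (S.subgroupOf (normalizer (Q : Set Γ))).map
        (secConj Q), ∃ z : ↥Q, y = z⁻¹ * α z}).map Q.subtype := by
      rw [commutator_le]
      intro y hy x hx
      have hxy : x * y⁻¹ * x⁻¹ ∈ Q := (mem_normalizer_iff.1 (c.SQ hx) _).1 (inv_mem hy)
      refine ⟨⟨y, hy⟩ * ⟨x * y⁻¹ * x⁻¹, hxy⟩, ?_, ?_⟩
      · refine subset_closure ⟨secConj Q ⟨x, c.SQ hx⟩, ⟨⟨x, c.SQ hx⟩, mem_subgroupOf.2 hx, rfl⟩,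
          ⟨y⁻¹, inv_mem hy⟩, ?_⟩
        ext
        simp [secConj_apply]
      · rw [commutatorElement_def]
        simp only [Subgroup.coe_subtype, Subgroup.coe_mul]
        group
    rw [h1] at hle
    obtain ⟨g', hg', hgg⟩ := hle hg
    have hfix : ∀ α ∈ (S.subgroupOf (normalizer (Q : Set Γ))).map (secConj Q), α g' = g' := by
      rintro _ ⟨x, hx, rfl⟩
      ext
      rw [secConj_apply]
      have hgg' : (g' : Γ) = g := hgg
      rw [hgg', hgS x (mem_subgroupOf.1 hx)]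
      group
    have := Struct_abs hcomm _ hcard g' hfix hg'
    rw [← hgg, this]
    rfl

end Cfsg.Agent.Lib.Helper46.FrobPQ
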