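import Mathlib
import Cfsg.Agent.Lib.Helper46.FrobPQ.Defs
import Cfsg.Agent.Lib.Helper46.FrobPQ.Rel
import Cfsg.Agent.S0026

/-!
# S4306 farm, piece [S2]   (file Cfsg/Agent/Lib/Helper46/FrobPQ/Types.lean)

PAPER PROOF.
(1) ⁅S,S⁆ ≤ S, ≠ S (S ≠ ⊥ by bad, S solvable), normalized by f, h: minS.
(2) F := zpowers f acts coprimely on S (card F = q ≠ s).  S₁ := ⁅S,F⁆ and S₂ := S ⊓ centralizer F are ≤ S and normalized by f and h (h normalizes F: Rel.closure_le_normalizer / Rel.conj_mem).  S0026: S₁ ⊔ S₂ = S.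
If S₂ = S: left alternative.  Otherwise S₂ ≤ C(Q) by minS; then S₁ = S (else S₁ ≤ C(Q) too and S = S₁ ⊔ S₂ ≤ C(Q) contradicts bad): right alternative (x ∈ S, f x = x f ⇒ x ∈ S₂).
-/

set_option autoImplicit false
set_option linter.unusedSectionVars false
set_option linter.unusedVariables false

namespace Cfsg.Agent.Lib.Helper46.FrobPQ

open Subgroup
open scoped commutatorElement

universe u

theorem types_mem_normalizer {Γ : Type*} [Group Γ] {H : Subgroup Γ} {g : Γ}
    (h1 : ∀ x ∈ H, g * x * g⁻¹ ∈ H) (h2 : ∀ x ∈ H, g⁻¹ * x * g ∈ H) :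
    g ∈ normalizer (H : Set Γ) := by
  rw [mem_normalizer_iff]
  intro x
  refine ⟨h1 x, fun hx => ?_⟩
  have := h2 _ hx
  have e : g⁻¹ * (g * x * g⁻¹) * g = x := by group
  rwa [e] at this

theorem types_conj_mem {Γ : Type*} [Group Γ] {H : Subgroup Γ} {g : Γ}
    (hg : g ∈ normalizer (H : Set Γ)) {x : Γ} (hx : x ∈ H) : g * x * g⁻¹ ∈ H :=
  (mem_normalizer_iff.1 hg x).1 hx

theorem types_conj_mem' {Γ : Type*} [Group Γ] {H : Subgroup Γ} {g : Γ}
    (hg : g ∈ normalizer (H : Set Γ)) {x : Γ} (hx : x ∈ H) : g⁻¹ * x * g ∈ H := by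
  have := types_conj_mem (inv_mem hg) hx
  rwa [inv_inv] at this

theorem types_comm_conj {Γ : Type*} [Group Γ] {A B : Subgroup Γ} {g : Γ}
    (hA : ∀ x ∈ A, g * x * g⁻¹ ∈ A) (hB : ∀ x ∈ B, g * x * g⁻¹ ∈ B) :
    ∀ x ∈ ⁅A, B⁆, g * x * g⁻¹ ∈ ⁅A, B⁆ := by
  have hle : ⁅A, B⁆ ≤ (⁅A, B⁆).comap (MulAut.conj g).toMonoidHom := by
    rw [commutator_le]
    intro a ha b hb
    rw [mem_comap]
    show g * ⁅a, b⁆ * g⁻¹ ∈ _
    have e : g * ⁅a, b⁆ * g⁻¹ = ⁅g * a * g⁻¹, g * b * g⁻¹⁆ := by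
      simp only [commutatorElement_def]
      group
    rw [e]
    exact commutator_mem_commutator (hA a ha) (hB b hb)
  intro x hx
  exact hle hx

theorem types_norm_comm {Γ : Type*} [Group Γ] {A B : Subgroup Γ} {g : Γ}
    (hA : g ∈ normalizer (A : Set Γ)) (hB : g ∈ normalizer (B : Set Γ)) :
    g ∈ normalizer ((⁅A, B⁆ : Subgroup Γ) : Set Γ) := by
  apply types_mem_normalizer
  · exact types_comm_conj (fun x hx => types_conj_mem hA hx) (fun x hx => types_conj_mem hB hx)
  · have := types_comm_conj (g := g⁻¹) (A := A) (B := B)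
      (fun x hx => types_conj_mem (inv_mem hA) hx) (fun x hx => types_conj_mem (inv_mem hB) hx)
    intro x hx
    have h1 := this x hx
    rwa [inv_inv] at h1

theorem types_cent_conj {Γ : Type*} [Group Γ] {B : Subgroup Γ} {g : Γ}
    (hB : ∀ x ∈ B, g⁻¹ * x * g ∈ B) :
    ∀ x ∈ centralizer (B : Set Γ), g * x * g⁻¹ ∈ centralizer (B : Set Γ) := by
  intro x hx
  rw [mem_centralizer_iff] at hx ⊢
  intro b hb
  have h1 := hx _ (hB b hb)
  calc b * (g * x * g⁻¹) = g * ((g⁻¹ * b * g) * x) * g⁻¹ := by group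
    _ = g * (x * (g⁻¹ * b * g)) * g⁻¹ := by rw [h1]
    _ = g * x * g⁻¹ * b := by group

theorem types_norm_inf_cent {Γ : Type*} [Group Γ] {A B : Subgroup Γ} {g : Γ}
    (hA : g ∈ normalizer (A : Set Γ)) (hB : g ∈ normalizer (B : Set Γ)) :
    g ∈ normalizer ((A ⊓ centralizer (B : Set Γ) : Subgroup Γ) : Set Γ) := by
  apply types_mem_normalizer
  · rintro x ⟨hx1, hx2⟩
    exact ⟨types_conj_mem hA hx1, types_cent_conj (fun y hy => types_conj_mem' hB hy) x hx2⟩
  · rintro x ⟨hx1, hx2⟩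
    refine ⟨types_conj_mem' hA hx1, ?_⟩
    have := types_cent_conj (g := g⁻¹) (B := B)
      (fun y hy => by rw [inv_inv]; exact types_conj_mem hB hy) x hx2
    rwa [inv_inv] at this

variable {E : Type*} [Field E] {U : Type*} [AddCommGroup U] [Module E U]
  {Γ : Type*} [Group Γ] [Finite Γ]

variable {ρ : Γ →* Module.End E U} {Q S : Subgroup Γ} {f h : Γ} {t s p q : ℕ}

theorem Cfg.types (c : Cfg ρ Q S f h t s p q) :
    ⁅S, S⁆ ≤ centralizer (Q : Set Γ) ∧
    ((∀ x ∈ S, f * x = x * f) ∨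
      (⁅S, zpowers f⁆ = S ∧ ∀ x ∈ S, f * x = x * f → x ∈ centralizer (Q : Set Γ))) := by
  haveI : Fact s.Prime := ⟨c.sP⟩
  have hSne : S ≠ ⊥ := by
    intro h0
    apply c.bad
    rw [h0]
    exact bot_le
  have fF : f ∈ normalizer ((zpowers f : Subgroup Γ) : Set Γ) :=
    le_normalizer (mem_zpowers f)
  have hF : h ∈ normalizer ((zpowers f : Subgroup Γ) : Set Γ) :=
    c.rel.closure_le_normalizer (subset_closure (by simp))
  have FS : zpowers f ≤ normalizer (S : Set Γ) := zpowers_le.mpr c.fS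
  constructor
  · apply c.minS _ _ _ (types_norm_comm c.fS c.fS) (types_norm_comm c.hS c.hS)
    · rw [commutator_le]
      intro a ha b hb
      exact S.mul_mem (S.mul_mem (S.mul_mem ha hb) (S.inv_mem ha)) (S.inv_mem hb)
    · intro heq
      haveI : Nontrivial S := (Subgroup.nontrivial_iff_ne_bot S).mpr hSne
      haveI : Group.IsNilpotent S := c.Ss.isNilpotent
      have hlt := IsSolvable.commutator_lt_top_of_nontrivial S
      apply hlt.ne
      apply Subgroup.map_injective S.subtype_injective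
      rw [map_subtype_commutator, heq, ← MonoidHom.range_eq_map, S.range_subtype]
  · have hcop : (Nat.card (zpowers f)).Coprime (Nat.card S) := by
      obtain ⟨k, hk⟩ := IsPGroup.iff_card.mp c.Ss
      rw [Nat.card_zpowers, c.rel.orderOf_f, hk]
      exact Nat.Coprime.pow_right _ ((Nat.coprime_primes c.rel.qP c.sP).mpr (Ne.symm c.sq))
    have hfac := Cfsg.Agent.S0026.result (zpowers f) S FS hcop (Or.inl inferInstance)
    have h1le : ⁅S, zpowers f⁆ ≤ S := by
      rw [commutator_le]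
      intro x hx a ha
      have : ⁅x, a⁆ = x * (a * x⁻¹ * a⁻¹) := by
        simp only [commutatorElement_def]
        group
      rw [this]
      exact S.mul_mem hx (types_conj_mem (FS ha) (S.inv_mem hx))
    by_cases hS2 : S ⊓ centralizer ((zpowers f : Subgroup Γ) : Set Γ) = S
    · left
      intro x hx
      have hx2 : x ∈ S ⊓ centralizer ((zpowers f : Subgroup Γ) : Set Γ) := by rw [hS2]; exact hx
      exact mem_centralizer_iff.mp hx2.2 f (mem_zpowers f)
    · right
      have h2C := c.minS _ inf_le_left hS2 (types_norm_inf_cent c.fS fF)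
        (types_norm_inf_cent c.hS hF)
      have hS1 : ⁅S, zpowers f⁆ = S := by
        by_contra hS1
        have h1C := c.minS _ h1le hS1 (types_norm_comm c.fS fF) (types_norm_comm c.hS hF)
        apply c.bad
        rw [← hfac]
        exact sup_le h1C h2C
      refine ⟨hS1, fun x hx hfx => h2C ⟨hx, ?_⟩⟩
      show x ∈ centralizer ((zpowers f : Subgroup Γ) : Set Γ)
      rw [mem_centralizer_iff]
      rintro a ha
      obtain ⟨k, rfl⟩ := mem_zpowers_iff.mp ha
      exact (Commute.zpow_left (show Commute f x from hfx) k)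

end Cfsg.Agent.Lib.Helper46.FrobPQ
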