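import Mathlib
import Cfsg.Agent.Lib.Helper46.FrobPQ.Defs
import Cfsg.Agent.Lib.Helper46.FrobPQ.Struct
import Cfsg.Agent.Lib.Helper46.FrobPQ.Types
import Cfsg.Agent.Lib.Helper46.FrobPQ.LyAmb

/-!
# S4306 farm, piece [LY2]   (file Cfsg/Agent/Lib/Helper46/FrobPQ/LemmaY.lean)

PAPER PROOF.
ly_amb twice.  Common hypotheses from c (Hyp0 fields), Sab from c.types.1, coprimality from the primes being distinct (card Q = t^a, card S = s^b), p-groups are solvable.
First claim (y ∈ C(Q)): Z₀ := Q ⊓ centralizer Q; comm = c.struct (3rd component) (+ ⁅g,y⁆ ∈ Q); fixSQ = c.struct (2nd component).  Z₀ is normalized by everything normalizing Q.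
Second claim (Q abelian ⇒ y = 1): Z₀ := ⊥; comm from commutativity; fixSQ = c.struct (5th component).
-/

set_option autoImplicit false
set_option linter.unusedSectionVars false
set_option linter.unusedVariables false

namespace Cfsg.Agent.Lib.Helper46.FrobPQ

open Subgroup
open scoped commutatorElement

universe u

variable {E : Type*} [Field E] {U : Type*} [AddCommGroup U] [Module E U]
  {Γ : Type*} [Group Γ] [Finite Γ]

variable {ρ : Γ →* Module.End E U} {Q S : Subgroup Γ} {f h : Γ} {t s p q : ℕ}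

theorem LY2_conj_mem {Q : Subgroup Γ} {g : Γ} (hg : g ∈ normalizer (Q : Set Γ)) {z : Γ}
    (hz : z ∈ Q ⊓ centralizer (Q : Set Γ)) : g * z * g⁻¹ ∈ Q ⊓ centralizer (Q : Set Γ) := by
  refine ⟨(mem_normalizer_iff.1 hg z).1 hz.1, ?_⟩
  change g * z * g⁻¹ ∈ centralizer (Q : Set Γ)
  rw [mem_centralizer_iff]
  intro y hy
  have hy' : g⁻¹ * y * g⁻¹⁻¹ ∈ Q := (mem_normalizer_iff.1 (inv_mem hg) y).1 hy
  have h1 := (mem_centralizer_iff.1 hz.2) _ hy'
  calc y * (g * z * g⁻¹) = g * ((g⁻¹ * y * g⁻¹⁻¹) * z) * g⁻¹ := by group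
    _ = g * (z * (g⁻¹ * y * g⁻¹⁻¹)) * g⁻¹ := by rw [h1]
    _ = g * z * g⁻¹ * y := by group

theorem LY2_norm {Q : Subgroup Γ} {g : Γ} (hg : g ∈ normalizer (Q : Set Γ)) :
    g ∈ normalizer ((Q ⊓ centralizer (Q : Set Γ) : Subgroup Γ) : Set Γ) := by
  rw [mem_normalizer_iff]
  intro z
  refine ⟨fun hz => LY2_conj_mem hg hz, fun hz => ?_⟩
  have := LY2_conj_mem (inv_mem hg) hz
  have e : g⁻¹ * (g * z * g⁻¹) * g⁻¹⁻¹ = z := by group
  rwa [e] at this

theorem LY2_norm_bot (g : Γ) : g ∈ normalizer ((⊥ : Subgroup Γ) : Set Γ) := by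
  rw [mem_normalizer_iff]
  intro z
  simp [mem_bot]

theorem LY2_coprime_card {A B : Subgroup Γ} {a b : ℕ} (ha : a.Prime) (hb : b.Prime) (hab : a ≠ b)
    (hA : IsPGroup a A) (hB : IsPGroup b B) : (Nat.card A).Coprime (Nat.card B) := by
  have := Fact.mk ha
  have := Fact.mk hb
  obtain ⟨i, hi⟩ := IsPGroup.iff_card.1 hA
  obtain ⟨j, hj⟩ := IsPGroup.iff_card.1 hB
  rw [hi, hj]
  exact Nat.Coprime.pow _ _ ((Nat.coprime_primes ha hb).2 hab)

theorem LY2_coprime_mul {B : Subgroup Γ} {p q b : ℕ} (hp : p.Prime) (hq : q.Prime) (hb : b.Prime)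
    (hpb : b ≠ p) (hqb : b ≠ q) (hB : IsPGroup b B) : (p * q).Coprime (Nat.card B) := by
  have := Fact.mk hb
  obtain ⟨j, hj⟩ := IsPGroup.iff_card.1 hB
  rw [hj]
  apply Nat.Coprime.pow_right
  exact Nat.Coprime.mul_left ((Nat.coprime_primes hp hb).2 hpb.symm)
    ((Nat.coprime_primes hq hb).2 hqb.symm)

theorem LY2_solvable {B : Subgroup Γ} {b : ℕ} (hb : b.Prime) (hB : IsPGroup b B) :
    Group.IsSolvable B := by
  have := Fact.mk hb
  have := hB.isNilpotent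
  infer_instance

theorem Cfg.lemmaY (c : Cfg ρ Q S f h t s p q) :
    ∀ y ∈ Q, (∀ x ∈ S, ⁅x, h⁆ * y = y * ⁅x, h⁆) → h * y = y * h →
      y ∈ centralizer (Q : Set Γ) ∧ ((∀ g ∈ Q, ∀ g' ∈ Q, g * g' = g' * g) → y = 1) := by
  intro y hy h1 h2
  have cop := LY2_coprime_card c.sP c.tP c.ts.symm c.Ss c.Qt
  have copS := LY2_coprime_mul c.rel.pP c.rel.qP c.sP c.sp c.sq c.Ss
  have copQ := LY2_coprime_mul c.rel.pP c.rel.qP c.tP c.tp c.tq c.Qt
  have solQ := LY2_solvable c.tP c.Qt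
  have solS := LY2_solvable c.sP c.Ss
  obtain ⟨-, st2, st3, -, st5⟩ := c.struct
  constructor
  · have := ly_amb Q S (Q ⊓ centralizer (Q : Set Γ)) f h c.rel inf_le_left
      (fun g hg y hy => ⟨by
        rw [commutatorElement_def]
        exact Q.mul_mem (Q.mul_mem (Q.mul_mem hg hy) (Q.inv_mem hg)) (Q.inv_mem hy),
        st3 g hg y hy⟩)
      c.SQ c.fQ c.hQ c.fS c.hS (fun x hx => LY2_norm (c.SQ hx)) (LY2_norm c.fQ) (LY2_norm c.hQ)
      c.types.1 cop copS copQ solQ solS c.fixQ c.fixS (fun g hg hx => ⟨hg, st2 g hg hx⟩)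
      y hy h1 h2
    exact this.2
  · intro habel
    have := ly_amb Q S ⊥ f h c.rel bot_le
      (fun g hg y hy => by
        rw [mem_bot, commutatorElement_eq_one_iff_mul_comm]
        exact habel g hg y hy)
      c.SQ c.fQ c.hQ c.fS c.hS (fun x _ => LY2_norm_bot x) (LY2_norm_bot f) (LY2_norm_bot h)
      c.types.1 cop copS copQ solQ solS c.fixQ c.fixS
      (fun g hg hx => mem_bot.2 (st5 habel g hg hx))
      y hy h1 h2
    exact mem_bot.1 this

end Cfsg.Agent.Lib.Helper46.FrobPQ
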