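import Mathlib
import Cfsg.Agent.Lib.Helper46.FrobPQ.Defs
import Cfsg.Agent.Lib.Helper46.FrobPQ.Rel
import Cfsg.Agent.Lib.Helper46.FrobPQ.Wt
import Cfsg.Agent.Lib.Helper46.FrobPQ.Syl
import Cfsg.Agent.Lib.Helper46.FrobPQ.AbW
import Cfsg.Agent.Lib.Helper46.FrobPQ.AF1
import Cfsg.Agent.Lib.Helper46.FrobPQ.Conj
import Cfsg.Agent.Lib.Helper46.FrobPQ.LemmaY
import Cfsg.Agent.S0026

/-!
# S4306 farm, piece [AF2]   (file Cfsg/Agent/Lib/Helper46/FrobPQ/AF2.lean)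

PAPER PROOF.
T := stab Q lam.  F = zpowers f, A = closure {f,h}.
(a) T ⊓ (S F) ≤ S: let γ = x' f' ∈ T, x' ∈ S, f' ∈ F, f' ≠ 1.  γ' := γ^{|S|}: it is ≡ f'^{|S|} ≠ 1 mod S, and γ'^q... Use Sylow in S F (order |S| q): let γ_q be the q-part of γ (a power of γ, of order q, since the image of γ in SF/S ≅ F has order q and |SF| = |S| q with q ∤ |S|).
    ⟨γ_q⟩ is conjugate in S F to F, by an element of S (SF = S·F and F normalizes F): γ_q = x₁⁻¹ f₁ x₁, f₁ ∈ F \ 1.  Then x₁⁻¹ f x₁ ∈ zpowers γ_q ≤ T: contradiction with hno.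
(b) By c.tri + hno: ∀ x ∈ S ∃ a_x ∈ F, t_x := x⁻¹ (a_x h a_x⁻¹) x ∈ T.  t_x t_1⁻¹ ∈ T ⊓ S F (mod S F everything is ≡ h; concretely t_x = ⁅x⁻¹, h_x⁆ h_x with h_x = a_x h a_x⁻¹ and h_x h_1⁻¹ ∈ F), so t_x t_1⁻¹ ∈ S by (a): ⁅x⁻¹,h_x⁆ (h_x h_1⁻¹) ∈ S ⇒ h_x h_1⁻¹ ∈ S ⊓ F = ⊥.  So h_x = h_1 =: h' for all x.
(c) So h' ∈ T (x = 1) and ⁅x⁻¹,h'⁆ = t_x h'⁻¹ ∈ T for all x ∈ S.  K' := ⁅S, zpowers h'⁆ ≤ T ⊓ S (comm_zpowers_le), normalized by h'.
(d) c' := c.conj a_1 : Cfg … h'.  c'.lemmaY: y ∈ Q commuting with all ⁅x,h'⁆ and with h' is 1 (Q abelian).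
    S0026 (K' acting on Q): Q = ⁅Q,K'⁆ ⊔ C_Q(K').  Q₁ := Q ⊓ centralizer K' is normalized by h'; S0026 (zpowers h' acting on Q₁): Q₁ = ⁅Q₁,⟨h'⟩⁆ ⊔ (Q₁ ⊓ C(h')) = ⁅Q₁,⟨h'⟩⁆ by lemmaY.
    {g ∈ Q | lam g = 1} is a subgroup containing ⁅g,γ⁆ for g ∈ Q, γ ∈ T (lam_comm_of_stab, inverse).  Hence lam = 1 on Q.
-/

set_option autoImplicit false
set_option linter.unusedSectionVars false
set_option linter.unusedVariables false

namespace Cfsg.Agent.Lib.Helper46.FrobPQ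

open Subgroup
open scoped commutatorElement

universe u

variable {E : Type*} [Field E] {U : Type*} [AddCommGroup U] [Module E U]
  {Γ : Type*} [Group Γ] [Finite Γ]

variable {ρ : Γ →* Module.End E U} {Q S : Subgroup Γ} {f h : Γ} {t s p q : ℕ}

theorem AF2_pow {S : Subgroup Γ} {x b : Γ} (hx : x ∈ S) (hb : b ∈ normalizer (S : Set Γ))
    (k : ℕ) : ∃ z ∈ S, (x * b) ^ k = z * b ^ k := by
  induction k with
  | zero => exact ⟨1, one_mem _, by simp⟩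
  | succ k ih =>
    obtain ⟨z, hz, e⟩ := ih
    refine ⟨z * (b ^ k * x * (b ^ k)⁻¹), mul_mem hz (AF1_cm (pow_mem hb k) hx), ?_⟩
    rw [pow_succ, e, pow_succ]; group

theorem AF2_cop {A B : Subgroup Γ} {s t : ℕ} (sP : s.Prime) (tP : t.Prime) (ts : t ≠ s)
    (hA : IsPGroup s A) (hB : IsPGroup t B) : (Nat.card A).Coprime (Nat.card B) := by
  have : Fact s.Prime := ⟨sP⟩
  have : Fact t.Prime := ⟨tP⟩
  obtain ⟨i, hi⟩ := IsPGroup.iff_card.1 hA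
  obtain ⟨j, hj⟩ := IsPGroup.iff_card.1 hB
  rw [hi, hj]
  exact Nat.Coprime.pow _ _ ((Nat.coprime_primes sP tP).2 (Ne.symm ts))

theorem Cfg.AF2_a (c : Cfg ρ Q S f h t s p q) (lam : Γ → E)
    (hno : ∀ x ∈ S, x⁻¹ * f * x ∉ stab Q lam) {x' f' : Γ} (hx' : x' ∈ S) (hf' : f' ∈ zpowers f)
    (hγ : x' * f' ∈ stab Q lam) : f' = 1 := by
  by_contra hne1
  have r := c.rel
  have hFS : zpowers f ≤ normalizer (S : Set Γ) := (zpowers_le).2 c.fS
  set N := Nat.card S with hN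
  obtain ⟨z, hz, e1⟩ := AF2_pow hx' (hFS hf') N
  obtain ⟨z2, hz2, e2⟩ := AF2_pow hx' (hFS hf') q
  have hf'q : f' ^ q = 1 := by
    obtain ⟨k, rfl⟩ := hf'
    rw [← zpow_natCast, ← zpow_mul, mul_comm, zpow_mul, zpow_natCast, r.fq, one_zpow]
  have hγq : ((x' * f') ^ N) ^ q = 1 := by
    rw [← pow_mul, mul_comm, pow_mul, e2, hf'q, mul_one]
    have h1 : (⟨z2, hz2⟩ : S) ^ Nat.card S = 1 := pow_card_eq_one'
    have h2 := congrArg Subtype.val h1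
    rw [Subgroup.coe_pow, Subgroup.coe_one] at h2
    exact h2
  have hndvd : ¬ q ∣ N := AF1_not_dvd c.sP r.qP c.sq c.Ss
  have hf'N : f' ^ N ≠ 1 := by
    intro h0
    have h1 : orderOf f' ∣ N := orderOf_dvd_of_pow_eq_one h0
    have h2 : orderOf f' = q := by
      rcases (Nat.dvd_prime r.qP).1 (orderOf_dvd_of_pow_eq_one hf'q) with h | h
      · exact absurd (orderOf_eq_one_iff.1 h) hne1
      · exact h
    exact hndvd (h2 ▸ h1)
  have hmem : (x' * f') ^ N ∈ S ⊔ zpowers f := by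
    rw [mem_sup_zpowers _ _ _ c.fS]
    exact ⟨z, hz, f' ^ N, pow_mem hf' N, e1⟩
  obtain ⟨u, hu, hun⟩ := sylow_conj S f ((x' * f') ^ N) r.qP r.fq c.fS hndvd hmem hγq
  set f₁ := u * (x' * f') ^ N * u⁻¹ with hf₁
  have hf₁1 : f₁ ≠ 1 := by
    intro h0
    have h1 : (x' * f') ^ N = 1 := by
      have : (x' * f') ^ N = u⁻¹ * f₁ * u := by rw [hf₁]; group
      rw [this, h0]; group
    rw [e1] at h1
    have h2 : f' ^ N = z⁻¹ := eq_inv_of_mul_eq_one_right h1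
    exact hf'N (AF1_disj c.sP r.qP c.sq c.Ss r.fq (pow_mem hf' N) (h2 ▸ inv_mem hz))
  have h6 : f ∈ zpowers f₁ := by
    rw [r.zpowers_f_eq hun hf₁1]; exact mem_zpowers f
  obtain ⟨k, hk⟩ := h6
  have hk' : f₁ ^ k = f := hk
  apply hno u hu
  have : u⁻¹ * f * u = ((x' * f') ^ N) ^ k := by
    rw [← hk', hf₁, conj_zpow]; group
  rw [this]
  exact zpow_mem (pow_mem hγ N) k

theorem Cfg.af2 (c : Cfg ρ Q S f h t s p q)
    (hab : ∀ g ∈ Q, ∀ y ∈ Q, g * y = y * g)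
    (lam : Γ → E) (hne : wt ρ Q lam ≠ ⊥) (hno : ∀ x ∈ S, x⁻¹ * f * x ∉ stab Q lam) :
    ∀ g ∈ Q, lam g = 1 := by
  have r := c.rel
  have hFS : zpowers f ≤ normalizer (S : Set Γ) := (zpowers_le).2 c.fS
  have hFQ : zpowers f ≤ normalizer (Q : Set Γ) := (zpowers_le).2 c.fQ
  have htri : ∀ x ∈ S, ∃ a ∈ zpowers f, x⁻¹ * (a * h * a⁻¹) * x ∈ stab Q lam := by
    intro x hx
    rcases c.tri lam hne x hx with h1 | h1
    · exact absurd h1 (hno x hx)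
    · exact h1
  obtain ⟨a₁, ha₁, ht₁⟩ := htri 1 (one_mem _)
  set h' := a₁ * h * a₁⁻¹ with hh'
  have hh'T : h' ∈ stab Q lam := by simpa using ht₁
  have hh'S : h' ∈ normalizer (S : Set Γ) :=
    mul_mem (mul_mem (hFS ha₁) c.hS) (inv_mem (hFS ha₁))
  have hh'Q : h' ∈ normalizer (Q : Set Γ) :=
    mul_mem (mul_mem (hFQ ha₁) c.hQ) (inv_mem (hFQ ha₁))
  have hconj : ∀ x ∈ S, x⁻¹ * h' * x ∈ stab Q lam := by
    intro x hx
    obtain ⟨a, ha, ht⟩ := htri x hx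
    set hx' := a * h * a⁻¹ with hhx
    have hhxS : hx' ∈ normalizer (S : Set Γ) :=
      mul_mem (mul_mem (hFS ha) c.hS) (inv_mem (hFS ha))
    have hF : hx' * h'⁻¹ ∈ zpowers f := by
      have e : hx' * h'⁻¹ = a * (h * (a⁻¹ * a₁) * h⁻¹) * a₁⁻¹ := by rw [hhx, hh']; group
      rw [e]
      exact mul_mem (mul_mem ha (r.conj_mem (mul_mem (inv_mem ha) ha₁))) (inv_mem ha₁)
    have h1 : (x⁻¹ * (hx' * x * hx'⁻¹)) * (hx' * h'⁻¹) ∈ stab Q lam := by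
      have e : (x⁻¹ * (hx' * x * hx'⁻¹)) * (hx' * h'⁻¹) = (x⁻¹ * hx' * x) * h'⁻¹ := by group
      rw [e]; exact mul_mem ht (inv_mem hh'T)
    have h2 := c.AF2_a lam hno (mul_mem (inv_mem hx) (AF1_cm hhxS hx)) hF h1
    have h3 : hx' = h' := mul_inv_eq_one.1 h2
    rw [← h3]; exact ht
  set X : Set Γ := {g | ∃ x ∈ S, g = ⁅x, h'⁆} with hX
  have hXT : ∀ g ∈ X, g ∈ stab Q lam ⊓ S := by
    rintro g ⟨x, hx, rfl⟩
    constructor
    · have h1 := hconj x⁻¹ (inv_mem hx)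
      rw [inv_inv] at h1
      rw [commutatorElement_def]
      exact (stab Q lam).mul_mem h1 ((stab Q lam).inv_mem hh'T)
    · rw [commutatorElement_def]
      have e : x * h' * x⁻¹ * h'⁻¹ = x * (h' * x⁻¹ * h'⁻¹) := by group
      rw [e]; exact S.mul_mem hx (AF1_cm hh'S (S.inv_mem hx))
  set K' := closure X with hK'
  have hK'le : K' ≤ stab Q lam ⊓ S := (closure_le _).2 hXT
  have hK'S : K' ≤ S := hK'le.trans inf_le_right
  have hK'T : K' ≤ stab Q lam := hK'le.trans inf_le_left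
  have c' : Cfg ρ Q S f h' t s p q := c.conj a₁ ha₁
  -- the subgroup where lam = 1
  let L : Subgroup Γ :=
    { carrier := {g | g ∈ Q ∧ lam g = 1}
      mul_mem' := by
        rintro a b ⟨ha, ha'⟩ ⟨hb, hb'⟩
        exact ⟨mul_mem ha hb, by rw [wt_mul hne ha hb, ha', hb', one_mul]⟩
      one_mem' := ⟨one_mem _, wt_one hne⟩
      inv_mem' := by
        rintro a ⟨ha, ha'⟩
        exact ⟨inv_mem ha, by rw [wt_inv hne ha, ha', inv_one]⟩ }
  have hcomL : ∀ g ∈ Q, ∀ γ ∈ stab Q lam, ⁅g, γ⁆ ∈ L := by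
    intro g hg γ hγ
    have h1 : lam ⁅γ, g⁆ = 1 := lam_comm_of_stab hne hγ hg
    have h2 : ⁅γ, g⁆ ∈ Q := by
      rw [commutatorElement_def]
      exact mul_mem (AF1_cm hγ.1 hg) (inv_mem hg)
    have h3 : ⁅γ, g⁆ ∈ L := ⟨h2, h1⟩
    have h4 := L.inv_mem h3
    rwa [commutatorElement_inv] at h4
  have hsolQ : ∀ Q₀ : Subgroup Γ, Q₀ ≤ Q → Group.IsSolvable Q₀ := by
    intro Q₀ h0
    apply Group.isSolvable_of_comm
    rintro ⟨a, ha⟩ ⟨b, hb⟩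
    exact Subtype.ext (hab a (h0 ha) b (h0 hb))
  -- first decomposition
  have d1 := Cfsg.Agent.S0026.result K' Q (hK'S.trans c.SQ)
    (AF2_cop c.sP c.tP c.ts (c.Ss.to_le hK'S) c.Qt) (Or.inr (hsolQ Q le_rfl))
  set Q₁ : Subgroup Γ := Q ⊓ centralizer (K' : Set Γ) with hQ₁
  have hh'X : ∀ g ∈ X, h' * g * h'⁻¹ ∈ X ∧ h'⁻¹ * g * h' ∈ X := by
    rintro g ⟨x, hx, rfl⟩
    refine ⟨⟨h' * x * h'⁻¹, AF1_cm hh'S hx, ?_⟩, ⟨h'⁻¹ * x * h', AF1_cm' hh'S hx, ?_⟩⟩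
    · simp only [commutatorElement_def]; group
    · simp only [commutatorElement_def]; group
  have hmemQ₁ : ∀ y, y ∈ Q₁ ↔ y ∈ Q ∧ ∀ g ∈ X, g * y = y * g := by
    intro y
    constructor
    · rintro ⟨h1, h2⟩
      exact ⟨h1, fun g hg => (mem_centralizer_iff.1 h2 g (subset_closure hg))⟩
    · rintro ⟨h1, h2⟩
      refine ⟨h1, ?_⟩
      have h3 : K' ≤ centralizer ({y} : Set Γ) := by
        rw [hK', closure_le]
        intro g hg
        rw [SetLike.mem_coe, mem_centralizer_iff]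
        intro z hz
        rw [Set.mem_singleton_iff] at hz
        rw [hz]; exact (h2 g hg).symm
      show y ∈ centralizer (K' : Set Γ)
      rw [mem_centralizer_iff]
      intro g hg
      have := mem_centralizer_iff.1 (h3 hg) y rfl
      exact this.symm
  have hh'Q₁ : h' ∈ normalizer (Q₁ : Set Γ) := by
    rw [mem_normalizer_iff]
    intro y
    rw [hmemQ₁, hmemQ₁]
    constructor
    · rintro ⟨h1, h2⟩
      refine ⟨AF1_cm hh'Q h1, fun g hg => ?_⟩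
      have h3 := h2 _ (hh'X g hg).2
      have e1 : g * (h' * y * h'⁻¹) = h' * ((h'⁻¹ * g * h') * y) * h'⁻¹ := by group
      rw [e1, h3]; group
    · rintro ⟨h1, h2⟩
      refine ⟨?_, fun g hg => ?_⟩
      · have := AF1_cm' hh'Q h1
        have e : h'⁻¹ * (h' * y * h'⁻¹) * h' = y := by group
        rwa [e] at this
      · have h3 := h2 _ (hh'X g hg).1
        have e1 : g * y = h'⁻¹ * ((h' * g * h'⁻¹) * (h' * y * h'⁻¹)) * h' := by group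
        rw [e1, h3]; group
  have hp' : IsPGroup p (zpowers h') := Syl_isPGroup_zpowers h' c'.rel.hp
  have d2 := Cfsg.Agent.S0026.result (zpowers h') Q₁ ((zpowers_le).2 hh'Q₁)
    (AF2_cop r.pP c.tP c.tp hp' (c.Qt.to_le inf_le_left)) (Or.inr (hsolQ Q₁ inf_le_left))
  have hbot : Q₁ ⊓ centralizer ((zpowers h' : Subgroup Γ) : Set Γ) = ⊥ := by
    rw [eq_bot_iff]
    rintro y ⟨h1, h2⟩
    replace h1 : y ∈ Q₁ := h1
    replace h2 : y ∈ centralizer ((zpowers h' : Subgroup Γ) : Set Γ) := h2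
    rw [hmemQ₁] at h1
    have h3 : h' * y = y * h' := mem_centralizer_iff.1 h2 h' (mem_zpowers h')
    exact ((c'.lemmaY y h1.1 (fun x hx => h1.2 _ ⟨x, hx, rfl⟩) h3).2 hab)
  rw [hbot, sup_bot_eq] at d2
  have hQL : Q ≤ L := by
    rw [← d1, sup_le_iff]
    constructor
    · rw [commutator_le]
      intro g hg γ hγ
      exact hcomL g hg γ (hK'T hγ)
    · rw [← d2, commutator_le]
      intro g hg γ hγ
      exact hcomL g hg.1 γ ((zpowers_le.2 hh'T) hγ)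
  intro g hg
  exact (hQL hg).2

end Cfsg.Agent.Lib.Helper46.FrobPQ
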