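import Mathlib
import Cfsg.Agent.Lib.Helper46.FrobPQ.Defs
import Cfsg.Agent.Lib.Helper46.FrobPQ.Rel
import Cfsg.Agent.Lib.Helper46.FrobPQ.Wt
import Cfsg.Agent.Lib.Helper46.FrobPQ.AbW
import Cfsg.Agent.Lib.Helper46.FrobPQ.AF1
import Cfsg.Agent.Lib.Helper46.FrobPQ.AF2

/-!
# S4306 farm, piece [ABF]   (file Cfsg/Agent/Lib/Helper46/FrobPQ/AbelF.lean)

PAPER PROOF.
c.exists_lam: lam, x₀, g₀ with lam ⁅x₀,g₀⁆ ≠ 1 (so lam is nontrivial on Q).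
Case 1: ∃ x₁ ∈ S, x₁⁻¹ f x₁ ∈ stab Q lam.  lam' := fun g => lam (x₁⁻¹ g x₁): a weight (wt_conj), nontrivial on Q, f ∈ stab Q lam'.  c.af1 ⇒ x⁻¹ f x ∈ stab Q lam' for all x ∈ S, so ⁅x⁻¹,f⁆ ∈ stab Q lam', so (comm_zpowers_le, hF) S = ⁅S,zpowers f⁆ ≤ stab Q lam'.
   Then S ≤ stab Q lam too (x₁ ∈ S: lam (x g x⁻¹) = lam' (x₁ x g x⁻¹ x₁⁻¹) = lam' (g) ... = lam g using invariance of lam' under x₁ x and x₁), so lam ⁅x₀,g₀⁆ = 1 (lam_comm_of_stab): contradiction.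
Case 2: otherwise c.af2 gives lam = 1 on Q: contradiction.
-/

set_option autoImplicit false
set_option linter.unusedSectionVars false
set_option linter.unusedVariables false

namespace Cfsg.Agent.Lib.Helper46.FrobPQ

open Subgroup
open scoped commutatorElement

universe u

variable {E : Type*} [Field E] {U : Type*} [AddCommGroup U] [Module E U]
  {Γ : Type*} [Group Γ] [Finite Γ]

variable {ρ : Γ →* Module.End E U} {Q S : Subgroup Γ} {f h : Γ} {t s p q : ℕ}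

theorem Cfg.abelF [IsAlgClosed E] [FiniteDimensional E U] (c : Cfg ρ Q S f h t s p q)
    (hab : ∀ g ∈ Q, ∀ y ∈ Q, g * y = y * g) (hF : ⁅S, zpowers f⁆ = S)
    (hF' : ∀ x ∈ S, f * x = x * f → x ∈ centralizer (Q : Set Γ)) : False := by
  obtain ⟨lam, hne, x₀, hx₀, g₀, hg₀, hlam⟩ := c.exists_lam hab
  have hconj : ∀ x ∈ S, ∀ g ∈ Q, x * g * x⁻¹ ∈ Q := fun x hx g hg =>
    (mem_normalizer_iff.1 (c.SQ hx) g).1 hg
  have hcQ : ⁅x₀, g₀⁆ ∈ Q := by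
    rw [commutatorElement_def]
    exact Q.mul_mem (hconj x₀ hx₀ g₀ hg₀) (Q.inv_mem hg₀)
  by_cases hcase : ∃ x₁ ∈ S, x₁⁻¹ * f * x₁ ∈ stab Q lam
  · obtain ⟨x₁, hx₁, hst⟩ := hcase
    set lam' : Γ → E := fun g => lam (x₁⁻¹ * g * x₁) with hlam'
    have hne' : wt ρ Q lam' ≠ ⊥ := by
      obtain ⟨v, hv, hv0⟩ := (Submodule.ne_bot_iff _).1 hne
      refine (Submodule.ne_bot_iff _).2 ⟨ρ x₁ v, wt_conj ρ Q lam (c.SQ hx₁) hv, ?_⟩
      intro h0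
      apply hv0
      have h1 : ρ x₁⁻¹ (ρ x₁ v) = v := by
        rw [← Module.End.mul_apply, ← map_mul, inv_mul_cancel, map_one, Module.End.one_apply]
      rw [← h1, h0, map_zero]
    have hnt' : ∃ g ∈ Q, lam' g ≠ 1 := by
      refine ⟨x₁ * ⁅x₀, g₀⁆ * x₁⁻¹, hconj x₁ hx₁ _ hcQ, ?_⟩
      have e : x₁⁻¹ * (x₁ * ⁅x₀, g₀⁆ * x₁⁻¹) * x₁ = ⁅x₀, g₀⁆ := by group
      change lam (x₁⁻¹ * (x₁ * ⁅x₀, g₀⁆ * x₁⁻¹) * x₁) ≠ 1
      rw [e]
      exact hlam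
    have hf' : f ∈ stab Q lam' := by
      refine mem_stab.2 ⟨c.fQ, fun z hz => ?_⟩
      have hz' : x₁⁻¹ * z * x₁ ∈ Q := by
        have := hconj x₁⁻¹ (S.inv_mem hx₁) z hz
        rwa [inv_inv] at this
      have e : x₁⁻¹ * (f * z * f⁻¹) * x₁
          = (x₁⁻¹ * f * x₁) * (x₁⁻¹ * z * x₁) * (x₁⁻¹ * f * x₁)⁻¹ := by group
      change lam (x₁⁻¹ * (f * z * f⁻¹) * x₁) = lam (x₁⁻¹ * z * x₁)
      rw [e]
      exact (mem_stab.1 hst).2 _ hz'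
    have haf := c.af1 hab hF' lam' hne' hnt' hf'
    have hS' : S ≤ stab Q lam' := by
      rw [← hF]
      apply comm_zpowers_le S (stab Q lam') f c.fS
      intro x hx
      have h1 := haf x⁻¹ (S.inv_mem hx)
      rw [inv_inv] at h1
      rw [commutatorElement_def]
      exact (stab Q lam').mul_mem h1 ((stab Q lam').inv_mem hf')
    have hS : x₀ ∈ stab Q lam := by
      refine mem_stab.2 ⟨c.SQ hx₀, fun z hz => ?_⟩
      have h1 := (mem_stab.1 (hS' (S.mul_mem hx₁ hx₀))).2 z hz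
      have h2 := (mem_stab.1 (hS' hx₁)).2 z hz
      have e1 : x₁⁻¹ * (x₁ * x₀ * z * (x₁ * x₀)⁻¹) * x₁ = x₀ * z * x₀⁻¹ := by group
      have e2 : x₁⁻¹ * (x₁ * z * x₁⁻¹) * x₁ = z := by group
      change lam (x₁⁻¹ * (x₁ * x₀ * z * (x₁ * x₀)⁻¹) * x₁) = lam' z at h1
      change lam (x₁⁻¹ * (x₁ * z * x₁⁻¹) * x₁) = lam' z at h2
      rw [e1] at h1
      rw [e2] at h2
      rw [h1, h2]
    exact hlam (lam_comm_of_stab hne hS hg₀)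
  · push Not at hcase
    exact hlam (c.af2 hab lam hne hcase _ hcQ)

end Cfsg.Agent.Lib.Helper46.FrobPQ
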