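import Mathlib
import Cfsg.Agent.Lib.Helper46.FrobPQ.Defs
import Cfsg.Agent.Lib.Helper7.WardB
import Cfsg.Agent.S0023

/-!
# S4306 farm, piece [BP]   (file Cfsg/Agent/Lib/Helper46/FrobPQ/BadPair.lean)

PAPER PROOF.
COPY Cfsg/Agent/Lib/Helper7/WardB.lean `exists_bad_pair` (same statement with A a p-group, p ∤ card X); the only place where A is used is the existence of an A-invariant Sylow s-subgroup of X: replace it by Cfsg.Agent.S0023.result A X hAX hcop (Or.inr hsol) s.
Math: Q_t := the (normal, characteristic) Sylow t-subgroup of the nilpotent N; S_s := an A-invariant Sylow s-subgroup of X.  If S_s centralizes Q_t for all s ≠ t, then S_s N = S_s × O_{s'}(N) is normal in X (X/N nilpotent), so S_s is normal in X; all Sylow subgroups normal ⇒ X nilpotent.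
-/

set_option autoImplicit false
set_option linter.unusedSectionVars false
set_option linter.unusedVariables false

namespace Cfsg.Agent.Lib.Helper46.FrobPQ

open Subgroup Cfsg.Agent.Lib.Helper88 Cfsg.Agent.Lib.Helper15.Ward Cfsg.Agent.Lib.Helper22 Cfsg.Agent.Lib.Helper7.Ward
open scoped commutatorElement

universe u

theorem exists_bad_pair {Γ : Type*} [Group Γ] [Finite Γ] (X A N : Subgroup Γ)
    (hcop : (Nat.card A).Coprime (Nat.card X)) (hsol : Group.IsSolvable X)
    (hAX : A ≤ normalizer (X : Set Γ)) (hNX : N ≤ X)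
    (hXN : X ≤ normalizer (N : Set Γ)) (hAN : A ≤ normalizer (N : Set Γ))
    (hN : ∃ k, N.lowerCentralSeries k = ⊥) (hXN' : ∃ k, X.lowerCentralSeries k ≤ N)
    (hX : ¬ ∃ k, X.lowerCentralSeries k = ⊥) :
    ∃ (s t : ℕ) (S Q : Subgroup Γ), s.Prime ∧ t.Prime ∧ s ≠ t ∧ IsPGroup s S ∧ IsPGroup t Q ∧
      S ≤ X ∧ Q ≤ N ∧ A ≤ normalizer (S : Set Γ) ∧ A ≤ normalizer (Q : Set Γ) ∧
      X ≤ normalizer (Q : Set Γ) ∧ ¬ (S ≤ centralizer (Q : Set Γ)) := by
  obtain ⟨E, rfl⟩ : ∃ E, E = N := ⟨N, rfl⟩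
  have hEX := hNX
  have hXE := hXN
  have hAE := hAN
  have hE := hN
  have hXE' := hXN'
  by_contra hno
  apply hX
  rw [← isNilpotent_iff_lowerCentralSeries]
  have hEnil : Group.IsNilpotent E := (isNilpotent_iff_lowerCentralSeries E).2 hE
  -- the Sylow subgroups of `E`
  have hQ : ∀ q : ℕ, q.Prime → ∃ Q, IsSylowIn q Q E ∧
      ∀ g ∈ normalizer (E : Set Γ), g ∈ normalizer (Q : Set Γ) := by
    intro q hq
    have : Fact q.Prime := ⟨hq⟩
    let S : Sylow q E := default
    have hSn : (S : Subgroup E).Normal := inferInstance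
    have hsyl : IsSylowIn q ((S : Subgroup E).map E.subtype) E := ⟨S, rfl⟩
    have hEN : E ≤ normalizer (((S : Subgroup E).map E.subtype : Subgroup Γ) : Set Γ) := by
      rw [le_normalizer_iff]
      rintro e he _ ⟨y, hy, rfl⟩
      exact ⟨⟨e, he⟩ * y * ⟨e, he⟩⁻¹, hSn.conj_mem y hy _, rfl⟩
    refine ⟨_, hsyl, ?_⟩
    intro g hg
    apply mem_normalizer_of_conj hsyl g
    · intro y hy
      have : g * y * g⁻¹ ∈ E := (mem_normalizer_iff.1 hg y).1 (hsyl.le hy)
      exact ⟨this, hEN this⟩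
    · intro y hy
      have : g⁻¹ * y * g ∈ E := by
        have := (mem_normalizer_iff.1 (inv_mem hg) y).1 (hsyl.le hy)
        simpa using this
      exact ⟨this, hEN this⟩
  -- every prime has a normal Sylow subgroup in `X`
  have hS : ∀ s : ℕ, s.Prime → ∃ S, IsSylowIn s S X ∧ X ≤ normalizer (S : Set Γ) := by
    intro s hs
    have : Fact s.Prime := ⟨hs⟩
    obtain ⟨S, hS, hAS⟩ : ∃ S, IsSylowIn s S X ∧ A ≤ normalizer (S : Set Γ) := by
      obtain ⟨P, hP⟩ := Cfsg.Agent.S0023.result A X hAX hcop (Or.inr hsol) s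
      exact ⟨_, ⟨P, rfl⟩, hP⟩
    refine ⟨S, hS, ?_⟩
    have hES : E ≤ normalizer (S : Set Γ) := by
      apply le_of_forall_isSylowIn
      intro q hq
      obtain ⟨Q, hQs, hQn⟩ := hQ q hq
      refine ⟨Q, hQs, ?_⟩
      by_cases hsq : s = q
      · subst hsq
        have : Q ≤ S := by
          have h1 : IsPGroup s (S ⊔ Q : Subgroup Γ) :=
            hS.isPGroup.to_sup_of_normal_right' hQs.isPGroup
              (fun x hx => hQn x (hXE (hS.le hx)))
          have h2 := hS.eq_of_le h1 (sup_le hS.le (hQs.le.trans hEX)) le_sup_left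
          exact le_sup_right.trans h2.le
        exact this.trans le_normalizer
      · have hc : S ≤ centralizer (Q : Set Γ) := by
          by_contra hc
          exact hno ⟨s, q, S, Q, hs, hq, hsq, hS.isPGroup, hQs.isPGroup, hS.le, hQs.le, hAS,
            fun a ha => hQn a (hAE ha), fun x hx => hQn x (hXE hx), hc⟩
        have hc' : Q ≤ centralizer (S : Set Γ) := le_centralizer_iff.1 hc
        exact hc'.trans (centralizer_le_normalizer _)
    by_contra hnot
    obtain ⟨k, hk⟩ := hXE'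
    have hne : ¬ X ≤ X ⊓ normalizer (S : Set Γ) := fun h => hnot (h.trans inf_le_right)
    obtain ⟨x, hxX, hxN, hxn⟩ := exists_mem_normalizer_of_lcs_le (X ⊓ normalizer (S : Set Γ)) X
      inf_le_left hne k (hk.trans (le_inf hEX hES))
    apply hxN
    refine ⟨hxX, ?_⟩
    apply mem_normalizer_of_conj hS x
    · intro y hy
      exact (mem_normalizer_iff.1 hxn y).1 ⟨hS.le hy, le_normalizer hy⟩
    · intro y hy
      have := (mem_normalizer_iff.1 (inv_mem hxn) y).1 ⟨hS.le hy, le_normalizer hy⟩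
      simpa using this
  apply (Group.isNilpotent_of_finite_tfae (G := X)).out 3 0 rfl rfl |>.mp
  intro s hs P
  obtain ⟨S, hSs, hSn⟩ := hS s hs.out
  have h1 : (P : Subgroup X).map X.subtype ≤ S :=
    le_of_le_normalizer hSs (P.isPGroup'.map _) (map_subtype_le _)
      ((map_subtype_le _).trans hSn)
  have h2 : IsPGroup s (S.subgroupOf X) :=
    hSs.isPGroup.comap_of_injective X.subtype X.subtype_injective
  have h3 : (P : Subgroup X) ≤ S.subgroupOf X := by
    intro x hx
    rw [mem_subgroupOf]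
    exact h1 (mem_map_of_mem _ hx)
  have h4 := P.is_maximal' h2 h3
  rw [← h4]
  exact (normal_subgroupOf_iff_le_normalizer hSs.le).2 hSn


end Cfsg.Agent.Lib.Helper46.FrobPQ
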