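import Mathlib
import Cfsg.Agent.Lib.Helper46.FrobPQ.Defs
import Cfsg.Agent.Lib.Helper46.ESRep5

/-!
# S4306 farm, piece [SS]   (file Cfsg/Agent/Lib/Helper46/FrobPQ/CentComm.lean)

An operator of finite order (prime to the characteristic) whose centralizer has dimension at most
`dim V` has simple spectrum, so its centralizer is commutative.
-/

set_option autoImplicit false
set_option linter.unusedSectionVars false
set_option linter.unusedVariables false

namespace Cfsg.Agent.Lib.Helper46.FrobPQ

open Subgroup
open scoped commutatorElement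

universe u

variable {E : Type*} [Field E] [IsAlgClosed E] {V : Type*} [AddCommGroup V] [Module E V]
  [FiniteDimensional E V] {Q : Type*} [Group Q] [Finite Q]

open Cfsg.Agent.Lib.Helper46.ESRep in
theorem CentComm_aux {ι : Type*} [Fintype ι] (b : Module.Basis ι E V) (d : ι → E)
    (x : Module.End E V) (hb : ∀ a, x (b a) = d a • b a)
    (hle : Module.finrank E (cent x) ≤ Module.finrank E V) :
    ∀ a c : Module.End E V, x * a = a * x → x * c = c * x → a * c = c * a := by
  classical
  have hN : Module.finrank E V = Fintype.card ι := Module.finrank_eq_card_basis b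
  let e := Matrix.toLinAlgEquiv b
  have hx : x = e (Matrix.diagonal d) := by
    apply b.ext
    intro a
    rw [hb a, Matrix.toLinAlgEquiv_self]
    simp [Matrix.diagonal_apply]
  let P := {p : ι × ι // d p.1 = d p.2}
  let Mf : (P → E) →ₗ[E] Matrix ι ι E :=
    { toFun := fun f => Matrix.of (fun k l => if h : d k = d l then f ⟨(k, l), h⟩ else 0)
      map_add' := by
        intro f g
        ext k l
        simp only [Matrix.of_apply, Matrix.add_apply, Pi.add_apply]
        split_ifs <;> simp
      map_smul' := by
        intro c f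
        ext k l
        simp only [Matrix.of_apply, Matrix.smul_apply, Pi.smul_apply, RingHom.id_apply]
        split_ifs <;> simp }
  have hMf : ∀ f, e (Mf f) ∈ cent x := by
    intro f
    rw [mem_cent, hx, ← map_mul, ← map_mul]
    congr 1
    ext k l
    rw [Matrix.diagonal_mul, Matrix.mul_diagonal]
    show d k * (if h : d k = d l then f ⟨(k, l), h⟩ else 0)
      = (if h : d k = d l then f ⟨(k, l), h⟩ else 0) * d l
    split_ifs with h
    · rw [h, mul_comm]
    · simp
  let Φ : (P → E) →ₗ[E] cent x := (e.toLinearMap ∘ₗ Mf).codRestrict (cent x) hMf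
  have hΦ : Function.Injective Φ := by
    intro f g hfg
    have h1 : e (Mf f) = e (Mf g) := congrArg Subtype.val hfg
    have h2 : Mf f = Mf g := e.injective h1
    funext ⟨⟨k, l⟩, h⟩
    have h3 := congrFun (congrFun h2 k) l
    have h4 : ∀ f' : P → E, Mf f' k l = f' ⟨(k, l), h⟩ := by
      intro f'
      show (if h : d k = d l then f' ⟨(k, l), h⟩ else 0) = _
      rw [dif_pos h]
    rw [h4, h4] at h3
    exact h3
  have h5 := LinearMap.finrank_le_finrank_of_injective hΦ
  rw [Module.finrank_fintype_fun_eq_card] at h5
  have h6 : Fintype.card P ≤ Fintype.card ι := by rw [← hN]; exact h5.trans hle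
  -- `d` is injective
  have hinj : Function.Injective d := by
    let δ : ι → P := fun k => ⟨(k, k), rfl⟩
    have hδ : Function.Injective δ := by
      intro k l hkl
      exact congrArg (fun p : P => p.1.1) hkl
    have hsurj : Function.Surjective δ :=
      (Function.Injective.bijective_of_nat_card_le hδ (by
        rw [Nat.card_eq_fintype_card, Nat.card_eq_fintype_card]; exact h6)).2
    intro k l hkl
    obtain ⟨m, hm⟩ := hsurj ⟨(k, l), hkl⟩
    have h1 : m = k := congrArg (fun p : P => p.1.1) hm
    have h2 : m = l := congrArg (fun p : P => p.1.2) hm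
    rw [← h1, h2]
  have hdiag : ∀ a : Module.End E V, x * a = a * x →
      ∃ f : ι → E, a = e (Matrix.diagonal f) := by
    intro a ha
    obtain ⟨A, rfl⟩ := e.surjective a
    rw [hx, ← map_mul, ← map_mul] at ha
    have h1 := e.injective ha
    refine ⟨fun k => A k k, ?_⟩
    congr 1
    ext k l
    by_cases hkl : k = l
    · subst hkl
      simp
    · rw [Matrix.diagonal_apply_ne _ hkl]
      have h2 := congrFun (congrFun h1 k) l
      rw [Matrix.diagonal_mul, Matrix.mul_diagonal] at h2
      have h3 : (d k - d l) * A k l = 0 := by rw [sub_mul, h2, mul_comm, sub_self]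
      rcases mul_eq_zero.1 h3 with h | h
      · exact absurd (hinj (sub_eq_zero.1 h)) hkl
      · exact h
  intro a c ha hc
  obtain ⟨f, rfl⟩ := hdiag a ha
  obtain ⟨g, rfl⟩ := hdiag c hc
  rw [← map_mul, ← map_mul, Matrix.diagonal_mul_diagonal, Matrix.diagonal_mul_diagonal]
  congr 2
  funext k
  exact mul_comm _ _

theorem cent_comm (x : Module.End E V) (n : ℕ) (hn : 0 < n) (hx : x ^ n = 1) (hnE : (n : E) ≠ 0)
    (hle : Module.finrank E (Cfsg.Agent.Lib.Helper46.ESRep.cent x) ≤ Module.finrank E V) :
    ∀ a b : Module.End E V, x * a = a * x → x * b = b * x → a * b = b * a := by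
  classical
  have hss : x.IsSemisimple := by
    apply Module.End.isSemisimple_of_squarefree_aeval_eq_zero
      (p := Polynomial.X ^ n - Polynomial.C (1 : E))
    · exact (Polynomial.separable_X_pow_sub_C (1 : E) hnE one_ne_zero).squarefree
    · simp [hx]
  let dec := DirectSum.isInternal_submodule_of_iSupIndep_of_iSup_eq_top
    x.eigenspaces_iSupIndep hss.iSup_eigenspace_eq_top
  let b := dec.collectedBasis (fun μ => Module.finBasis E (x.eigenspace μ))
  have hb : ∀ a, x (b a) = a.1 • b a := fun a =>
    Module.End.mem_eigenspace_iff.1 (dec.collectedBasis_mem _ a)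
  have : Fintype (Σ μ : E, Fin (Module.finrank E (x.eigenspace μ))) :=
    FiniteDimensional.fintypeBasisIndex b
  exact CentComm_aux b (fun a => a.1) x hb hle

end Cfsg.Agent.Lib.Helper46.FrobPQ
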