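import Mathlib
import Cfsg.Agent.Lib.Helper46.FrobPQ.Defs

/-!
# S4306 farm, piece [PJ]   (file Cfsg/Agent/Lib/Helper46/FrobPQ/Proj.lean)

PAPER PROOF.
`TL ρ R`: R acts by scalars, ⁅g,y⁆ ∈ R, and for g ∉ R some ρ ⁅g,y⁆ ≠ 1.
* mem_of_scalar: if ρ g is a scalar then ρ ⁅g,y⁆ = ρ g ρ y (ρ g)⁻¹ (ρ y)⁻¹ = 1 for all y, so g ∈ R by `nd`.
* TL.normal: y z y⁻¹ = ⁅y,z⁆ * z.
* proj_sum: ρ y ρ g ρ y⁻¹ = ρ ⁅y,g⁆ ρ g = β(y) • ρ g with ρ ⁅y,g⁆ = β(y) • 1.  If g ∈ R: ρ g scalar, each term is ρ g.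
  If g ∉ R: T := ∑_y ρ y ρ g ρ y⁻¹; choose y₀ with ρ ⁅g,y₀⁆ ≠ 1, i.e. ρ ⁅y₀,g⁆ = c • 1 with c ≠ 1 (if V is trivial everything is 0).
  ρ y₀ T ρ y₀⁻¹ = T by reindexing; on the other hand each term ρ y ρ g ρ y⁻¹ is a scalar multiple of ρ g, so T = a • ρ g and
  ρ y₀ T ρ y₀⁻¹ = a • c • ρ g = c • T.  So (c - 1) • T = 0, T = 0.
* TL.res: scalars restrict; ρ ⁅g,y⁆ = a • 1 with a ≠ 1 stays ≠ 1 on W ≠ ⊥.
-/

set_option autoImplicit false
set_option linter.unusedSectionVars false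
set_option linter.unusedVariables false

namespace Cfsg.Agent.Lib.Helper46.FrobPQ

open Subgroup
open scoped commutatorElement

universe u

variable {E : Type*} [Field E] [IsAlgClosed E] {V : Type*} [AddCommGroup V] [Module E V]
  [FiniteDimensional E V] {Q : Type*} [Group Q] [Finite Q]

theorem mem_of_scalar {ρ : Q →* Module.End E V} {R : Subgroup Q} (h : TL ρ R) {g : Q} {a : E}
    (hg : ρ g = a • 1) : g ∈ R := by
  by_contra hgR
  obtain ⟨y, hy⟩ := h.nd g hgR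
  apply hy
  have hc : ρ g * ρ y = ρ y * ρ g := by
    rw [hg]
    simp
  calc ρ ⁅g, y⁆ = ρ g * ρ y * ρ g⁻¹ * ρ y⁻¹ := by rw [commutatorElement_def]; simp only [map_mul]
    _ = ρ y * ρ g * ρ g⁻¹ * ρ y⁻¹ := by rw [hc]
    _ = ρ (y * g * g⁻¹ * y⁻¹) := by simp only [map_mul]
    _ = 1 := by simp

theorem TL.normal {ρ : Q →* Module.End E V} {R : Subgroup Q} (h : TL ρ R) : R.Normal := by
  refine ⟨fun z hz y => ?_⟩
  have : y * z * y⁻¹ = ⁅y, z⁆ * z := by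
    rw [commutatorElement_def]
    group
  rw [this]
  exact R.mul_mem (h.comm y z) hz

theorem PJ_map_inv_eq_one (ρ : Q →* Module.End E V) {x : Q} (hx : ρ x = 1) : ρ x⁻¹ = 1 := by
  have : ρ x⁻¹ * ρ x = 1 := by rw [← map_mul, inv_mul_cancel, map_one]
  rwa [hx, mul_one] at this

theorem proj_sum [Fintype Q] {ρ : Q →* Module.End E V} {R : Subgroup Q} (h : TL ρ R) (g : Q) :
    (g ∈ R → ∑ y : Q, ρ y * ρ g * ρ y⁻¹ = (Fintype.card Q : E) • ρ g) ∧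
      (g ∉ R → ∑ y : Q, ρ y * ρ g * ρ y⁻¹ = 0) := by
  constructor
  · intro hg
    obtain ⟨a, ha⟩ := h.scal g hg
    have h1 : ∀ y : Q, ρ y * ρ g * ρ y⁻¹ = ρ g := by
      intro y
      rw [ha, mul_smul_comm, mul_one, smul_mul_assoc, ← map_mul, mul_inv_cancel, map_one]
    rw [Finset.sum_congr rfl (fun y _ => h1 y), Finset.sum_const, Finset.card_univ,
      Nat.cast_smul_eq_nsmul]
  · intro hg
    obtain ⟨y₀, hy₀⟩ := h.nd g hg
    obtain ⟨c, hc⟩ := h.scal _ (h.comm y₀ g)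
    have hc1 : c ≠ 1 := by
      rintro rfl
      rw [one_smul] at hc
      apply hy₀
      rw [← commutatorElement_inv]
      exact PJ_map_inv_eq_one ρ hc
    set T : Module.End E V := ∑ y : Q, ρ y * ρ g * ρ y⁻¹ with hT
    have h1 : ∀ y : Q, ρ (y * y₀) * ρ g * ρ (y * y₀)⁻¹ = c • (ρ y * ρ g * ρ y⁻¹) := by
      intro y
      have e1 : ρ (y * y₀) * ρ g * ρ (y * y₀)⁻¹ = ρ y * (ρ ⁅y₀, g⁆ * ρ g) * ρ y⁻¹ := by
        simp only [← map_mul]
        congr 1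
        rw [commutatorElement_def]
        group
      rw [e1, hc, smul_mul_assoc, one_mul, mul_smul_comm, smul_mul_assoc]
    have h2 : T = c • T := by
      conv_lhs => rw [hT, ← Equiv.sum_comp (Equiv.mulRight y₀)]
      rw [hT, Finset.smul_sum]
      exact Finset.sum_congr rfl (fun y _ => h1 y)
    have h3 : (1 - c) • T = 0 := by
      rw [sub_smul, one_smul, ← h2, sub_self]
    rcases smul_eq_zero.1 h3 with h4 | h4
    · exact absurd (sub_eq_zero.1 h4).symm hc1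
    · exact h4

theorem TL.res {ρ : Q →* Module.End E V} {R : Subgroup Q} (h : TL ρ R) (W : Submodule E V)
    (hW : ∀ g, ∀ v ∈ W, ρ g v ∈ W) (hne : W ≠ ⊥) : TL (resRep ρ W hW) R := by
  refine ⟨?_, h.comm, ?_, h.card⟩
  · intro z hz
    obtain ⟨a, ha⟩ := h.scal z hz
    refine ⟨a, ?_⟩
    ext v
    rw [resRep_apply, ha]
    simp
  · intro g hg
    obtain ⟨y, hy⟩ := h.nd g hg
    refine ⟨y, fun hcon => hy ?_⟩
    obtain ⟨a, ha⟩ := h.scal _ (h.comm g y)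
    obtain ⟨w, hw, hw0⟩ := (Submodule.ne_bot_iff _).1 hne
    have h1 : ρ ⁅g, y⁆ w = w := by
      have := resRep_apply ρ W hW ⁅g, y⁆ ⟨w, hw⟩
      rw [hcon] at this
      exact this.symm
    rw [ha] at h1
    have h2 : (a - 1) • w = 0 := by
      rw [sub_smul, one_smul]
      simpa [sub_eq_zero] using h1
    rcases smul_eq_zero.1 h2 with h3 | h3
    · rw [ha, sub_eq_zero.1 h3, one_smul]
    · exact absurd h3 hw0

end Cfsg.Agent.Lib.Helper46.FrobPQ
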