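import Mathlib
import Cfsg.Agent.Lib.Helper46.FrobPQ.Defs
import Cfsg.Agent.Lib.Helper46.FrobPQ.Proj
import Cfsg.Agent.Lib.Helper46.ESRep3

/-!
# S4306 farm, piece [IS]   (file Cfsg/Agent/Lib/Helper46/FrobPQ/IrrStruct.lean)

Irreducible representations of a group `Q` with `Q/R` "symplectic": `ρ(Q)` spans `End V`, the
`ρ(c.out)`, `c ∈ Q/R`, are a basis, `(dim V)^2 = |Q : R|`.
-/

set_option autoImplicit false
set_option linter.unusedSectionVars false
set_option linter.unusedVariables false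

namespace Cfsg.Agent.Lib.Helper46.FrobPQ

open Subgroup
open scoped commutatorElement

universe u

variable {E : Type*} [Field E] [IsAlgClosed E] {V : Type*} [AddCommGroup V] [Module E V]
  [FiniteDimensional E V] {Q : Type*} [Group Q]

namespace IS

variable {ρ : Q →* Module.End E V} {R : Subgroup Q}

theorem rho_mul_inv (g : Q) : ρ g * ρ g⁻¹ = 1 := by rw [← map_mul, mul_inv_cancel, map_one]
theorem rho_inv_mul (g : Q) : ρ g⁻¹ * ρ g = 1 := by rw [← map_mul, inv_mul_cancel, map_one]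

theorem rho_ne_zero [Nontrivial V] (g : Q) : ρ g ≠ 0 := by
  intro h
  have := rho_mul_inv (ρ := ρ) g
  rw [h, zero_mul] at this
  exact zero_ne_one this

theorem exists_chi (h : TL ρ R) (t g : Q) : ∃ c : E, ρ g * ρ t * ρ g⁻¹ = c • ρ t := by
  obtain ⟨a, ha⟩ := h.scal _ (h.comm g t)
  refine ⟨a, ?_⟩
  have h1 : g * t * g⁻¹ = ⁅g, t⁆ * t := by simp only [commutatorElement_def]; group
  rw [← map_mul, ← map_mul, h1, map_mul, ha]
  simp

/-- the scalar `β_t(g)` with `ρ g ρ t ρ g⁻¹ = β_t(g) ρ t` -/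
noncomputable def chi (h : TL ρ R) (t g : Q) : E := (exists_chi h t g).choose

theorem conj_rho (h : TL ρ R) (g t : Q) : ρ g * ρ t * ρ g⁻¹ = chi h t g • ρ t :=
  (exists_chi h t g).choose_spec

variable [Nontrivial V]

theorem chi_unique (h : TL ρ R) {t g : Q} {c : E} (hc : ρ g * ρ t * ρ g⁻¹ = c • ρ t) :
    chi h t g = c :=
  smul_left_injective E (rho_ne_zero (ρ := ρ) t) ((conj_rho h g t).symm.trans hc)

theorem chi_mul_g (h : TL ρ R) (t g k : Q) : chi h t (g * k) = chi h t g * chi h t k := by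
  apply chi_unique
  calc ρ (g * k) * ρ t * ρ (g * k)⁻¹ = ρ g * (ρ k * ρ t * ρ k⁻¹) * ρ g⁻¹ := by
        rw [mul_inv_rev, map_mul, map_mul]; simp only [mul_assoc]
    _ = chi h t k • (ρ g * ρ t * ρ g⁻¹) := by
        rw [conj_rho, mul_smul_comm, smul_mul_assoc]
    _ = (chi h t g * chi h t k) • ρ t := by rw [conj_rho, smul_smul, mul_comm]

theorem chi_mul_t (h : TL ρ R) (s t g : Q) : chi h (s * t) g = chi h s g * chi h t g := by
  apply chi_unique
  calc ρ g * ρ (s * t) * ρ g⁻¹ = (ρ g * ρ s * ρ g⁻¹) * (ρ g * ρ t * ρ g⁻¹) := by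
        rw [map_mul]
        simp only [mul_assoc]
        rw [← mul_assoc (ρ g⁻¹) (ρ g), rho_inv_mul, one_mul]
    _ = (chi h s g * chi h t g) • ρ (s * t) := by
        rw [conj_rho, conj_rho, smul_mul_smul_comm, map_mul]

theorem chi_one_g (h : TL ρ R) (t : Q) : chi h t 1 = 1 := by
  apply chi_unique
  simp

theorem chi_one_t (h : TL ρ R) (g : Q) : chi h 1 g = 1 := by
  apply chi_unique
  rw [map_one, mul_one, rho_mul_inv, one_smul]

/-- the character `g ↦ β_t(g)` -/
noncomputable def chiL (h : TL ρ R) (t : Q) : Q →* E where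
  toFun g := chi h t g
  map_one' := chi_one_g h t
  map_mul' g k := chi_mul_g h t g k

/-- the character `t ↦ β_t(g)` -/
noncomputable def chiR (h : TL ρ R) (g : Q) : Q →* E where
  toFun t := chi h t g
  map_one' := chi_one_t h g
  map_mul' s t := chi_mul_t h s t g

theorem chi_of_mem_t (h : TL ρ R) {t : Q} (ht : t ∈ R) (g : Q) : chi h t g = 1 := by
  apply chi_unique
  obtain ⟨a, ha⟩ := h.scal t ht
  rw [ha, mul_smul_comm, mul_one, smul_mul_assoc, rho_mul_inv, one_smul]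

theorem chi_of_mem_g (h : TL ρ R) {g : Q} (hg : g ∈ R) (t : Q) : chi h t g = 1 := by
  apply chi_unique
  obtain ⟨a, ha⟩ := h.scal g hg
  have h1 : ρ g * ρ t = ρ t * ρ g := by rw [ha]; simp
  rw [h1, mul_assoc, rho_mul_inv, mul_one, one_smul]

theorem exists_ne_t (h : TL ρ R) {t : Q} (ht : t ∉ R) : ∃ g, chi h t g ≠ 1 := by
  obtain ⟨y, hy⟩ := h.nd t ht
  refine ⟨y, fun h1 => hy ?_⟩
  have h2 := conj_rho h y t
  rw [h1, one_smul] at h2
  have h3 : ρ y * ρ t = ρ t * ρ y := by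
    calc ρ y * ρ t = ρ y * ρ t * ρ y⁻¹ * ρ y := by rw [mul_assoc _ (ρ y⁻¹), rho_inv_mul, mul_one]
      _ = ρ t * ρ y := by rw [h2]
  rw [commutatorElement_def, map_mul, map_mul, map_mul, ← h3, mul_assoc (ρ y), rho_mul_inv, mul_one,
    rho_mul_inv]

theorem exists_ne_g (h : TL ρ R) {g : Q} (hg : g ∉ R) : ∃ t, chi h t g ≠ 1 := by
  obtain ⟨y, hy⟩ := h.nd g hg
  refine ⟨y, fun h1 => hy ?_⟩
  have h2 := conj_rho h g y
  rw [h1, one_smul] at h2
  rw [commutatorElement_def, map_mul, map_mul, map_mul, h2, rho_mul_inv]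

theorem chi_ne_zero (h : TL ρ R) (t g : Q) : chi h t g ≠ 0 := by
  intro h0
  have h1 : chi h t (g * g⁻¹) = 1 := by rw [mul_inv_cancel, chi_one_g]
  rw [chi_mul_g, h0, zero_mul] at h1
  exact zero_ne_one h1

theorem chi_inv_right (h : TL ρ R) (t g : Q) : chi h t g⁻¹ = chi h t⁻¹ g := by
  have h1 : chi h t g⁻¹ * chi h t g = 1 := by rw [← chi_mul_g, inv_mul_cancel, chi_one_g]
  have h2 : chi h t⁻¹ g * chi h t g = 1 := by rw [← chi_mul_t, inv_mul_cancel, chi_one_t]
  exact mul_right_cancel₀ (chi_ne_zero h t g) (h1.trans h2.symm)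

variable [Fintype Q]

theorem sum_chi_g (h : TL ρ R) (t : Q) [Decidable (t ∈ R)] :
    ∑ g : Q, chi h t g = if t ∈ R then (Fintype.card Q : E) else 0 := by
  split_ifs with ht
  · simp [chi_of_mem_t h ht]
  · obtain ⟨g, hg⟩ := exists_ne_t h ht
    exact sum_hom_units_eq_zero (chiL h t) (fun h' => hg (by
      have : chiL h t g = 1 := by rw [h']; rfl
      exact this))

theorem sum_chi_t (h : TL ρ R) (g : Q) [Decidable (g ∈ R)] :
    ∑ t : Q, chi h t g = if g ∈ R then (Fintype.card Q : E) else 0 := by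
  split_ifs with hg
  · simp [chi_of_mem_g h hg]
  · obtain ⟨t, ht⟩ := exists_ne_g h hg
    exact sum_hom_units_eq_zero (chiR h g) (fun h' => ht (by
      have : chiR h g t = 1 := by rw [h']; rfl
      exact this))

/-- the weight projection (not normalized) -/
noncomputable def proj (h : TL ρ R) (t : Q) (a : Module.End E V) : Module.End E V :=
  ∑ g : Q, chi h t g⁻¹ • (ρ g * a * ρ g⁻¹)

theorem proj_rho (h : TL ρ R) (t s : Q) [Decidable (t⁻¹ * s ∈ R)] :
    proj h t (ρ s) = if t⁻¹ * s ∈ R then (Fintype.card Q : E) • ρ s else 0 := by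
  unfold proj
  have h1 : ∀ g : Q, chi h t g⁻¹ • (ρ g * ρ s * ρ g⁻¹) = chi h (t⁻¹ * s) g • ρ s := by
    intro g
    rw [conj_rho, smul_smul, chi_inv_right, chi_mul_t]
  rw [Finset.sum_congr rfl (fun g _ => h1 g), ← Finset.sum_smul, sum_chi_g]
  split_ifs <;> simp

theorem proj_sum' {ι : Type*} (h : TL ρ R) (t : Q) (s : Finset ι)
    (f : ι → Module.End E V) : proj h t (∑ i ∈ s, f i) = ∑ i ∈ s, proj h t (f i) := by
  unfold proj
  rw [Finset.sum_comm]
  refine Finset.sum_congr rfl (fun g _ => ?_)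
  rw [Finset.mul_sum, Finset.sum_mul, Finset.smul_sum]

theorem proj_smul (h : TL ρ R) (t : Q) (c : E) (a : Module.End E V) :
    proj h t (c • a) = c • proj h t a := by
  unfold proj
  rw [Finset.smul_sum]
  refine Finset.sum_congr rfl (fun g _ => ?_)
  rw [mul_smul_comm, smul_mul_assoc, smul_comm]

theorem conj_proj (h : TL ρ R) (t k : Q) (a : Module.End E V) :
    ρ k * proj h t a * ρ k⁻¹ = chi h t k • proj h t a := by
  unfold proj
  rw [Finset.mul_sum, Finset.sum_mul, Finset.smul_sum]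
  refine Fintype.sum_equiv (Equiv.mulLeft k) _ _ (fun g => ?_)
  simp only [Equiv.coe_mulLeft]
  rw [mul_smul_comm, smul_mul_assoc, smul_smul]
  have h1 : chi h t k * chi h t (k * g)⁻¹ = chi h t g⁻¹ := by
    rw [mul_inv_rev, chi_mul_g, mul_comm (chi h t g⁻¹), ← mul_assoc, ← chi_mul_g, mul_inv_cancel,
      chi_one_g, one_mul]
  rw [h1]
  congr 1
  rw [map_mul, mul_inv_rev, map_mul]
  simp only [mul_assoc]

theorem sum_proj (h : TL ρ R) (a : Module.End E V) :
    ∑ t : Q, proj h t a = ((Fintype.card Q : E) * (Nat.card R : E)) • a := by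
  classical
  unfold proj
  rw [Finset.sum_comm]
  have h1 : ∀ g : Q, ∑ t : Q, chi h t g⁻¹ • (ρ g * a * ρ g⁻¹)
      = if g ∈ R then (Fintype.card Q : E) • a else 0 := by
    intro g
    rw [← Finset.sum_smul, sum_chi_t]
    by_cases hg : g ∈ R
    · rw [if_pos hg, if_pos (R.inv_mem hg)]
      congr 1
      obtain ⟨c, hc⟩ := h.scal g hg
      have h2 : ρ g * a = a * ρ g := by rw [hc]; simp
      rw [h2, mul_assoc, rho_mul_inv, mul_one]
    · rw [if_neg hg, if_neg (fun h' => hg (by simpa using R.inv_mem h')), zero_smul]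
  rw [Finset.sum_congr rfl (fun g _ => h1 g), ← Finset.sum_filter, Finset.sum_const, mul_smul,
    ← Nat.cast_smul_eq_nsmul E, smul_comm]
  congr 2
  rw [Nat.card_eq_fintype_card, Fintype.card_subtype]

theorem cardQ' (h : TL ρ R) : (Fintype.card Q : E) ≠ 0 := by
  have := h.card
  rwa [Nat.card_eq_fintype_card] at this

theorem card_R_ne_zero (h : TL ρ R) : (Nat.card R : E) ≠ 0 := by
  intro h0
  apply h.card
  obtain ⟨k, hk⟩ := Subgroup.card_subgroup_dvd_card R
  rw [hk, Nat.cast_mul, h0, zero_mul]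

/-- Schur's lemma. -/
theorem schur (irr : ∀ W : Submodule E V, (∀ g, ∀ v ∈ W, ρ g v ∈ W) → W = ⊥ ∨ W = ⊤)
    (T : Module.End E V) (hT : ∀ g, T * ρ g = ρ g * T) : ∃ c : E, T = c • 1 := by
  obtain ⟨c, hc⟩ := Module.End.exists_eigenvalue T
  refine ⟨c, ?_⟩
  have h1 : T.eigenspace c = ⊥ ∨ T.eigenspace c = ⊤ := by
    apply irr
    intro g v hv
    rw [Module.End.mem_eigenspace_iff] at hv ⊢
    have := congrArg (fun f : Module.End E V => f v) (hT g)
    simp only [Module.End.mul_apply] at this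
    rw [this, hv, map_smul]
  rcases h1 with h1 | h1
  · exact absurd h1 hc
  · ext v
    have : v ∈ T.eigenspace c := by rw [h1]; trivial
    rw [Module.End.mem_eigenspace_iff] at this
    simpa using this

theorem proj_mem (h : TL ρ R)
    (irr : ∀ W : Submodule E V, (∀ g, ∀ v ∈ W, ρ g v ∈ W) → W = ⊥ ∨ W = ⊤)
    (t : Q) (a : Module.End E V) : ∃ c : E, proj h t a = c • ρ t := by
  obtain ⟨c, hc⟩ := schur irr (ρ t⁻¹ * proj h t a) (by
    intro k
    have h1 : ρ k * (ρ t⁻¹ * proj h t a) * ρ k⁻¹ = ρ t⁻¹ * proj h t a := by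
      calc ρ k * (ρ t⁻¹ * proj h t a) * ρ k⁻¹
          = (ρ k * ρ t⁻¹ * ρ k⁻¹) * (ρ k * proj h t a * ρ k⁻¹) := by
            simp only [mul_assoc]
            rw [← mul_assoc (ρ k⁻¹) (ρ k), rho_inv_mul, one_mul]
        _ = ρ t⁻¹ * proj h t a := by
            rw [conj_rho h, conj_proj, smul_mul_smul_comm, ← chi_mul_t, inv_mul_cancel,
              chi_one_t, one_smul]
    calc ρ t⁻¹ * proj h t a * ρ k = (ρ k * (ρ t⁻¹ * proj h t a) * ρ k⁻¹) * ρ k := by rw [h1]
      _ = ρ k * (ρ t⁻¹ * proj h t a) := by rw [mul_assoc _ (ρ k⁻¹), rho_inv_mul, mul_one])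
  refine ⟨c, ?_⟩
  calc proj h t a = ρ t * (ρ t⁻¹ * proj h t a) := by rw [← mul_assoc, rho_mul_inv, one_mul]
    _ = c • ρ t := by rw [hc]; simp

/-- `ρ(Q)` spans `End V`. -/
theorem span_eq_top (h : TL ρ R)
    (irr : ∀ W : Submodule E V, (∀ g, ∀ v ∈ W, ρ g v ∈ W) → W = ⊥ ∨ W = ⊤) :
    Submodule.span E (Set.range ρ) = ⊤ := by
  rw [eq_top_iff]
  intro a _
  have h1 := sum_proj h a
  have h2 : ((Fintype.card Q : E) * (Nat.card R : E)) ≠ 0 :=
    mul_ne_zero (cardQ' h) (card_R_ne_zero h)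
  have h3 : a = ((Fintype.card Q : E) * (Nat.card R : E))⁻¹ • ∑ t : Q, proj h t a := by
    rw [h1, smul_smul, inv_mul_cancel₀ h2, one_smul]
  rw [h3]
  apply Submodule.smul_mem
  apply Submodule.sum_mem
  intro t _
  obtain ⟨c, hc⟩ := proj_mem h irr t a
  rw [hc]
  exact Submodule.smul_mem _ _ (Submodule.subset_span ⟨t, rfl⟩)

theorem linearIndependent_out (h : TL ρ R) :
    LinearIndependent E (fun c : Q ⧸ R => ρ c.out) := by
  classical
  rw [Fintype.linearIndependent_iff]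
  intro a ha c₀
  have h1 := congrArg (proj h c₀.out) ha
  rw [proj_sum'] at h1
  have h2 : ∀ c : Q ⧸ R, proj h c₀.out (a c • ρ c.out)
      = if c = c₀ then (a c₀ * (Fintype.card Q : E)) • ρ c₀.out else 0 := by
    intro c
    rw [proj_smul, proj_rho]
    by_cases hc : c = c₀
    · subst hc
      rw [if_pos rfl, if_pos (by simp), smul_smul]
    · rw [if_neg hc, if_neg, smul_zero]
      intro h'
      apply hc
      have := QuotientGroup.eq.2 h'
      rw [QuotientGroup.out_eq', QuotientGroup.out_eq'] at this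
      exact this.symm
  rw [Finset.sum_congr rfl (fun c _ => h2 c)] at h1
  simp only [Finset.sum_ite_eq', Finset.mem_univ, if_true] at h1
  have h3 : proj h c₀.out (0 : Module.End E V) = 0 := by unfold proj; simp
  rw [h3] at h1
  rcases smul_eq_zero.1 h1 with h' | h'
  · rcases mul_eq_zero.1 h' with h' | h'
    · exact h'
    · exact absurd h' (cardQ' h)
  · exact absurd h' (rho_ne_zero _)

theorem span_out (h : TL ρ R)
    (irr : ∀ W : Submodule E V, (∀ g, ∀ v ∈ W, ρ g v ∈ W) → W = ⊥ ∨ W = ⊤) :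
    Submodule.span E (Set.range (fun c : Q ⧸ R => ρ c.out)) = ⊤ := by
  rw [eq_top_iff, ← span_eq_top h irr, Submodule.span_le]
  rintro _ ⟨g, rfl⟩
  obtain ⟨k, hk⟩ := QuotientGroup.mk_out_eq_mul R g
  have h1 : g = (QuotientGroup.mk g : Q ⧸ R).out * (k : Q)⁻¹ := by
    rw [hk]; group
  obtain ⟨c, hc⟩ := h.scal _ (R.inv_mem k.2)
  have h2 : ρ g = c • ρ (QuotientGroup.mk g : Q ⧸ R).out := by
    conv_lhs => rw [h1]
    rw [map_mul, hc]
    simp
  show ρ g ∈ _
  rw [h2]
  exact Submodule.smul_mem _ _ (Submodule.subset_span ⟨_, rfl⟩)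

end IS

theorem irr_struct [Finite Q] [Nontrivial V] {ρ : Q →* Module.End E V} {R : Subgroup Q} (h : TL ρ R)
    (irr : ∀ W : Submodule E V, (∀ g, ∀ v ∈ W, ρ g v ∈ W) → W = ⊥ ∨ W = ⊤) :
    Submodule.span E (Set.range ρ) = ⊤ ∧
      LinearIndependent E (fun c : Q ⧸ R => ρ c.out) ∧
      (Module.finrank E V) ^ 2 = R.index := by
  classical
  have := Fintype.ofFinite Q
  refine ⟨IS.span_eq_top h irr, IS.linearIndependent_out h, ?_⟩
  have b := Module.Basis.mk (IS.linearIndependent_out h) (le_of_eq (IS.span_out h irr).symm)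
  have h1 := Module.finrank_eq_card_basis b
  rw [Module.finrank_linearMap] at h1
  rw [sq, h1, Subgroup.index, Nat.card_eq_fintype_card]

end Cfsg.Agent.Lib.Helper46.FrobPQ
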