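import Mathlib
import Cfsg.Agent.Lib.Helper46.FrobPQ.Defs
import Cfsg.Agent.Lib.Helper46.FrobPQ.Proj
import Cfsg.Agent.Lib.Helper46.FrobPQ.IrrStruct

/-!
# S4306 farm, piece [CMc]   (file Cfsg/Agent/Lib/Helper46/FrobPQ/CmCommute.lean)

PAPER PROOF.
x is invertible, x⁻¹ = x^(n-1).  N := x^(n-1) * M' * x * M ... precisely: put c := M x M' (conjugate).  For all g:
 c ρ g = M x ρ(τ⁻¹ g) M' = M ρ(σ τ⁻¹ g) x M' = ρ(τ σ τ⁻¹ g) M x M' = ρ(σ g) c   (M' ρ g = ρ (τ⁻¹ g) M' from hM; hτσ with g := τ⁻¹ g).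
So x^(n-1) c commutes with ρ(Q), hence with span ρ(Q) = ⊤ (irr_struct), so it is a scalar γ (center of End V; or Schur via eigenspace): M x M' = γ • x.
γ^n = 1 (n-th powers).  M^m commutes with ρ(Q) (τ^m = 1) so it is a scalar, and M^m x M'^m = γ^m • x gives γ^m = 1 (x ≠ 0 invertible).  m, n coprime ⇒ γ = 1.  So M x = x M.
-/

set_option autoImplicit false
set_option linter.unusedSectionVars false
set_option linter.unusedVariables false

namespace Cfsg.Agent.Lib.Helper46.FrobPQ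

open Subgroup
open scoped commutatorElement

universe u

variable {E : Type*} [Field E] [IsAlgClosed E] {V : Type*} [AddCommGroup V] [Module E V]
  [FiniteDimensional E V] {Q : Type*} [Group Q] [Finite Q]

theorem cmc_schur [Nontrivial V] {ρ : Q →* Module.End E V}
    (irr : ∀ W : Submodule E V, (∀ g, ∀ v ∈ W, ρ g v ∈ W) → W = ⊥ ∨ W = ⊤)
    (d : Module.End E V) (hd : ∀ g, d * ρ g = ρ g * d) : ∃ γ : E, d = γ • 1 := by
  obtain ⟨γ, hγ⟩ := Module.End.exists_eigenvalue d
  obtain ⟨v₀, hv₀⟩ := hγ.exists_hasEigenvector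
  refine ⟨γ, ?_⟩
  have hW : ∀ g, ∀ v ∈ d.eigenspace γ, ρ g v ∈ d.eigenspace γ := by
    intro g v hv
    rw [Module.End.mem_eigenspace_iff] at hv ⊢
    have := LinearMap.congr_fun (hd g) v
    rw [Module.End.mul_apply, Module.End.mul_apply, hv, map_smul] at this
    exact this
  rcases irr _ hW with h | h
  · exfalso
    have : v₀ ∈ d.eigenspace γ := hv₀.1
    rw [h, Submodule.mem_bot] at this
    exact hv₀.2 this
  · ext v
    have : v ∈ d.eigenspace γ := by rw [h]; trivial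
    rw [Module.End.mem_eigenspace_iff] at this
    rw [this]; simp

omit [IsAlgClosed E] [FiniteDimensional E V] in
theorem cmc_eq_one [Nontrivial V] {a : E} (h : a • (1 : Module.End E V) = 1) : a = 1 := by
  obtain ⟨v, hv⟩ := exists_ne (0 : V)
  have h1 := LinearMap.congr_fun h v
  rw [LinearMap.smul_apply, Module.End.one_apply] at h1
  have h2 : (a - 1) • v = 0 := by rw [sub_smul, one_smul, h1, sub_self]
  rcases smul_eq_zero.1 h2 with h3 | h3
  · exact sub_eq_zero.1 h3
  · exact absurd h3 hv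

theorem cm_commute [Nontrivial V] {ρ : Q →* Module.End E V} {R : Subgroup Q} (h : TL ρ R)
    (irr : ∀ W : Submodule E V, (∀ g, ∀ v ∈ W, ρ g v ∈ W) → W = ⊥ ∨ W = ⊤)
    (x : Module.End E V) (σ : MulAut Q) {n : ℕ} (hn : 0 < n) (hx : x ^ n = 1)
    (tw : ∀ g, x * ρ g = ρ (σ g) * x)
    (τ : MulAut Q) (m : ℕ) (hτ : τ ^ m = 1) (hmn : m.Coprime n)
    (hτσ : ∀ g, ρ (τ (σ g)) = ρ (σ (τ g)))
    (M M' : Module.End E V) (h1 : M * M' = 1) (h2 : M' * M = 1)
    (hM : ∀ g, M * ρ g = ρ (τ g) * M) : x * M = M * x := by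
  obtain ⟨k, rfl⟩ : ∃ k, n = k + 1 := ⟨n - 1, by omega⟩
  set xi := x ^ k with hxi
  have hx1 : x * xi = 1 := by rw [hxi, ← pow_succ', hx]
  have hx2 : xi * x = 1 := by rw [hxi, ← pow_succ, hx]
  have hM' : ∀ g, M' * ρ g = ρ (τ⁻¹ g) * M' := by
    intro g
    have h3 := hM (τ⁻¹ g)
    rw [MulAut.apply_inv_self] at h3
    calc M' * ρ g = M' * (ρ g * M) * M' := by rw [mul_assoc, mul_assoc, h1, mul_one]
      _ = M' * (M * ρ (τ⁻¹ g)) * M' := by rw [h3]
      _ = ρ (τ⁻¹ g) * M' := by rw [← mul_assoc, h2, one_mul]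
  set c := M * x * M' with hc
  have hcg : ∀ g, c * ρ g = ρ (σ g) * c := by
    intro g
    calc c * ρ g = M * x * (M' * ρ g) := by rw [hc, mul_assoc]
      _ = M * (x * ρ (τ⁻¹ g)) * M' := by rw [hM']; simp only [mul_assoc]
      _ = (M * ρ (σ (τ⁻¹ g))) * x * M' := by rw [tw]; simp only [mul_assoc]
      _ = ρ (τ (σ (τ⁻¹ g))) * (M * x * M') := by rw [hM]; simp only [mul_assoc]
      _ = ρ (σ g) * c := by rw [hτσ, MulAut.apply_inv_self]
  have hxi' : ∀ g, xi * ρ (σ g) = ρ g * xi := by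
    intro g
    calc xi * ρ (σ g) = xi * (ρ (σ g) * x) * xi := by rw [mul_assoc, mul_assoc, hx1, mul_one]
      _ = xi * (x * ρ g) * xi := by rw [tw]
      _ = ρ g * xi := by rw [← mul_assoc, hx2, one_mul]
  obtain ⟨γ, hγ⟩ := cmc_schur irr (xi * c) (by
    intro g
    rw [mul_assoc, hcg, ← mul_assoc, hxi', mul_assoc])
  have hcx : c = γ • x := by
    calc c = x * (xi * c) := by rw [← mul_assoc, hx1, one_mul]
      _ = γ • x := by rw [hγ, mul_smul_comm, mul_one]
  -- powers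
  have hpow : ∀ j : ℕ, M ^ j * x * M' ^ j = γ ^ j • x := by
    intro j
    induction j with
    | zero => simp
    | succ j ih =>
      calc M ^ (j + 1) * x * M' ^ (j + 1) = M * (M ^ j * x * M' ^ j) * M' := by
            rw [pow_succ' M, pow_succ M']; simp only [mul_assoc]
        _ = γ ^ j • c := by rw [ih, mul_smul_comm, smul_mul_assoc, hc]
        _ = γ ^ (j + 1) • x := by rw [hcx, smul_smul, pow_succ]
  have hMM : ∀ j : ℕ, M ^ j * M' ^ j = 1 := by
    intro j
    induction j with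
    | zero => simp
    | succ j ih =>
      calc M ^ (j + 1) * M' ^ (j + 1) = M * (M ^ j * M' ^ j) * M' := by
            rw [pow_succ' M, pow_succ M']; simp only [mul_assoc]
        _ = 1 := by rw [ih, mul_one, h1]
  have hMg : ∀ (j : ℕ) (g : Q), M ^ j * ρ g = ρ ((τ ^ j) g) * M ^ j := by
    intro j
    induction j with
    | zero => intro g; simp
    | succ j ih =>
      intro g
      calc M ^ (j + 1) * ρ g = M * (M ^ j * ρ g) := by rw [pow_succ' M, mul_assoc]
        _ = (M * ρ ((τ ^ j) g)) * M ^ j := by rw [ih, mul_assoc]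
        _ = ρ ((τ ^ (j + 1)) g) * M ^ (j + 1) := by
            rw [hM, pow_succ' τ, MulAut.mul_apply, pow_succ' M, mul_assoc]
  have hcp : ∀ j : ℕ, c ^ j = M * x ^ j * M' := by
    intro j
    induction j with
    | zero => simp [h1]
    | succ j ih =>
      calc c ^ (j + 1) = (M * x ^ j * M') * (M * x * M') := by rw [pow_succ, ih]
        _ = M * x ^ j * (M' * M) * x * M' := by simp only [mul_assoc]
        _ = M * x ^ (j + 1) * M' := by rw [h2, mul_one, pow_succ]; simp only [mul_assoc]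
  have hγn : γ ^ (k + 1) = 1 := by
    apply cmc_eq_one (V := V)
    have h3 := hcp (k + 1)
    rw [hx, mul_one, h1, hcx, smul_pow, hx] at h3
    exact h3
  have hγm : γ ^ m = 1 := by
    apply cmc_eq_one (V := V)
    obtain ⟨δ, hδ⟩ := cmc_schur irr (M ^ m) (by
      intro g
      rw [hMg, hτ]; rfl)
    have h3 := hpow m
    have h4 : M ^ m * x = x * M ^ m := by
      rw [hδ, smul_mul_assoc, one_mul, mul_smul_comm, mul_one]
    rw [h4, mul_assoc, hMM, mul_one] at h3
    calc γ ^ m • (1 : Module.End E V) = (γ ^ m • x) * xi := by rw [smul_mul_assoc, hx1]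
      _ = 1 := by rw [← h3, hx1]
  have hγ1 : γ = 1 := by
    have := pow_gcd_eq_one.2 ⟨hγm, hγn⟩
    rwa [hmn, pow_one] at this
  rw [hγ1, one_smul] at hcx
  calc x * M = c * M := by rw [hcx]
    _ = M * x := by rw [hc, mul_assoc, h2, mul_one]

end Cfsg.Agent.Lib.Helper46.FrobPQ
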