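import Mathlib
import Cfsg.Agent.Lib.Helper46.FrobPQ.Defs
import Cfsg.Agent.Lib.Helper46.FrobPQ.Proj

/-!
# S4306 farm, piece [TW]   (file Cfsg/Agent/Lib/Helper46/FrobPQ/Twist.lean)

PAPER PROOF.
Y := ∑_y ρ (σ y * y⁻¹).
* twist_comm: substitute y = g * y' : ρ(σ(g y') (g y')⁻¹) ... precisely Y ρ g = ∑_y ρ(σ y y⁻¹ g); put y = g y'': σ(g) σ(y'') y''⁻¹.  (cf. ESRep2.Y_tw)
* twist_avg: ∑_y ρ y Y ρ y⁻¹ = ∑_g ∑_y ρ y ρ(σ g g⁻¹) ρ y⁻¹ = (proj_sum) |Q| ∑_{g : σ g g⁻¹ ∈ R} ρ(σ g g⁻¹).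
  Claim: ρ w = 1 for w = σ g g⁻¹ ∈ R.  ρ w = κ • 1.  κ^|Q| = 1 since w^|Q| = 1.  κ^r = 1: by hσR and mem_of_scalar, σ^i w ∈ R and ρ(σ^i w) = ρ w;
  σ^r g g⁻¹ = σ^{r-1}(w) ⋯ σ(w) w (induction: σ^{i+1} g g⁻¹ = σ^i(w) * (σ^i g g⁻¹)), so 1 = ρ(σ^r g g⁻¹) = (ρ w)^r.  r, |Q| coprime ⇒ κ = 1.
  So the sum is c • 1 with c = |Q| * #{g | σ g g⁻¹ ∈ R}; the set C = {g | σ g g⁻¹ ∈ R} is a subgroup (R normal, σ R ⊆ R), so its cardinality divides |Q|,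
  and (|Q| : E) ≠ 0 (h.card) gives c ≠ 0.
-/

set_option autoImplicit false
set_option linter.unusedSectionVars false
set_option linter.unusedVariables false

namespace Cfsg.Agent.Lib.Helper46.FrobPQ

open Subgroup
open scoped commutatorElement

universe u

variable {E : Type*} [Field E] [IsAlgClosed E] {V : Type*} [AddCommGroup V] [Module E V]
  [FiniteDimensional E V] {Q : Type*} [Group Q] [Finite Q]

theorem twist_comm [Fintype Q] (ρ : Q →* Module.End E V) (σ : MulAut Q) (g : Q) :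
    (∑ y : Q, ρ (σ y * y⁻¹)) * ρ g = ρ (σ g) * ∑ y : Q, ρ (σ y * y⁻¹) := by
  rw [Finset.sum_mul, Finset.mul_sum, ← Equiv.sum_comp (Equiv.mulLeft g)]
  refine Finset.sum_congr rfl (fun y _ => ?_)
  rw [← map_mul, ← map_mul]
  congr 1
  simp [mul_assoc]

/-- `ρ (σ g g⁻¹) = 1` as soon as `σ g g⁻¹ ∈ R`. -/
theorem TW_rho_eq_one {ρ : Q →* Module.End E V} {R : Subgroup Q}
    (h : TL ρ R) (σ : MulAut Q) (r : ℕ) (hσ : σ ^ r = 1)
    (hcop : r.Coprime (Nat.card Q)) (hσR : ∀ z ∈ R, ρ (σ z) = ρ z) (g : Q)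
    (hg : σ g * g⁻¹ ∈ R) : ρ (σ g * g⁻¹) = 1 := by
  set w := σ g * g⁻¹ with hw
  have hR : ∀ i : ℕ, ∀ z ∈ R, (σ ^ i) z ∈ R ∧ ρ ((σ ^ i) z) = ρ z := by
    intro i
    induction i with
    | zero => intro z hz; simpa using hz
    | succ i ih =>
      intro z hz
      obtain ⟨h1, h2⟩ := ih z hz
      rw [pow_succ', MulAut.mul_apply]
      obtain ⟨a, ha⟩ := h.scal _ h1
      have h3 : ρ (σ ((σ ^ i) z)) = ρ ((σ ^ i) z) := hσR _ h1
      exact ⟨mem_of_scalar h (h3.trans ha), h3.trans h2⟩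
  have hu : ∀ i : ℕ, ρ ((σ ^ i) g * g⁻¹) = (ρ w) ^ i := by
    intro i
    induction i with
    | zero => simp
    | succ i ih =>
      have e : (σ ^ (i + 1)) g * g⁻¹ = (σ ^ i) w * ((σ ^ i) g * g⁻¹) := by
        rw [pow_succ, MulAut.mul_apply, hw, map_mul, map_inv]
        group
      rw [e, map_mul, (hR i w hg).2, ih, pow_succ']
  have h1 : (ρ w) ^ r = 1 := by
    rw [← hu r, hσ]
    simp
  have h2 : (ρ w) ^ (Nat.card Q) = 1 := by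
    rw [← map_pow, pow_card_eq_one', map_one]
  have h3 := pow_gcd_eq_one.2 ⟨h1, h2⟩
  rwa [Nat.Coprime.gcd_eq_one hcop, pow_one] at h3

/-- the subgroup `{g | σ g g⁻¹ ∈ R}`. -/
def TW_C (σ : MulAut Q) (R : Subgroup Q) (hR : R.Normal) : Subgroup Q where
  carrier := {g | σ g * g⁻¹ ∈ R}
  one_mem' := by simp
  mul_mem' := by
    intro a b ha hb
    have e : σ (a * b) * (a * b)⁻¹ = (σ a * a⁻¹) * (a * (σ b * b⁻¹) * a⁻¹) := by
      rw [map_mul]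
      group
    change σ (a * b) * (a * b)⁻¹ ∈ R
    rw [e]
    exact R.mul_mem ha (hR.conj_mem _ hb a)
  inv_mem' := by
    intro a ha
    have e : σ a⁻¹ * a⁻¹⁻¹ = (a⁻¹ * (σ a * a⁻¹) * a⁻¹⁻¹)⁻¹ := by
      rw [map_inv]
      group
    change σ a⁻¹ * a⁻¹⁻¹ ∈ R
    rw [e]
    exact R.inv_mem (hR.conj_mem _ ha a⁻¹)

theorem twist_avg [Nontrivial V] [Fintype Q] {ρ : Q →* Module.End E V} {R : Subgroup Q}
    (h : TL ρ R) (σ : MulAut Q) (r : ℕ) (hr : 0 < r) (hσ : σ ^ r = 1)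
    (hcop : r.Coprime (Nat.card Q)) (hσR : ∀ z ∈ R, ρ (σ z) = ρ z) :
    ∃ c : E, c ≠ 0 ∧ ∑ y : Q, ρ y * (∑ g : Q, ρ (σ g * g⁻¹)) * ρ y⁻¹ = c • 1 := by
  classical
  set C := TW_C σ R h.normal with hC
  have hcard : (Nat.card Q : E) ≠ 0 := h.card
  have hCcard : (Nat.card C : E) ≠ 0 := by
    obtain ⟨k, hk⟩ := Subgroup.card_subgroup_dvd_card C
    intro h0
    apply hcard
    rw [hk, Nat.cast_mul, h0, zero_mul]
  refine ⟨(Nat.card C : E) * (Nat.card Q : E), mul_ne_zero hCcard hcard, ?_⟩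
  have h1 : ∀ g : Q, ∑ y : Q, ρ y * ρ (σ g * g⁻¹) * ρ y⁻¹
      = if g ∈ C then (Nat.card Q : E) • (1 : Module.End E V) else 0 := by
    intro g
    by_cases hg : g ∈ C
    · rw [if_pos hg, (proj_sum h _).1 hg, TW_rho_eq_one h σ r hσ hcop hσR g hg,
        Nat.card_eq_fintype_card]
    · rw [if_neg hg, (proj_sum h _).2 hg]
  calc ∑ y : Q, ρ y * (∑ g : Q, ρ (σ g * g⁻¹)) * ρ y⁻¹
      = ∑ y : Q, ∑ g : Q, ρ y * ρ (σ g * g⁻¹) * ρ y⁻¹ := by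
        refine Finset.sum_congr rfl (fun y _ => ?_)
        rw [Finset.mul_sum, Finset.sum_mul]
    _ = ∑ g : Q, ∑ y : Q, ρ y * ρ (σ g * g⁻¹) * ρ y⁻¹ := Finset.sum_comm
    _ = ∑ g : Q, if g ∈ C then (Nat.card Q : E) • (1 : Module.End E V) else 0 :=
        Finset.sum_congr rfl (fun g _ => h1 g)
    _ = ((Nat.card C : E) * (Nat.card Q : E)) • 1 := by
        rw [Finset.sum_ite, Finset.sum_const, Finset.sum_const_zero, add_zero,
          ← Nat.cast_smul_eq_nsmul E, smul_smul]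
        congr 3
        rw [Nat.card_eq_fintype_card, Fintype.card_subtype]

end Cfsg.Agent.Lib.Helper46.FrobPQ
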