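import Mathlib
import Cfsg.Agent.Lib.Helper46.FrobPQ.Defs
import Cfsg.Agent.Lib.Helper46.FrobPQ.Proj
import Cfsg.Agent.Lib.Helper46.FrobPQ.Twist

/-!
# S4306 farm, piece [IM]   (file Cfsg/Agent/Lib/Helper46/FrobPQ/Impl.lean)

PAPER PROOF.
M := ∑_g ρ (τ g g⁻¹).  M ρ g = ρ (τ g) M (twist_comm).  M ≠ 0 by twist_avg (r := m).  ker M is ρ(Q)-invariant (M ρ g v = ρ(τ g) M v), so ker M = ⊥ by irr (not ⊤ as M ≠ 0).
M injective on a finite dimensional space ⇒ bijective; M' := inverse (`LinearEquiv.ofInjectiveEndo`, or `LinearMap.exists_leftInverse_of_injective` + `LinearMap.mul_eq_one_comm`).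
-/

set_option autoImplicit false
set_option linter.unusedSectionVars false
set_option linter.unusedVariables false

namespace Cfsg.Agent.Lib.Helper46.FrobPQ

open Subgroup
open scoped commutatorElement

universe u

variable {E : Type*} [Field E] [IsAlgClosed E] {V : Type*} [AddCommGroup V] [Module E V]
  [FiniteDimensional E V] {Q : Type*} [Group Q] [Finite Q]

theorem exists_impl [Nontrivial V] {ρ : Q →* Module.End E V} {R : Subgroup Q} (h : TL ρ R)
    (irr : ∀ W : Submodule E V, (∀ g, ∀ v ∈ W, ρ g v ∈ W) → W = ⊥ ∨ W = ⊤)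
    (τ : MulAut Q) (m : ℕ) (hm : 0 < m) (hτ : τ ^ m = 1) (hmQ : m.Coprime (Nat.card Q))
    (hτR : ∀ z ∈ R, ρ (τ z) = ρ z) :
    ∃ M M' : Module.End E V, M * M' = 1 ∧ M' * M = 1 ∧ ∀ g, M * ρ g = ρ (τ g) * M := by
  cases nonempty_fintype Q
  set M : Module.End E V := ∑ g : Q, ρ (τ g * g⁻¹) with hM
  have hcomm : ∀ g, M * ρ g = ρ (τ g) * M := twist_comm ρ τ
  have hM0 : M ≠ 0 := by
    intro h0
    obtain ⟨c, hc, hsum⟩ := twist_avg h τ m hm hτ hmQ hτR
    rw [← hM, h0] at hsum
    simp only [mul_zero, zero_mul, Finset.sum_const_zero] at hsum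
    rcases smul_eq_zero.1 hsum.symm with h1 | h1
    · exact hc h1
    · exact one_ne_zero h1
  have hker : LinearMap.ker M = ⊥ := by
    rcases irr (LinearMap.ker M) (by
      intro g v hv
      rw [LinearMap.mem_ker] at hv ⊢
      have := congrArg (fun T : Module.End E V => T v) (hcomm g)
      simp only [Module.End.mul_apply] at this
      rw [this, hv, map_zero]) with h1 | h1
    · exact h1
    · exact absurd (LinearMap.ker_eq_top.1 h1) hM0
  have hinj : Function.Injective M := LinearMap.ker_eq_bot.1 hker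
  set e := LinearEquiv.ofInjectiveEndo M hinj with he
  have he1 : ∀ v, e v = M v := fun v => rfl
  refine ⟨M, (e.symm : V →ₗ[E] V), ?_, ?_, hcomm⟩
  · ext v
    simp only [Module.End.mul_apply, LinearEquiv.coe_coe, Module.End.one_apply]
    rw [← he1, LinearEquiv.apply_symm_apply]
  · ext v
    simp only [Module.End.mul_apply, LinearEquiv.coe_coe, Module.End.one_apply]
    rw [← he1, LinearEquiv.symm_apply_apply]

end Cfsg.Agent.Lib.Helper46.FrobPQ
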