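import Mathlib
import Cfsg.Agent.Lib.Helper46.FrobPQ.Defs
import Cfsg.Agent.Lib.Helper46.FrobPQ.Proj
import Cfsg.Agent.Lib.Helper46.FrobPQ.IrrStruct
import Cfsg.Agent.Lib.Helper46.ESRep4

/-!
# S4306 farm, piece [OC]   (file Cfsg/Agent/Lib/Helper46/FrobPQ/OrbCount.lean)

Upper bound for the dimension of the centralizer of a twisting operator `x` by the number of orbits of
the induced permutation of `Q ⧸ R`.
-/

set_option autoImplicit false
set_option linter.unusedSectionVars false
set_option linter.unusedVariables false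

namespace Cfsg.Agent.Lib.Helper46.FrobPQ

open Subgroup
open scoped commutatorElement

universe u

/-- Orbit count for a nontrivial permutation of prime order. -/
theorem OC_card_orbits {B : Type*} [Finite B] (τ : Equiv.Perm B) (r : ℕ) (hr : r.Prime)
    (hτ : τ ^ r = 1) (hτ1 : τ ≠ 1) :
    Nat.card (Quotient (MulAction.orbitRel (Subgroup.zpowers τ) B)) * r
      = Nat.card B + (r - 1) * Nat.card {b : B // τ b = b} := by
  classical
  have := Fintype.ofFinite B
  have hord : orderOf τ = r := by
    have h1 := orderOf_dvd_of_pow_eq_one hτ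
    rcases (Nat.dvd_prime hr).1 h1 with h | h
    · exact absurd (orderOf_eq_one_iff.1 h) hτ1
    · exact h
  have hcard : Nat.card (Subgroup.zpowers τ) = r := by rw [Nat.card_zpowers, hord]
  have : Fact r.Prime := ⟨hr⟩
  have hB := MulAction.sum_card_fixedBy_eq_card_orbits_mul_card_group (Subgroup.zpowers τ) B
  have hfixed : ∀ g : Subgroup.zpowers τ, g ≠ 1 →
      Fintype.card (MulAction.fixedBy B g) = Fintype.card {b : B // τ b = b} := by
    intro g hg
    have htop : Subgroup.zpowers g = ⊤ := zpowers_eq_top_of_prime_card hcard hg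
    apply Fintype.card_congr
    apply Equiv.subtypeEquivRight
    intro b
    constructor
    · intro hb
      rw [MulAction.mem_fixedBy] at hb
      have h1 : g ∈ MulAction.stabilizer (Subgroup.zpowers τ) b :=
        MulAction.mem_stabilizer_iff.2 hb
      have h2 : Subgroup.zpowers g ≤ MulAction.stabilizer (Subgroup.zpowers τ) b :=
        Subgroup.zpowers_le.2 h1
      rw [htop] at h2
      have h3 : (⟨τ, Subgroup.mem_zpowers τ⟩ : Subgroup.zpowers τ) ∈
          MulAction.stabilizer (Subgroup.zpowers τ) b := h2 trivial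
      exact MulAction.mem_stabilizer_iff.1 h3
    · intro h0
      rw [MulAction.mem_fixedBy]
      have h1 : (⟨τ, Subgroup.mem_zpowers τ⟩ : Subgroup.zpowers τ) ∈
          MulAction.stabilizer (Subgroup.zpowers τ) b := by
        rw [MulAction.mem_stabilizer_iff]; exact h0
      have h2 : ∀ y : Subgroup.zpowers τ, y ∈ MulAction.stabilizer (Subgroup.zpowers τ) b := by
        rintro ⟨y, hy⟩
        obtain ⟨k, rfl⟩ := Subgroup.mem_zpowers_iff.1 hy
        have := Subgroup.zpow_mem _ h1 k
        convert this using 1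
        exact Subtype.ext (by simp)
      exact MulAction.mem_stabilizer_iff.1 (h2 g)
  have hone : Fintype.card (MulAction.fixedBy B (1 : Subgroup.zpowers τ)) = Fintype.card B := by
    apply Fintype.card_of_subtype
    intro b
    simp
  rw [← Finset.add_sum_erase _ _ (Finset.mem_univ (1 : Subgroup.zpowers τ)), hone,
    Finset.sum_congr rfl (fun g hg => hfixed g (Finset.ne_of_mem_erase hg))] at hB
  simp only [Finset.sum_const, smul_eq_mul, Finset.card_erase_of_mem (Finset.mem_univ _),
    Finset.card_univ] at hB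
  rw [Nat.card_eq_fintype_card, Nat.card_eq_fintype_card, Nat.card_eq_fintype_card]
  rw [Nat.card_eq_fintype_card] at hcard
  rw [hcard] at hB
  exact hB.symm

variable {E : Type*} [Field E] [IsAlgClosed E] {V : Type*} [AddCommGroup V] [Module E V]
  [FiniteDimensional E V] {Q : Type*} [Group Q] [Finite Q]

open Cfsg.Agent.Lib.Helper46.ESRep in
theorem finrank_cent_le [Nontrivial V] {ρ : Q →* Module.End E V} {R : Subgroup Q} (h : TL ρ R)
    (irr : ∀ W : Submodule E V, (∀ g, ∀ v ∈ W, ρ g v ∈ W) → W = ⊥ ∨ W = ⊤)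
    (x : Module.End E V) (σ : MulAut Q) {n : ℕ} (hn : n.Prime) (hx : x ^ n = 1) (hσ : σ ^ n = 1)
    (tw : ∀ g, x * ρ g = ρ (σ g) * x) (hnE : (n : E) ≠ 0)
    (C : Subgroup Q) (hC : ∀ g, g ∈ C ↔ σ g * g⁻¹ ∈ R) :
    ∃ o : ℕ, Module.finrank E (Cfsg.Agent.Lib.Helper46.ESRep.cent x) ≤ o ∧
      o * n = R.index + (n - 1) * R.relIndex C := by
  classical
  have := Fintype.ofFinite Q
  haveI hRn : R.Normal := h.normal
  obtain ⟨hspan, -, hdim⟩ := irr_struct h irr
  have hxx : x * x ^ (n - 1) = 1 := by
    rw [← pow_succ', Nat.sub_add_cancel hn.pos, hx]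
  have conj_x : ∀ s : Q, x * ρ s * x ^ (n - 1) = ρ (σ s) := by
    intro s
    rw [tw, mul_assoc, hxx, mul_one]
  -- `σ` stabilizes `R`
  have hσR : ∀ z ∈ R, σ z ∈ R := by
    intro z hz
    obtain ⟨a, ha⟩ := h.scal z hz
    apply mem_of_scalar h (a := a)
    rw [← conj_x, ha, mul_smul_comm, mul_one, smul_mul_assoc, hxx]
  have hσpow : ∀ k : ℕ, ∀ z ∈ R, (σ ^ k) z ∈ R := by
    intro k
    induction k with
    | zero => intro z hz; simpa using hz
    | succ k ih =>
      intro z hz
      rw [pow_succ', MulAut.mul_apply]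
      exact hσR _ (ih z hz)
  have hmap : R.map (σ : Q ≃* Q).toMonoidHom = R := by
    apply le_antisymm
    · rintro _ ⟨z, hz, rfl⟩
      exact hσR z hz
    · intro z hz
      refine ⟨(σ ^ (n - 1)) z, hσpow _ z hz, ?_⟩
      show σ ((σ ^ (n - 1)) z) = z
      rw [← MulAut.mul_apply, ← pow_succ', Nat.sub_add_cancel hn.pos, hσ]
      rfl
  let τe : Q ⧸ R ≃* Q ⧸ R := QuotientGroup.congr R R σ hmap
  let τ : Equiv.Perm (Q ⧸ R) := τe.toEquiv
  have tau_mk : ∀ g : Q, τ (QuotientGroup.mk g) = QuotientGroup.mk (σ g) := fun g => rfl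
  have tau_pow_mk : ∀ (k : ℕ) (g : Q), (τ ^ k) (QuotientGroup.mk g) = QuotientGroup.mk ((σ ^ k) g) := by
    intro k g
    induction k with
    | zero => simp
    | succ k ih =>
      rw [pow_succ', Equiv.Perm.mul_apply, ih, tau_mk, pow_succ', MulAut.mul_apply]
  have hτn : τ ^ n = 1 := by
    ext b
    obtain ⟨g, rfl⟩ := QuotientGroup.mk_surjective b
    rw [tau_pow_mk, hσ]; rfl
  -- fixed points
  have hfix_iff : ∀ g : Q, τ (QuotientGroup.mk g) = QuotientGroup.mk g ↔ g ∈ C := by
    intro g
    rw [tau_mk, hC, ← QuotientGroup.eq_one_iff, QuotientGroup.mk_mul, QuotientGroup.mk_inv,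
      mul_inv_eq_one]
  have hfixcard : Nat.card {b : Q ⧸ R // τ b = b} = R.relIndex C := by
    have h1 : R.relIndex C = Nat.card (C.map (QuotientGroup.mk' R)) := by
      rw [← relIndex_bot_left, ← relIndex_comap, MonoidHom.comap_bot, QuotientGroup.ker_mk']
    rw [h1]
    apply Nat.card_congr
    apply Equiv.subtypeEquivRight
    intro b
    obtain ⟨g, rfl⟩ := QuotientGroup.mk_surjective b
    rw [hfix_iff]
    constructor
    · intro hg
      exact ⟨g, hg, rfl⟩
    · rintro ⟨g', hg', hgg⟩
      rw [← hfix_iff]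
      have : (QuotientGroup.mk g' : Q ⧸ R) = QuotientGroup.mk g := hgg
      rw [← this, hfix_iff]
      exact hg'
  by_cases hτ1 : τ = 1
  · -- trivial action
    refine ⟨R.index, ?_, ?_⟩
    · have h1 : Module.finrank E (cent x) ≤ Module.finrank E (Module.End E V) :=
        Submodule.finrank_le _
      rw [Module.finrank_linearMap, ← sq, hdim] at h1
      exact h1
    · have hCtop : C = ⊤ := by
        rw [eq_top_iff]
        intro g _
        rw [← hfix_iff, hτ1]
        rfl
      rw [hCtop, relIndex_top_right]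
      obtain ⟨m, rfl⟩ : ∃ m, n = m + 1 := ⟨n - 1, (Nat.sub_add_cancel hn.pos).symm⟩
      simp only [Nat.add_sub_cancel]
      ring
  have hcount := OC_card_orbits τ n hn hτn hτ1
  rw [hfixcard] at hcount
  have avg_sigma_pow : ∀ (k : ℕ) (s : Q), avg x n (ρ ((σ ^ k) s)) = avg x n (ρ s) := by
    intro k s
    induction k with
    | zero => simp
    | succ k ih =>
      rw [pow_succ', MulAut.mul_apply, ← conj_x, avg_conj hx, ih]
  set Ω := Quotient (MulAction.orbitRel (Subgroup.zpowers τ) (Q ⧸ R)) with hΩ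
  let f : Ω → Module.End E V := fun ω => avg x n (ρ (ω.out).out)
  have hmem : ∀ g : Q, avg x n (ρ g) ∈ Submodule.span E (Set.range f) := by
    intro g
    let b : Q ⧸ R := QuotientGroup.mk g
    let ω : Ω := Quotient.mk _ b
    have h1 : (MulAction.orbitRel (Subgroup.zpowers τ) (Q ⧸ R)) ω.out b :=
      Quotient.exact (Quotient.out_eq ω)
    rw [MulAction.orbitRel_apply, MulAction.mem_orbit_iff] at h1
    obtain ⟨⟨α, hα⟩, hαb⟩ := h1
    have hα' : α ∈ Submonoid.powers τ :=
      (isOfFinOrder_of_finite τ).mem_powers_iff_mem_zpowers.2 hα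
    obtain ⟨k, rfl⟩ := Submonoid.mem_powers_iff _ _ |>.1 hα'
    have h2 : (τ ^ k) b = ω.out := hαb
    have h3 : (QuotientGroup.mk ((σ ^ k) g) : Q ⧸ R) = QuotientGroup.mk (ω.out).out := by
      rw [QuotientGroup.out_eq', ← h2, tau_pow_mk]
    have h4 := QuotientGroup.eq.1 h3
    have h5 : (ω.out).out = (σ ^ k) g * (((σ ^ k) g)⁻¹ * (ω.out).out) := by group
    obtain ⟨c, hc⟩ := h.scal _ h4
    have h6 : f ω = c • avg x n (ρ g) := by
      show avg x n (ρ (ω.out).out) = _
      rw [h5, map_mul, hc, mul_smul_comm, mul_one, map_smul, avg_sigma_pow]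
    have h7 : c ≠ 0 := by
      intro h0
      rw [h0, zero_smul] at hc
      exact IS.rho_ne_zero _ hc
    have h8 : avg x n (ρ g) = c⁻¹ • f ω := by
      rw [h6, smul_smul, inv_mul_cancel₀ h7, one_smul]
    rw [h8]
    exact Submodule.smul_mem _ _ (Submodule.subset_span ⟨ω, rfl⟩)
  have hle : cent x ≤ Submodule.span E (Set.range f) := by
    intro a ha
    have h1 : avg x n a = (n : E) • a := avg_of_mem_cent hxx ha
    have h2 : a = (n : E)⁻¹ • avg x n a := by rw [h1, smul_smul, inv_mul_cancel₀ hnE, one_smul]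
    rw [h2]
    apply Submodule.smul_mem
    have h3 : a ∈ Submodule.span E (Set.range ρ) := by rw [hspan]; trivial
    have h4 : avg x n a ∈ (Submodule.span E (Set.range ρ)).map (avg x n) :=
      Submodule.mem_map_of_mem h3
    rw [Submodule.map_span] at h4
    refine (Submodule.span_le.2 ?_) h4
    rintro _ ⟨_, ⟨g, rfl⟩, rfl⟩
    exact hmem g
  have h1 : Module.finrank E (cent x) ≤ Fintype.card Ω :=
    (Submodule.finrank_mono hle).trans (finrank_range_le_card f)
  rw [Nat.card_eq_fintype_card] at hcount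
  exact ⟨Fintype.card Ω, h1, by rw [hcount]; rfl⟩

end Cfsg.Agent.Lib.Helper46.FrobPQ
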