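import Mathlib
import Cfsg.Agent.Lib.Helper46.FrobPQ.Defs
import Cfsg.Agent.Lib.Helper46.FrobPQ.Proj
import Cfsg.Agent.Lib.Helper46.FrobPQ.IrrStruct
import Cfsg.Agent.Lib.Helper46.FrobPQ.OrbCount
import Cfsg.Agent.Lib.Helper46.FrobPQ.CentComm
import Cfsg.Agent.Lib.Helper46.FrobPQ.Impl
import Cfsg.Agent.Lib.Helper46.FrobPQ.CmCommute
import Cfsg.Agent.Lib.Helper46.ESRep6

/-!
# S4306 farm, piece [CMi]   (file Cfsg/Agent/Lib/Helper46/FrobPQ/CmIrr.lean)

PAPER PROOF.
d := finrank V, d² = R.index (irr_struct).  If R.index = 1 then R = ⊤: done.  Otherwise: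
σ R ⊆ R, τ R ⊆ R (mem_of_scalar).  finrank_cent_le with C := R (hC from hfpf and σ R ⊆ R; R.relIndex R = 1): c := finrank (cent x) ≤ o, o n = d² + (n-1).
ESRep.sq_finrank_le: d² ≤ (n-1) c.  ESRep.arith (import ...ESRep6) ⇒ R.index = (n-1)², so d = n-1, o n = (n-1) n, o = d, c ≤ d.
cent_comm ⇒ any two operators commuting with x commute.
exists_impl gives M (invertible) with M ρ g = ρ (τ g) M; cm_commute: x M = M x.
For g ∈ Q, a_g := ∑_{i<n} ρ (σ^i g) = ∑ x^i ρ g x^{-i} commutes with x.  So M a_g = a_g M, i.e. ∑_i ρ(τ σ^i g) = ∑_i ρ(σ^i g)   (*).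
Let g ∉ R.  The cosets σ^i g R (i < n) are pairwise distinct (σ^j g ≡ g mod R, 0<j<n ⇒ σ g ≡ g since σ̄ is a power of σ̄^j ⇒ g ∈ R by hfpf).  Apply y ↦ ∑_y ρ y (· ρ(τ g)⁻¹) ρ y⁻¹ (proj_sum) to (*), or use
linear independence of ρ(c.out): the left side has a nonzero component at the coset of τ g (only i = 0 contributes, as τ is injective mod R), so some σ^i g ≡ τ g mod R.
τ̄ σ̄ = σ̄ τ̄ on Q/R (hτσ + mem_of_scalar applied to τσg (στg)⁻¹, whose ρ is 1).  So τ^k g ≡ σ^{ki} g; k = m: σ^{mi} g ≡ g ⇒ n ∣ m i ⇒ n ∣ i ⇒ τ g ≡ g mod R.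
-/

set_option autoImplicit false
set_option linter.unusedSectionVars false
set_option linter.unusedVariables false

namespace Cfsg.Agent.Lib.Helper46.FrobPQ

open Subgroup
open scoped commutatorElement

universe u

variable {E : Type*} [Field E] [IsAlgClosed E] {V : Type*} [AddCommGroup V] [Module E V]
  [FiniteDimensional E V] {Q : Type*} [Group Q] [Finite Q]

theorem cm_irr [Nontrivial V] {ρ : Q →* Module.End E V} {R : Subgroup Q} (h : TL ρ R)
    (irr : ∀ W : Submodule E V, (∀ g, ∀ v ∈ W, ρ g v ∈ W) → W = ⊥ ∨ W = ⊤)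
    (x : Module.End E V) (σ : MulAut Q) {n : ℕ} (hn : n.Prime) (hx : x ^ n = 1) (hσ : σ ^ n = 1)
    (tw : ∀ g, x * ρ g = ρ (σ g) * x) (hnE : (n : E) ≠ 0) (hcop : n.Coprime (Nat.card Q))
    (hfix : ∀ v, x v = v → v = 0) (hfpf : ∀ g, σ g * g⁻¹ ∈ R → g ∈ R)
    (τ : MulAut Q) (m : ℕ) (hm : 0 < m) (hτ : τ ^ m = 1) (hmn : m.Coprime n)
    (hmQ : m.Coprime (Nat.card Q)) (hτR : ∀ z ∈ R, ρ (τ z) = ρ z)
    (hτσ : ∀ g, ρ (τ (σ g)) = ρ (σ (τ g))) : ∀ g, τ g * g⁻¹ ∈ R := by
  classical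
  have := Fintype.ofFinite Q
  obtain ⟨hspan, hli, hd⟩ := irr_struct h irr
  by_cases hR1 : R.index = 1
  · intro g
    rw [Subgroup.index_eq_one.1 hR1]
    trivial
  have hxinv : x * x ^ (n - 1) = 1 := by rw [← pow_succ', Nat.sub_add_cancel hn.pos, hx]
  have hσR : ∀ z ∈ R, σ z ∈ R := by
    intro z hz
    obtain ⟨a, ha⟩ := h.scal z hz
    apply mem_of_scalar h (a := a)
    have h1 : ρ (σ z) = ρ (σ z) * x * x ^ (n - 1) := by rw [mul_assoc, hxinv, mul_one]
    rw [h1, ← tw, ha, mul_smul_comm, mul_one, smul_mul_assoc, hxinv]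
  have hτR' : ∀ z ∈ R, τ z ∈ R := by
    intro z hz
    obtain ⟨a, ha⟩ := h.scal z hz
    exact mem_of_scalar h (a := a) (by rw [hτR z hz, ha])
  obtain ⟨o, ho1, ho2⟩ := finrank_cent_le h irr x σ hn hx hσ tw hnE R (by
    intro g
    constructor
    · intro hg
      exact R.mul_mem (hσR g hg) (R.inv_mem hg)
    · exact hfpf g)
  rw [Subgroup.relIndex_self, mul_one] at ho2
  have h1 := Cfsg.Agent.Lib.Helper46.ESRep.sq_finrank_le x n hn.pos hx hnE hfix
  have hI := Cfsg.Agent.Lib.Helper46.ESRep.arith hn (N := Module.finrank E V)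
    (by rw [← sq]; exact hd) hR1 Subgroup.index_ne_zero_of_finite h1 ho1 ho2
  have hdn : Module.finrank E V = n - 1 := by
    have h2 : (Module.finrank E V) ^ 2 = (n - 1) ^ 2 := hd.trans hI
    exact Nat.pow_left_injective (n := 2) (by norm_num) h2
  have hon : o = n - 1 := by
    have h2 : o * n = (n - 1) * n := by
      rw [ho2, hI]
      obtain ⟨k, rfl⟩ : ∃ k, n = k + 1 := ⟨n - 1, (Nat.sub_add_cancel hn.pos).symm⟩
      simp only [Nat.add_sub_cancel]
      ring
    exact Nat.eq_of_mul_eq_mul_right hn.pos h2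
  have hle : Module.finrank E (Cfsg.Agent.Lib.Helper46.ESRep.cent x) ≤ Module.finrank E V := by
    omega
  have hcomm := cent_comm x n hn.pos hx hnE hle
  obtain ⟨M, M', hMM', hM'M, hM⟩ := exists_impl h irr τ m hm hτ hmQ hτR
  have hxM := cm_commute h irr x σ hn.pos hx tw τ m hτ hmn hτσ M M' hMM' hM'M hM
  -- the quotient
  have : R.Normal := h.normal
  let sb : Monoid.End (Q ⧸ R) := QuotientGroup.map R R σ.toMonoidHom (fun z hz => hσR z hz)
  let tb : Monoid.End (Q ⧸ R) := QuotientGroup.map R R τ.toMonoidHom (fun z hz => hτR' z hz)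
  have sb_mk : ∀ g : Q, sb (g : Q ⧸ R) = ((σ g : Q) : Q ⧸ R) := fun g => rfl
  have tb_mk : ∀ g : Q, tb (g : Q ⧸ R) = ((τ g : Q) : Q ⧸ R) := fun g => rfl
  have mulap : ∀ (a b : Monoid.End (Q ⧸ R)) (c : Q ⧸ R), (a * b) c = a (b c) := fun _ _ _ => rfl
  have oneap : ∀ (c : Q ⧸ R), (1 : Monoid.End (Q ⧸ R)) c = c := fun _ => rfl
  have sb_pow : ∀ (i : ℕ) (g : Q), (sb ^ i) (g : Q ⧸ R) = (((σ ^ i) g : Q) : Q ⧸ R) := by
    intro i
    induction i with
    | zero => intro g; rw [pow_zero, pow_zero, oneap]; rfl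
    | succ i ih => intro g; rw [pow_succ', mulap, ih, sb_mk, pow_succ', MulAut.mul_apply]
  have tb_pow : ∀ (i : ℕ) (g : Q), (tb ^ i) (g : Q ⧸ R) = (((τ ^ i) g : Q) : Q ⧸ R) := by
    intro i
    induction i with
    | zero => intro g; rw [pow_zero, pow_zero, oneap]; rfl
    | succ i ih => intro g; rw [pow_succ', mulap, ih, tb_mk, pow_succ', MulAut.mul_apply]
  have sbn : sb ^ n = 1 := by
    ext c
    obtain ⟨g, rfl⟩ := QuotientGroup.mk_surjective c
    rw [sb_pow, hσ]; rfl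
  have tbm : tb ^ m = 1 := by
    ext c
    obtain ⟨g, rfl⟩ := QuotientGroup.mk_surjective c
    rw [tb_pow, hτ]; rfl
  have hst : Commute tb sb := by
    ext c
    obtain ⟨g, rfl⟩ := QuotientGroup.mk_surjective c
    rw [mulap, mulap, sb_mk, tb_mk, tb_mk, sb_mk]
    rw [QuotientGroup.eq_iff_div_mem, div_eq_mul_inv]
    apply mem_of_scalar h (a := 1)
    rw [map_mul, hτσ, ← map_mul, mul_inv_cancel, map_one, one_smul]
  have sfix : ∀ c : Q ⧸ R, sb c = c → c = 1 := by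
    intro c hc
    obtain ⟨g, rfl⟩ := QuotientGroup.mk_surjective c
    rw [sb_mk, QuotientGroup.eq_iff_div_mem, div_eq_mul_inv] at hc
    exact (QuotientGroup.eq_one_iff g).2 (hfpf g hc)
  have sfree : ∀ (j : ℕ) (c : Q ⧸ R), c ≠ 1 → (sb ^ j) c = c → n ∣ j := by
    intro j c hc hj
    by_contra hnj
    have hcop' : Nat.Coprime j n := ((Nat.Prime.coprime_iff_not_dvd hn).2 hnj).symm
    obtain ⟨u, -, hu⟩ := Nat.exists_mul_mod_eq_one_of_coprime hcop' hn.one_lt
    have h2 : ∀ k : ℕ, ((sb ^ j) ^ k) c = c := by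
      intro k
      induction k with
      | zero => rw [pow_zero, oneap]
      | succ k ih => rw [pow_succ, mulap, hj, ih]
    have h3 := h2 u
    rw [← pow_mul, pow_eq_pow_mod _ sbn, hu, pow_one] at h3
    exact hc (sfix c h3)
  -- the key relation
  have key : ∀ g : Q, g ∉ R → ∃ i : ℕ, (sb ^ i) (g : Q ⧸ R) = tb (g : Q ⧸ R) := by
    intro g hg
    let ag : Module.End E V := ∑ i ∈ Finset.range n, ρ ((σ ^ i) g)
    have hxa : x * ag = ag * x := by
      show x * (∑ i ∈ Finset.range n, ρ ((σ ^ i) g)) = (∑ i ∈ Finset.range n, ρ ((σ ^ i) g)) * x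
      rw [Finset.mul_sum, Finset.sum_mul]
      have h2 : ∀ i, x * ρ ((σ ^ i) g) = ρ ((σ ^ (i + 1)) g) * x := by
        intro i
        rw [tw, pow_succ', MulAut.mul_apply]
      rw [Finset.sum_congr rfl (fun i _ => h2 i)]
      have h3 := Finset.sum_range_succ (fun i => ρ ((σ ^ i) g) * x) n
      have h4 := Finset.sum_range_succ' (fun i => ρ ((σ ^ i) g) * x) n
      rw [h3] at h4
      have h5 : ρ ((σ ^ n) g) * x = ρ ((σ ^ 0) g) * x := by rw [hσ, pow_zero]
      rw [h5] at h4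
      exact (add_right_cancel h4).symm
    have hMa : M * ag = ag * M := hcomm M ag hxM hxa
    have hstar : ∑ i ∈ Finset.range n, ρ (τ ((σ ^ i) g)) = ∑ i ∈ Finset.range n, ρ ((σ ^ i) g) := by
      have h2 : M * ag = (∑ i ∈ Finset.range n, ρ (τ ((σ ^ i) g))) * M := by
        show M * (∑ i ∈ Finset.range n, ρ ((σ ^ i) g)) = _
        rw [Finset.mul_sum, Finset.sum_mul]
        exact Finset.sum_congr rfl (fun i _ => hM _)
      rw [hMa] at h2
      have h3 := congrArg (fun T => T * M') h2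
      simp only [mul_assoc, hMM', mul_one] at h3
      exact h3.symm
    by_contra hno
    push Not at hno
    -- apply the projection
    have hP : ∀ T : Finset ℕ, ∀ w : ℕ → Q,
        ∑ y : Q, ρ y * ((∑ i ∈ T, ρ (w i)) * ρ (τ g)⁻¹) * ρ y⁻¹
          = ∑ i ∈ T, ∑ y : Q, ρ y * ρ (w i * (τ g)⁻¹) * ρ y⁻¹ := by
      intro T w
      rw [Finset.sum_comm]
      refine Finset.sum_congr rfl (fun y _ => ?_)
      rw [Finset.sum_mul, Finset.mul_sum, Finset.sum_mul]
      refine Finset.sum_congr rfl (fun i _ => ?_)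
      rw [map_mul]
    have hL := hP (Finset.range n) (fun i => τ ((σ ^ i) g))
    have hRr := hP (Finset.range n) (fun i => (σ ^ i) g)
    rw [hstar, hRr] at hL
    have hR0 : ∑ i ∈ Finset.range n, ∑ y : Q, ρ y * ρ ((σ ^ i) g * (τ g)⁻¹) * ρ y⁻¹ = 0 := by
      refine Finset.sum_eq_zero (fun i _ => ?_)
      apply (proj_sum h _).2
      intro hmem
      apply hno i
      rw [sb_pow, tb_mk, QuotientGroup.eq_iff_div_mem, div_eq_mul_inv]
      exact hmem
    rw [hR0] at hL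
    have hτinj : ∀ w : Q, τ w ∈ R → w ∈ R := by
      intro w hw
      have h2 : ∀ k : ℕ, (τ ^ (k + 1)) w ∈ R := by
        intro k
        induction k with
        | zero => simpa using hw
        | succ k ih => rw [pow_succ', MulAut.mul_apply]; exact hτR' _ ih
      have h3 := h2 (m - 1)
      rw [Nat.sub_add_cancel hm, hτ] at h3
      exact h3
    have hL1 : ∑ i ∈ Finset.range n, ∑ y : Q, ρ y * ρ (τ ((σ ^ i) g) * (τ g)⁻¹) * ρ y⁻¹
        = (Fintype.card Q : E) • (1 : Module.End E V) := by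
      rw [Finset.sum_eq_single_of_mem 0 (Finset.mem_range.2 hn.pos)]
      · have h2 : τ ((σ ^ 0) g) * (τ g)⁻¹ = 1 := by simp
        rw [h2, (proj_sum h 1).1 R.one_mem, map_one]
      · intro i hi hi0
        apply (proj_sum h _).2
        intro hmem
        have h2 : τ ((σ ^ i) g * g⁻¹) ∈ R := by rw [map_mul, map_inv]; exact hmem
        have h3 := hτinj _ h2
        have h4 : (sb ^ i) (g : Q ⧸ R) = (g : Q ⧸ R) := by
          rw [sb_pow, QuotientGroup.eq_iff_div_mem, div_eq_mul_inv]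
          exact h3
        have h5 := sfree i _ (fun h0 => hg ((QuotientGroup.eq_one_iff g).1 h0)) h4
        exact hi0 (Nat.eq_zero_of_dvd_of_lt h5 (Finset.mem_range.1 hi))
    rw [hL1] at hL
    have hc := h.card
    rw [Nat.card_eq_fintype_card] at hc
    have h6 : (1 : Module.End E V) = 0 := by
      have := congrArg (fun T => (Fintype.card Q : E)⁻¹ • T) hL
      simpa [smul_smul, inv_mul_cancel₀ hc] using this.symm
    exact one_ne_zero h6
  intro g
  by_cases hg : g ∈ R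
  · exact R.mul_mem (hτR' g hg) (R.inv_mem hg)
  obtain ⟨i, hi⟩ := key g hg
  have hc1 : (g : Q ⧸ R) ≠ 1 := fun h0 => hg ((QuotientGroup.eq_one_iff g).1 h0)
  have h2 : ∀ k : ℕ, (tb ^ k) (g : Q ⧸ R) = (sb ^ (i * k)) (g : Q ⧸ R) := by
    intro k
    induction k with
    | zero => rw [pow_zero, Nat.mul_zero, pow_zero]
    | succ k ih =>
      rw [pow_succ, mulap, ← hi, ← mulap, ((hst.pow_pow k i).eq), mulap, ih, ← mulap, ← pow_add]
      congr 2
      ring
  have h3 := h2 m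
  rw [tbm, oneap] at h3
  have h4 := sfree _ _ hc1 h3.symm
  have h5 : n ∣ i := (Nat.Coprime.dvd_mul_right hmn.symm).1 h4
  obtain ⟨k, rfl⟩ := h5
  rw [pow_mul, sbn, one_pow, oneap, tb_mk, eq_comm, QuotientGroup.eq_iff_div_mem,
    div_eq_mul_inv] at hi
  exact hi

end Cfsg.Agent.Lib.Helper46.FrobPQ
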