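import Mathlib
import Cfsg.Agent.Lib.Helper46.FrobPQ.Defs
import Cfsg.Agent.Lib.Helper46.FrobPQ.Proj
import Cfsg.Agent.Lib.Helper46.FrobPQ.Twist

/-!
# S4306 farm, piece [IR]   (file Cfsg/Agent/Lib/Helper46/FrobPQ/ExIrr.lean)

PAPER PROOF.
Take W ≠ ⊥ of minimal finrank among subspaces invariant under ρ(Q) and x.  Y := ∑_g ρ (σ g g⁻¹) (Fintype.ofFinite).  x is invertible (x^r = 1).
hσR: for z ∈ R, ρ z = a • 1 and x ρ z = ρ(σ z) x give ρ (σ z) = a • 1 = ρ z.
x Y = Y x (x ρ(σ g g⁻¹) = ρ(σ(σ g) (σ g)⁻¹) x, reindex by σ; cf. ESRep2.x_Y), Y ρ g = ρ (σ g) Y (twist_comm).  So Zop := x^(r-1) * Y commutes with ρ(Q) and x, and it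
preserves W (Y is a sum of ρ's).  Zop restricted to W has an eigenvalue c; the eigenspace in W is invariant under Q and x, so it is W: Y v = c • x v on W.
c ≠ 0: otherwise Y = 0 on W, so ∑_y ρ y Y ρ y⁻¹ = 0 on W, contradicting twist_avg (W ≠ ⊥).
So x v = c⁻¹ • Y v on W; every ρ(Q)-invariant W' ≤ W is Y-invariant, hence x-invariant, hence ⊥ or W by minimality.
-/

set_option autoImplicit false
set_option linter.unusedSectionVars false
set_option linter.unusedVariables false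

namespace Cfsg.Agent.Lib.Helper46.FrobPQ

open Subgroup
open scoped commutatorElement

universe u

variable {E : Type*} [Field E] [IsAlgClosed E] {V : Type*} [AddCommGroup V] [Module E V]
  [FiniteDimensional E V] {Q : Type*} [Group Q] [Finite Q]

theorem exists_irr [Nontrivial V] {ρ : Q →* Module.End E V} {R : Subgroup Q} (h : TL ρ R)
    (x : Module.End E V) (σ : MulAut Q) (r : ℕ) (hr : 0 < r) (hx : x ^ r = 1) (hσ : σ ^ r = 1)
    (tw : ∀ g, x * ρ g = ρ (σ g) * x) (hcop : r.Coprime (Nat.card Q)) :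
    ∃ W : Submodule E V, W ≠ ⊥ ∧ (∀ g, ∀ v ∈ W, ρ g v ∈ W) ∧ (∀ v ∈ W, x v ∈ W) ∧
      ∀ W' : Submodule E V, W' ≤ W → (∀ g, ∀ v ∈ W', ρ g v ∈ W') → W' = ⊥ ∨ W' = W := by
  classical
  cases nonempty_fintype Q
  obtain ⟨W, ⟨hWne, hWQ, hWx⟩, hmin⟩ := (wellFounded_lt (α := Submodule E V)).has_min
    {W | W ≠ ⊥ ∧ (∀ g, ∀ v ∈ W, ρ g v ∈ W) ∧ (∀ v ∈ W, x v ∈ W)}
    ⟨⊤, top_ne_bot, fun _ _ _ => Submodule.mem_top, fun _ _ => Submodule.mem_top⟩
  have hmin' : ∀ W' : Submodule E V, W' ≤ W → W' ≠ ⊥ → (∀ g, ∀ v ∈ W', ρ g v ∈ W') →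
      (∀ v ∈ W', x v ∈ W') → W' = W := by
    intro W' hle hne h1 h2
    by_contra hcon
    exact hmin W' ⟨hne, h1, h2⟩ (lt_of_le_of_ne hle hcon)
  set x' := x ^ (r - 1) with hx'
  have hxx' : x * x' = 1 := by rw [hx', ← pow_succ', Nat.sub_add_cancel hr, hx]
  have hx'x : x' * x = 1 := by rw [hx', ← pow_succ, Nat.sub_add_cancel hr, hx]
  set Y : Module.End E V := ∑ g : Q, ρ (σ g * g⁻¹) with hY
  have hσR : ∀ z ∈ R, ρ (σ z) = ρ z := by
    intro z hz
    obtain ⟨a, ha⟩ := h.scal z hz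
    have h1 := tw z
    have h2 : ρ (σ z) = ρ (σ z) * x * x' := by rw [mul_assoc, hxx', mul_one]
    rw [h2, ← h1, ha, mul_smul_comm, mul_one, smul_mul_assoc, hxx']
  have hYQ : ∀ g, Y * ρ g = ρ (σ g) * Y := twist_comm ρ σ
  have hxY : x * Y = Y * x := by
    rw [hY, Finset.mul_sum, Finset.sum_mul,
      ← Equiv.sum_comp σ.toEquiv (fun g => ρ (σ g * g⁻¹) * x)]
    refine Finset.sum_congr rfl (fun g _ => ?_)
    rw [tw]
    simp
  have hx'Q : ∀ g, x' * ρ (σ g) = ρ g * x' := by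
    intro g
    calc x' * ρ (σ g) = x' * (ρ (σ g) * x) * x' := by
          rw [mul_assoc, mul_assoc, hxx', mul_one]
      _ = x' * (x * ρ g) * x' := by rw [tw]
      _ = ρ g * x' := by rw [← mul_assoc, hx'x, one_mul]
  set Z := x' * Y with hZ
  have hZQ : ∀ g, Z * ρ g = ρ g * Z := by
    intro g
    rw [hZ, mul_assoc, hYQ, ← mul_assoc, hx'Q, mul_assoc]
  have hx'x_comm : x' * x = x * x' := by rw [hx'x, hxx']
  have hZx : Z * x = x * Z := by
    rw [hZ, mul_assoc, ← hxY, ← mul_assoc, hx'x_comm, mul_assoc]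
  have hWY : ∀ W' : Submodule E V, (∀ g, ∀ v ∈ W', ρ g v ∈ W') → ∀ v ∈ W', Y v ∈ W' := by
    intro W' h1 v hv
    rw [hY, LinearMap.sum_apply]
    exact Submodule.sum_mem _ (fun g _ => h1 _ v hv)
  have hWpow : ∀ n : ℕ, ∀ v ∈ W, (x ^ n) v ∈ W := by
    intro n
    induction n with
    | zero => intro v hv; simpa using hv
    | succ n ih =>
      intro v hv
      rw [pow_succ', Module.End.mul_apply]
      exact hWx _ (ih v hv)
  have hWx' : ∀ v ∈ W, x' v ∈ W := hWpow (r - 1)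
  have hWZ : ∀ v ∈ W, Z v ∈ W := fun v hv => hWx' _ (hWY W hWQ v hv)
  have hnt : Nontrivial W := Submodule.nontrivial_iff_ne_bot.2 hWne
  obtain ⟨c, hc⟩ := Module.End.exists_eigenvalue (Z.restrict hWZ)
  obtain ⟨w, hw⟩ := hc.exists_hasEigenvector
  have hw1 : Z (w : V) = c • (w : V) := by
    have := hw.apply_eq_smul
    exact congrArg Subtype.val this
  have hw0 : (w : V) ≠ 0 := fun h0 => hw.2 (Subtype.ext h0)
  set W1 : Submodule E V := W ⊓ Module.End.eigenspace Z c with hW1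
  have hW1eq : W1 = W := by
    apply hmin' W1 inf_le_left
    · intro hb
      have : (w : V) ∈ W1 := ⟨w.2, Module.End.mem_eigenspace_iff.2 hw1⟩
      rw [hb] at this
      exact hw0 ((Submodule.mem_bot _).1 this)
    · intro g v hv
      refine ⟨hWQ g v hv.1, Module.End.mem_eigenspace_iff.2 ?_⟩
      have h1 := Module.End.mem_eigenspace_iff.1 hv.2
      have h2 := congrArg (fun T : Module.End E V => T v) (hZQ g)
      simp only [Module.End.mul_apply] at h2
      rw [h2, h1, map_smul]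
    · intro v hv
      refine ⟨hWx v hv.1, Module.End.mem_eigenspace_iff.2 ?_⟩
      have h1 := Module.End.mem_eigenspace_iff.1 hv.2
      have h2 := congrArg (fun T : Module.End E V => T v) hZx
      simp only [Module.End.mul_apply] at h2
      rw [h2, h1, map_smul]
  have hZc : ∀ v ∈ W, Z v = c • v := by
    intro v hv
    have : v ∈ W1 := hW1eq ▸ hv
    exact Module.End.mem_eigenspace_iff.1 this.2
  have hYc : ∀ v ∈ W, Y v = c • x v := by
    intro v hv
    have h1 := hZc v hv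
    have h2 : Y v = x (Z v) := by
      rw [hZ, ← Module.End.mul_apply, ← mul_assoc, hxx', one_mul]
    rw [h2, h1, map_smul]
  have hc0 : c ≠ 0 := by
    intro hc00
    obtain ⟨c', hc', hsum⟩ := twist_avg h σ r hr hσ hcop hσR
    have h1 := congrArg (fun T : Module.End E V => T (w : V)) hsum
    simp only [LinearMap.sum_apply, Module.End.mul_apply, LinearMap.smul_apply,
      Module.End.one_apply] at h1
    have h2 : ∀ y : Q, ρ y (Y (ρ y⁻¹ (w : V))) = 0 := by
      intro y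
      rw [hYc _ (hWQ _ _ w.2), hc00, zero_smul, map_zero]
    have h3 : ∑ y : Q, ρ y (Y (ρ y⁻¹ (w : V))) = 0 :=
      Finset.sum_eq_zero (fun y _ => h2 y)
    have h4 : c' • (w : V) = 0 := by
      rw [← h1, ← h3, hY]
      simp only [LinearMap.sum_apply]
    rcases smul_eq_zero.1 h4 with h5 | h5
    · exact hc' h5
    · exact hw0 h5
  refine ⟨W, hWne, hWQ, hWx, ?_⟩
  intro W' hle hQ'
  by_cases hb : W' = ⊥
  · exact Or.inl hb
  right
  apply hmin' W' hle hb hQ'
  intro v hv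
  have h1 := hYc v (hle hv)
  have h2 : x v = c⁻¹ • Y v := by rw [h1, smul_smul, inv_mul_cancel₀ hc0, one_smul]
  rw [h2]
  exact Submodule.smul_mem _ _ (hWY W' hQ' v hv)

end Cfsg.Agent.Lib.Helper46.FrobPQ
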