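import Mathlib
import Cfsg.Agent.Lib.Helper46.FrobPQ.Defs
import Cfsg.Agent.Lib.Helper46.FrobPQ.Proj
import Cfsg.Agent.Lib.Helper46.FrobPQ.ExIrr
import Cfsg.Agent.Lib.Helper46.FrobPQ.CmIrr

/-!
# S4306 farm, piece [CMt]   (file Cfsg/Agent/Lib/Helper46/FrobPQ/CmT.lean)

PAPER PROOF.
exists_irr (r := n) gives W ≠ ⊥, invariant under ρ(Q) and x, ρ(Q)-irreducible.  Apply cm_irr on ↥W to ρ' = resRep ρ W, x' = x.restrict (TL.res; all hypotheses restrict: equalities of
operators restrict to W; irreducibility: transport submodules of ↥W to submodules of V below W by Submodule.map W.subtype).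
-/

set_option autoImplicit false
set_option linter.unusedSectionVars false
set_option linter.unusedVariables false

namespace Cfsg.Agent.Lib.Helper46.FrobPQ

open Subgroup
open scoped commutatorElement

universe u

variable {E : Type*} [Field E] [IsAlgClosed E] {V : Type*} [AddCommGroup V] [Module E V]
  [FiniteDimensional E V] {Q : Type*} [Group Q] [Finite Q]

theorem cm_t [Nontrivial V] {ρ : Q →* Module.End E V} {R : Subgroup Q} (h : TL ρ R)
    (x : Module.End E V) (σ : MulAut Q) {n : ℕ} (hn : n.Prime) (hx : x ^ n = 1) (hσ : σ ^ n = 1)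
    (tw : ∀ g, x * ρ g = ρ (σ g) * x) (hnE : (n : E) ≠ 0) (hcop : n.Coprime (Nat.card Q))
    (hfix : ∀ v, x v = v → v = 0) (hfpf : ∀ g, σ g * g⁻¹ ∈ R → g ∈ R)
    (τ : MulAut Q) (m : ℕ) (hm : 0 < m) (hτ : τ ^ m = 1) (hmn : m.Coprime n)
    (hmQ : m.Coprime (Nat.card Q)) (hτR : ∀ z ∈ R, ρ (τ z) = ρ z)
    (hτσ : ∀ g, ρ (τ (σ g)) = ρ (σ (τ g))) : ∀ g, τ g * g⁻¹ ∈ R := by
  obtain ⟨W, hne, hW, hxW, hirr⟩ := exists_irr h x σ n hn.pos hx hσ tw hcop
  have hnt : Nontrivial W := Submodule.nontrivial_iff_ne_bot.2 hne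
  have h' : TL (resRep ρ W hW) R := h.res W hW hne
  have hres : ∀ (g : Q) (v : W), ((resRep ρ W hW g v : W) : V) = ρ g v := fun g v => rfl
  have hxr : ∀ v : W, ((x.restrict hxW v : W) : V) = x v := fun v => rfl
  refine cm_irr (V := W) h' ?_ (x.restrict hxW) σ hn ?_ hσ ?_ hnE hcop ?_ hfpf τ m hm hτ hmn hmQ
    ?_ ?_
  · intro W' hW'
    have h1 : W'.map W.subtype ≤ W := by
      rintro _ ⟨v, -, rfl⟩
      exact v.2
    have h2 : ∀ g, ∀ v ∈ W'.map W.subtype, ρ g v ∈ W'.map W.subtype := by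
      rintro g _ ⟨v, hv, rfl⟩
      exact ⟨resRep ρ W hW g v, hW' g v hv, rfl⟩
    rcases hirr _ h1 h2 with h3 | h3
    · left
      rw [eq_bot_iff]
      intro v hv
      have : (v : V) ∈ W'.map W.subtype := ⟨v, hv, rfl⟩
      rw [h3, Submodule.mem_bot] at this
      rw [Submodule.mem_bot]
      exact Subtype.ext this
    · right
      rw [eq_top_iff]
      intro v _
      have : (v : V) ∈ W'.map W.subtype := by rw [h3]; exact v.2
      obtain ⟨w, hw, hwv⟩ := this
      have : w = v := Subtype.ext hwv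
      rwa [← this]
  · rw [Module.End.pow_restrict]
    ext v
    rw [LinearMap.restrict_apply]
    simp [hx]
  · intro g
    ext v
    have := LinearMap.congr_fun (tw g) (v : V)
    exact this
  · intro v hv
    have h1 : x (v : V) = v := congrArg Subtype.val hv
    exact Subtype.ext (hfix _ h1)
  · intro z hz
    ext v
    have := LinearMap.congr_fun (hτR z hz) (v : V)
    exact this
  · intro g
    ext v
    have := LinearMap.congr_fun (hτσ g) (v : V)
    exact this

end Cfsg.Agent.Lib.Helper46.FrobPQ
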