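import Mathlib
import Cfsg.Agent.Lib.Helper46.FrobPQ.Defs
import Cfsg.Agent.Lib.Helper46.FrobPQ.Proj
import Cfsg.Agent.Lib.Helper46.FrobPQ.IrrStruct
import Cfsg.Agent.Lib.Helper46.FrobPQ.ExIrr
import Cfsg.Agent.Lib.Helper46.FrobPQ.OrbCount
import Cfsg.Agent.Lib.Helper46.ESRep5

/-!
# S4306 farm, piece [KIt]   (file Cfsg/Agent/Lib/Helper46/FrobPQ/KiT.lean)

PAPER PROOF.
exists_irr (r = n) gives W ≠ ⊥ invariant under ρ(Q), x, and ρ(Q)-irreducible.  Work on ↥W with ρ' = resRep ρ W, x' = x.restrict: TL ρ' R (TL.res), x'^n = 1, tw, no fixed vectors.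
d := finrank W.  irr_struct: d^2 = R.index.  ESRep.sq_finrank_le (import Cfsg.Agent.Lib.Helper46.ESRep5): d^2 ≤ (n-1) * finrank (cent x').
finrank_cent_le: finrank (cent x') ≤ o, o * n = R.index + (n-1) * R.relIndex C.
So n d² ≤ (n-1)(d² + (n-1) |C:R|), d² ≤ (n-1)² |C:R|; R ≤ C, R.index = R.relIndex C * C.index (`Subgroup.relIndex_mul_index`), R.relIndex C > 0 ⇒ C.index ≤ (n-1)².
-/

set_option autoImplicit false
set_option linter.unusedSectionVars false
set_option linter.unusedVariables false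

namespace Cfsg.Agent.Lib.Helper46.FrobPQ

open Subgroup
open scoped commutatorElement

universe u

variable {E : Type*} [Field E] [IsAlgClosed E] {V : Type*} [AddCommGroup V] [Module E V]
  [FiniteDimensional E V] {Q : Type*} [Group Q] [Finite Q]

theorem KIt_sigma_mem {ρ : Q →* Module.End E V} {R : Subgroup Q} (h : TL ρ R)
    (x : Module.End E V) (σ : MulAut Q) {n : ℕ} (hn : 0 < n) (hx : x ^ n = 1)
    (tw : ∀ g, x * ρ g = ρ (σ g) * x) {z : Q} (hz : z ∈ R) : σ z ∈ R := by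
  have hxx' : x * x ^ (n - 1) = 1 := by rw [← pow_succ', Nat.sub_add_cancel hn, hx]
  obtain ⟨a, ha⟩ := h.scal z hz
  have h1 := tw z
  have h2 : ρ (σ z) = ρ (σ z) * x * x ^ (n - 1) := by rw [mul_assoc, hxx', mul_one]
  have h3 : ρ (σ z) = a • 1 := by
    rw [h2, ← h1, ha, mul_smul_comm, mul_one, smul_mul_assoc, hxx']
  exact mem_of_scalar h h3

theorem KIt_arith {I F o c J m : ℕ} (h1 : I ≤ m * F) (h2 : F ≤ o) (h3 : o * (m + 1) = I + m * c)
    (h4 : I = c * J) (hc : 0 < c) : J ≤ m ^ 2 := by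
  have a1 : I * (m + 1) ≤ m * (I + m * c) := by
    calc I * (m + 1) ≤ (m * F) * (m + 1) := Nat.mul_le_mul_right _ h1
      _ ≤ (m * o) * (m + 1) := Nat.mul_le_mul_right _ (Nat.mul_le_mul_left _ h2)
      _ = m * (o * (m + 1)) := by ring
      _ = m * (I + m * c) := by rw [h3]
  have a2 : I * m + I ≤ I * m + c * m ^ 2 := by
    calc I * m + I = I * (m + 1) := by ring
      _ ≤ m * (I + m * c) := a1
      _ = I * m + c * m ^ 2 := by ring
  have a3 : I ≤ c * m ^ 2 := Nat.le_of_add_le_add_left a2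
  rw [h4] at a3
  exact Nat.le_of_mul_le_mul_left a3 hc

theorem ki_t [Nontrivial V] {ρ : Q →* Module.End E V} {R : Subgroup Q} (h : TL ρ R)
    (x : Module.End E V) (σ : MulAut Q) {n : ℕ} (hn : n.Prime) (hx : x ^ n = 1) (hσ : σ ^ n = 1)
    (tw : ∀ g, x * ρ g = ρ (σ g) * x) (hnE : (n : E) ≠ 0) (hcop : n.Coprime (Nat.card Q))
    (hfix : ∀ v, x v = v → v = 0)
    (C : Subgroup Q) (hC : ∀ g, g ∈ C ↔ σ g * g⁻¹ ∈ R) : C.index ≤ (n - 1) ^ 2 := by
  obtain ⟨W, hWne, hWQ, hWx, hWirr⟩ := exists_irr h x σ n hn.pos hx hσ tw hcop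
  have hnt : Nontrivial W := Submodule.nontrivial_iff_ne_bot.2 hWne
  set ρ' := resRep ρ W hWQ with hρ'
  set x' : Module.End E W := x.restrict hWx with hx'def
  have hTL : TL ρ' R := h.res W hWQ hWne
  have hpow : ∀ (k : ℕ) (v : W), (((x' ^ k) v : W) : V) = (x ^ k) (v : V) := by
    intro k
    induction k with
    | zero => intro v; simp
    | succ k ih =>
      intro v
      rw [pow_succ', pow_succ', Module.End.mul_apply, Module.End.mul_apply, ← ih v]
      rfl
  have hx' : x' ^ n = 1 := by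
    ext v
    rw [hpow, hx]
    rfl
  have tw' : ∀ g, x' * ρ' g = ρ' (σ g) * x' := by
    intro g
    ext v
    have := congrArg (fun T : Module.End E V => T (v : V)) (tw g)
    exact this
  have hfix' : ∀ v : W, x' v = v → v = 0 := by
    intro v hv
    apply Subtype.ext
    exact hfix v (congrArg Subtype.val hv)
  have irr' : ∀ W' : Submodule E W, (∀ g, ∀ v ∈ W', ρ' g v ∈ W') → W' = ⊥ ∨ W' = ⊤ := by
    intro W' hW'
    have hinj := Submodule.map_injective_of_injective W.injective_subtype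
    rcases hWirr (W'.map W.subtype) (Submodule.map_subtype_le _ _) (by
      rintro g _ ⟨v, hv, rfl⟩
      exact ⟨ρ' g v, hW' g v hv, rfl⟩) with h1 | h1
    · left
      apply hinj
      rw [h1, Submodule.map_bot]
    · right
      apply hinj
      rw [h1, Submodule.map_subtype_top]
  have e1 := (irr_struct hTL irr').2.2
  have e2 := Cfsg.Agent.Lib.Helper46.ESRep.sq_finrank_le x' n hn.pos hx' hnE hfix'
  obtain ⟨o, e3, e4⟩ := finrank_cent_le hTL irr' x' σ hn hx' hσ tw' hnE C hC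
  have hRC : R ≤ C := by
    intro z hz
    rw [hC]
    exact R.mul_mem (KIt_sigma_mem h x σ hn.pos hx tw hz) (R.inv_mem hz)
  have e5 : R.index = R.relIndex C * C.index := (Subgroup.relIndex_mul_index hRC).symm
  have e6 : 0 < R.relIndex C := Nat.pos_of_ne_zero Subgroup.index_ne_zero_of_finite
  rw [e1] at e2
  have hn1 : n = (n - 1) + 1 := (Nat.sub_add_cancel hn.pos).symm
  refine KIt_arith e2 e3 ?_ e5 e6
  rw [← hn1]
  exact e4

end Cfsg.Agent.Lib.Helper46.FrobPQ
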