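import Mathlib
import Cfsg.Agent.Lib.Helper46.FrobPQ.Defs
import Cfsg.Agent.Lib.Helper46.FrobPQ.Proj
import Cfsg.Agent.Lib.Helper46.FrobPQ.IrrStruct
import Cfsg.Agent.Lib.Helper46.FrobPQ.ExIrr

/-!
# S4306 farm, piece [SQt]   (file Cfsg/Agent/Lib/Helper46/FrobPQ/SqT.lean)

PAPER PROOF.
exists_irr with x = 1, σ = 1, r = 1 gives a ρ(Q)-irreducible W ≠ ⊥.  ρ' := resRep ρ W _, TL ρ' R (TL.res), irreducible on ↥W (pull back/push forward
submodules along W.subtype: `Submodule.map W.subtype W''`).  irr_struct ⇒ (finrank W)^2 = R.index.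
-/

set_option autoImplicit false
set_option linter.unusedSectionVars false
set_option linter.unusedVariables false

namespace Cfsg.Agent.Lib.Helper46.FrobPQ

open Subgroup
open scoped commutatorElement

universe u

variable {E : Type*} [Field E] [IsAlgClosed E] {V : Type*} [AddCommGroup V] [Module E V]
  [FiniteDimensional E V] {Q : Type*} [Group Q] [Finite Q]

theorem sq_t [Nontrivial V] {ρ : Q →* Module.End E V} {R : Subgroup Q} (h : TL ρ R) :
    ∃ d : ℕ, R.index = d ^ 2 := by
  obtain ⟨W, hne, hW, -, hmin⟩ := exists_irr h 1 1 1 one_pos (by simp) (by simp)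
    (by intro g; simp) (by simp)
  have : Nontrivial W := Submodule.nontrivial_iff_ne_bot.2 hne
  have h' := h.res W hW hne
  obtain ⟨-, -, h3⟩ := irr_struct h' (by
    intro W'' hinv
    have := hmin (W''.map W.subtype) (Submodule.map_subtype_le W W'') (by
      rintro g _ ⟨v, hv, rfl⟩
      exact ⟨resRep ρ W hW g v, hinv g v hv, rfl⟩)
    rcases this with h1 | h1
    · left
      exact Submodule.map_injective_of_injective (f := W.subtype) W.injective_subtype
        (by rw [h1, Submodule.map_bot])
    · right
      exact Submodule.map_injective_of_injective (f := W.subtype) W.injective_subtype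
        (by rw [h1, Submodule.map_subtype_top]))
  exact ⟨_, h3.symm⟩

end Cfsg.Agent.Lib.Helper46.FrobPQ
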