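import Mathlib
import Cfsg.Agent.Lib.Helper46.FrobPQ.Defs
import Cfsg.Agent.Lib.Helper46.FrobPQ.SqT
import Cfsg.Agent.Lib.Helper46.FrobPQ.KiT
import Cfsg.Agent.Lib.Helper46.FrobPQ.CmT

/-!
# S4306 farm, piece [BRG]   (file Cfsg/Agent/Lib/Helper46/FrobPQ/Bridge.lean)

PAPER PROOF.
Bridge ambient → type level.  Q' := ↥Q (resp ↥P), V := ↥X (Nontrivial since X ≠ ⊥), ρ' g := (ρ g).restrict, R' := R.subgroupOf Q.  TL ρ' R' is a restatement of SympCfg.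
`Subgroup.relIndex R Q = (R.subgroupOf Q).index` by definition.
* sq_a = sq_t.
* ki_a: x := (ρ b).restrict bX, σ := conjugation by b on ↥Q (MulEquiv with inverse conjugation by b⁻¹), σ^k g = b^k g b^{-k}; C' := C.subgroupOf Q; σ g * g⁻¹ = ⁅b, g⁆.  ki_t.
* cm_a: moreover τ := conjugation by x.  hτR: for z ∈ R, ρ z = a on X and X is invariant under ρ x and ρ x⁻¹ = ρ (x^(m-1)), so ρ (x z x⁻¹) = a on X.
  hτσ: x b g b⁻¹ x⁻¹ = ⁅x,b⁆ (b x g x⁻¹ b⁻¹) ⁅x,b⁆⁻¹ and hypothesis xb.  τ g * g⁻¹ = ⁅x, g⁆.  cm_t.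
-/

set_option autoImplicit false
set_option linter.unusedSectionVars false
set_option linter.unusedVariables false

namespace Cfsg.Agent.Lib.Helper46.FrobPQ

open Subgroup
open scoped commutatorElement

universe u

variable {E : Type*} [Field E] {U : Type*} [AddCommGroup U] [Module E U]
  {Γ : Type*} [Group Γ] [Finite Γ]

/-- the restriction of `ρ` to the subgroup `Q` and the `Q`-invariant subspace `X` -/
def brgRep (ρ : Γ →* Module.End E U) (X : Submodule E U) (Q : Subgroup Γ)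
    (hinv : ∀ g ∈ Q, ∀ v ∈ X, ρ g v ∈ X) : Q →* Module.End E X where
  toFun g := (ρ g.1).restrict (hinv g.1 g.2)
  map_one' := by
    ext v
    simp [LinearMap.restrict_apply]
  map_mul' a b := by
    ext v
    simp [LinearMap.restrict_apply]

theorem brgRep_apply (ρ : Γ →* Module.End E U) (X : Submodule E U) (Q : Subgroup Γ)
    (hinv : ∀ g ∈ Q, ∀ v ∈ X, ρ g v ∈ X) (g : Q) (v : X) :
    ((brgRep ρ X Q hinv g v : X) : U) = ρ g.1 v := rfl

theorem brg_TL {ρ : Γ →* Module.End E U} {X : Submodule E U} {Q R : Subgroup Γ}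
    (hC : SympCfg ρ X Q R) : TL (brgRep ρ X Q hC.inv) (R.subgroupOf Q) where
  scal := by
    intro z hz
    obtain ⟨a, ha⟩ := hC.scal z.1 (mem_subgroupOf.1 hz)
    refine ⟨a, ?_⟩
    ext v
    rw [brgRep_apply, ha v.1 v.2]
    rfl
  comm := by
    intro g y
    rw [mem_subgroupOf]
    exact hC.comm g.1 g.2 y.1 y.2
  nd := by
    intro g hg
    obtain ⟨y, hy, v, hv, hne⟩ := hC.nd g.1 g.2 (fun h => hg (mem_subgroupOf.2 h))
    refine ⟨⟨y, hy⟩, ?_⟩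
    intro h1
    apply hne
    have := LinearMap.congr_fun h1 (⟨v, hv⟩ : X)
    exact congrArg Subtype.val this
  card := hC.card

/-- conjugation on `Q` by the elements of its normalizer -/
def brgConj (Q : Subgroup Γ) : ↥(normalizer (Q : Set Γ)) →* MulAut Q where
  toFun b :=
    { toFun := fun g => ⟨b.1 * g.1 * b.1⁻¹, (mem_normalizer_iff.1 b.2 g.1).1 g.2⟩
      invFun := fun g => ⟨b.1⁻¹ * g.1 * b.1, by
        have := (mem_normalizer_iff.1 (inv_mem b.2) g.1).1 g.2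
        simpa using this⟩
      left_inv := by intro g; ext; simp [mul_assoc]
      right_inv := by intro g; ext; simp [mul_assoc]
      map_mul' := by intro g y; ext; simp [mul_assoc] }
  map_one' := by ext; simp
  map_mul' a b := by ext; simp [mul_assoc]

theorem brgConj_apply (Q : Subgroup Γ) (b : ↥(normalizer (Q : Set Γ))) (g : Q) :
    ((brgConj Q b g : Q) : Γ) = b.1 * g.1 * b.1⁻¹ := rfl

theorem brgConj_pow (Q : Subgroup Γ) (b : Γ) (bQ : b ∈ normalizer (Q : Set Γ)) {n : ℕ}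
    (bn : b ^ n = 1) : (brgConj Q ⟨b, bQ⟩) ^ n = 1 := by
  rw [← map_pow]
  have : (⟨b, bQ⟩ : ↥(normalizer (Q : Set Γ))) ^ n = 1 := Subtype.ext (by simpa using bn)
  rw [this, map_one]

theorem brg_restrict_pow (ρ : Γ →* Module.End E U) (X : Submodule E U) (b : Γ)
    (bX : ∀ v ∈ X, ρ b v ∈ X) {n : ℕ} (bn : b ^ n = 1) : ((ρ b).restrict bX) ^ n = 1 := by
  rw [Module.End.pow_restrict]
  ext v
  rw [LinearMap.restrict_apply]
  simp [← map_pow, bn]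

theorem brg_tw (ρ : Γ →* Module.End E U) (X : Submodule E U) (Q : Subgroup Γ)
    (hinv : ∀ g ∈ Q, ∀ v ∈ X, ρ g v ∈ X) (b : Γ) (bQ : b ∈ normalizer (Q : Set Γ))
    (bX : ∀ v ∈ X, ρ b v ∈ X) (g : Q) :
    (ρ b).restrict bX * brgRep ρ X Q hinv g =
      brgRep ρ X Q hinv (brgConj Q ⟨b, bQ⟩ g) * (ρ b).restrict bX := by
  ext v
  change ρ b (ρ g.1 v) = ρ (b * g.1 * b⁻¹) (ρ b v)
  rw [← Module.End.mul_apply, ← Module.End.mul_apply, ← map_mul, ← map_mul]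
  congr 2
  group

theorem sq_a [IsAlgClosed E] [FiniteDimensional E U] {ρ : Γ →* Module.End E U}
    {X : Submodule E U} {P R : Subgroup Γ} (hC : SympCfg ρ X P R) :
    ∃ d : ℕ, R.relIndex P = d ^ 2 := by
  have hnt : Nontrivial X := Submodule.nontrivial_iff_ne_bot.2 hC.ne
  exact sq_t (V := X) (brg_TL hC)

theorem ki_a [IsAlgClosed E] [FiniteDimensional E U] {ρ : Γ →* Module.End E U}
    {X : Submodule E U} {Q R : Subgroup Γ} (hC : SympCfg ρ X Q R)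
    (b : Γ) {n : ℕ} (hn : n.Prime) (bn : b ^ n = 1) (bQ : b ∈ normalizer (Q : Set Γ))
    (bX : ∀ v ∈ X, ρ b v ∈ X) (nE : (n : E) ≠ 0) (hcop : n.Coprime (Nat.card Q))
    (bfix : ∀ v ∈ X, ρ b v = v → v = 0)
    (C : Subgroup Γ) (hCdef : ∀ g, g ∈ C ↔ g ∈ Q ∧ ⁅b, g⁆ ∈ R) :
    C.relIndex Q ≤ (n - 1) ^ 2 := by
  have hnt : Nontrivial X := Submodule.nontrivial_iff_ne_bot.2 hC.ne
  refine ki_t (V := X) (brg_TL hC) ((ρ b).restrict bX) (brgConj Q ⟨b, bQ⟩) hn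
    (brg_restrict_pow ρ X b bX bn) (brgConj_pow Q b bQ bn) (brg_tw ρ X Q hC.inv b bQ bX) nE hcop
    ?_ (C.subgroupOf Q) ?_
  · intro v hv
    have h1 : ρ b (v : U) = v := congrArg Subtype.val hv
    exact Subtype.ext (bfix _ v.2 h1)
  · intro g
    rw [mem_subgroupOf, mem_subgroupOf, hCdef]
    have : ((brgConj Q ⟨b, bQ⟩ g * g⁻¹ : Q) : Γ) = ⁅b, g.1⁆ := by
      rw [commutatorElement_def]; rfl
    rw [this]
    exact ⟨fun h => h.2, fun h => ⟨g.2, h⟩⟩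

theorem cm_a [IsAlgClosed E] [FiniteDimensional E U] {ρ : Γ →* Module.End E U}
    {X : Submodule E U} {Q R : Subgroup Γ} (hC : SympCfg ρ X Q R)
    (b : Γ) {n : ℕ} (hn : n.Prime) (bn : b ^ n = 1) (bQ : b ∈ normalizer (Q : Set Γ))
    (bX : ∀ v ∈ X, ρ b v ∈ X) (nE : (n : E) ≠ 0) (hcop : n.Coprime (Nat.card Q))
    (bfix : ∀ v ∈ X, ρ b v = v → v = 0) (bfpf : ∀ g ∈ Q, ⁅b, g⁆ ∈ R → g ∈ R)
    (x : Γ) (xQ : x ∈ normalizer (Q : Set Γ)) (xX : ∀ v ∈ X, ρ x v ∈ X)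
    (m : ℕ) (hm : 0 < m) (xm : x ^ m = 1) (hmn : m.Coprime n) (hmQ : m.Coprime (Nat.card Q))
    (xb : ∀ g ∈ Q, ∀ v ∈ X, ρ (⁅x, b⁆ * g * ⁅x, b⁆⁻¹) v = ρ g v) :
    ∀ g ∈ Q, ⁅x, g⁆ ∈ R := by
  have hnt : Nontrivial X := Submodule.nontrivial_iff_ne_bot.2 hC.ne
  have hcomm : ∀ (c : Γ) (cQ : c ∈ normalizer (Q : Set Γ)) (g : Q),
      ((brgConj Q ⟨c, cQ⟩ g * g⁻¹ : Q) : Γ) = ⁅c, g.1⁆ := by
    intro c cQ g
    rw [commutatorElement_def]; rfl
  -- `X` is invariant under `ρ x⁻¹`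
  have xiX : ∀ v ∈ X, ρ x⁻¹ v ∈ X := by
    have hxi : x⁻¹ = x ^ (m - 1) := by
      rw [inv_eq_iff_mul_eq_one, ← pow_succ', Nat.sub_add_cancel hm, xm]
    have hp : ∀ k : ℕ, ∀ v ∈ X, ρ (x ^ k) v ∈ X := by
      intro k
      induction k with
      | zero => intro v hv; simpa using hv
      | succ k ih =>
        intro v hv
        rw [pow_succ', map_mul, Module.End.mul_apply]
        exact xX _ (ih v hv)
    rw [hxi]
    exact hp _
  have key := cm_t (V := X) (brg_TL hC) ((ρ b).restrict bX) (brgConj Q ⟨b, bQ⟩) hn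
    (brg_restrict_pow ρ X b bX bn) (brgConj_pow Q b bQ bn) (brg_tw ρ X Q hC.inv b bQ bX) nE hcop
    ?_ ?_ (brgConj Q ⟨x, xQ⟩) m hm (brgConj_pow Q x xQ xm) hmn hmQ ?_ ?_
  · intro g hg
    have := key ⟨g, hg⟩
    rw [mem_subgroupOf, hcomm] at this
    exact this
  · intro v hv
    have h1 : ρ b (v : U) = v := congrArg Subtype.val hv
    exact Subtype.ext (bfix _ v.2 h1)
  · intro g hg
    rw [mem_subgroupOf, hcomm] at hg
    rw [mem_subgroupOf]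
    exact bfpf g.1 g.2 hg
  · intro z hz
    obtain ⟨a, ha⟩ := hC.scal z.1 (mem_subgroupOf.1 hz)
    ext v
    change ρ (x * z.1 * x⁻¹) (v : U) = ρ z.1 v
    rw [map_mul, map_mul, Module.End.mul_apply, Module.End.mul_apply, ha _ (xiX v.1 v.2), map_smul,
      ← Module.End.mul_apply, ← map_mul, mul_inv_cancel, map_one, Module.End.one_apply, ha v.1 v.2]
  · intro g
    ext v
    change ρ (x * (b * g.1 * b⁻¹) * x⁻¹) (v : U) = ρ (b * (x * g.1 * x⁻¹) * b⁻¹) v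
    have hg1 : b * (x * g.1 * x⁻¹) * b⁻¹ ∈ Q :=
      (brgConj Q ⟨b, bQ⟩ (brgConj Q ⟨x, xQ⟩ g)).2
    rw [← xb _ hg1 v.1 v.2]
    congr 2
    rw [commutatorElement_def]
    group

end Cfsg.Agent.Lib.Helper46.FrobPQ
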