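import Mathlib
import Cfsg.Agent.Lib.Helper46.FrobPQ.Defs
import Cfsg.Agent.Lib.Helper46.ESBridge

/-!
# S4306 farm, piece [BR]   (file Cfsg/Agent/Lib/Helper46/FrobPQ/ExRep.lean)

PAPER PROOF.
ADAPT my Cfsg/Agent/Lib/Helper46/ESBridge.lean (`exists_rep_of_action`, `exists_rep`).  M := Additive ↥V is a finite ZMod r-module (AddCommGroup.zmodModule), choose a basis Fin n; this gives an injective RING hom
Φ : End_{F_r}(M) ≃ Matrix (Fin n) (Fin n) (ZMod r) → Matrix … E ≃ End_E (Fin n → E)  (LinearMap.toMatrix, Matrix.map / RingHom.mapMatrix (algebraMap), Matrix.toLin').  ρ := Φ ∘ (conjugation action Γ →* End M) (V normal).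
ρ g = 1 ↔ conjugation by g is trivial on V ↔ g ∈ centralizer V.
Fixed vectors: e := ∑_{a : A} conj_a ∈ End M has image in the A-fixed points of V, which are trivial, so e = 0, so ∑_a ρ a = Φ e = 0.  If ρ a v = v for all a ∈ A then 0 = (card A : E) • v and (card A : E) ≠ 0 (CharP E r, coprime).
-/

set_option autoImplicit false
set_option linter.unusedSectionVars false
set_option linter.unusedVariables false

namespace Cfsg.Agent.Lib.Helper46.FrobPQ

open Subgroup
open scoped commutatorElement

universe u

theorem exRep_ringHom {r : ℕ} [Fact r.Prime] (M : Type*) [AddCommGroup M] [Finite M]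
    [Module (ZMod r) M] :
    ∃ (n : ℕ) (R : Module.End (ZMod r) M →+* Module.End (AlgebraicClosure (ZMod r))
      (Fin n → AlgebraicClosure (ZMod r))), Function.Injective R := by
  classical
  let b := Module.finBasis (ZMod r) M
  let R : Module.End (ZMod r) M →+* Module.End (AlgebraicClosure (ZMod r))
      (Fin (Module.finrank (ZMod r) M) → (AlgebraicClosure (ZMod r))) :=
    ((Matrix.toLinAlgEquiv' : Matrix (Fin (Module.finrank (ZMod r) M))
        (Fin (Module.finrank (ZMod r) M))
        (AlgebraicClosure (ZMod r)) ≃ₐ[AlgebraicClosure (ZMod r)] _).toRingEquiv.toRingHom).comp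
      ((algebraMap (ZMod r) (AlgebraicClosure (ZMod r))).mapMatrix.comp
        (LinearMap.toMatrixAlgEquiv b).toRingEquiv.toRingHom)
  refine ⟨_, R, ?_⟩
  intro f g hfg
  have h1 : (algebraMap (ZMod r) (AlgebraicClosure (ZMod r))).mapMatrix
        (LinearMap.toMatrixAlgEquiv b f)
      = (algebraMap (ZMod r) (AlgebraicClosure (ZMod r))).mapMatrix
        (LinearMap.toMatrixAlgEquiv b g) :=
    (Matrix.toLinAlgEquiv' : Matrix (Fin (Module.finrank (ZMod r) M))
      (Fin (Module.finrank (ZMod r) M))
      (AlgebraicClosure (ZMod r)) ≃ₐ[AlgebraicClosure (ZMod r)] _).injective hfg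
  have h2 : LinearMap.toMatrixAlgEquiv b f = LinearMap.toMatrixAlgEquiv b g :=
    Matrix.map_injective (algebraMap (ZMod r) (AlgebraicClosure (ZMod r))).injective h1
  exact (LinearMap.toMatrixAlgEquiv b).injective h2

theorem exRep_of_action {r : ℕ} [Fact r.Prime] {N M : Type*} [Group N] [Finite N]
    [AddCommGroup M] [Finite M] [Module (ZMod r) M] (act₀ : N →* AddMonoid.End M) :
    ∃ (n : ℕ) (Φ : N →*
        Module.End (AlgebraicClosure (ZMod r)) (Fin n → AlgebraicClosure (ZMod r))),
      (∀ g, Φ g = 1 ↔ act₀ g = 1) ∧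
      (∀ A : Subgroup N, (Nat.card A).Coprime r → (∀ m, (∀ a ∈ A, act₀ a m = m) → m = 0) →
        ∀ v, (∀ a ∈ A, Φ a v = v) → v = 0) := by
  classical
  let act : N →* Module.End (ZMod r) M :=
    { toFun := fun g => AddMonoidHom.toZModLinearMap r (act₀ g)
      map_one' := by
        refine LinearMap.ext (fun a => ?_)
        rw [map_one]; rfl
      map_mul' := by
        intro g h
        refine LinearMap.ext (fun a => ?_)
        rw [map_mul]; rfl }
  have hact : ∀ g (a : M), act g a = act₀ g a := fun _ _ => rfl
  obtain ⟨n, R, hR⟩ := exRep_ringHom (r := r) M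
  refine ⟨n, (R : _ →* _).comp act, ?_, ?_⟩
  · intro g
    have h0 : ((R : _ →* _).comp act) g = R (act g) := rfl
    rw [h0]
    constructor
    · intro hg
      have h3 : act g = 1 := by
        apply hR
        rw [map_one]
        exact hg
      ext a
      rw [← hact, h3]; rfl
    · intro hg
      have h3 : act g = 1 := by
        refine LinearMap.ext (fun a => ?_)
        rw [hact, hg]; rfl
      rw [h3, map_one]
  · intro A hcop hfix v hv
    have hfA : Fintype A := Fintype.ofFinite _
    have he : (∑ a : A, act a.1) = 0 := by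
      refine LinearMap.ext (fun m => ?_)
      rw [LinearMap.zero_apply]
      apply hfix
      intro b hb
      rw [← hact, LinearMap.sum_apply, map_sum]
      have : ∀ a : A, act b (act a.1 m) = act ((⟨b, hb⟩ : A) * a).1 m := by
        intro a
        rw [Subgroup.coe_mul, map_mul]; rfl
      simp_rw [this]
      exact (Equiv.sum_comp (Equiv.mulLeft (⟨b, hb⟩ : A)) (fun a : A => act a.1 m))
    have h1 : (∑ a : A, R (act a.1)) = 0 := by
      rw [← map_sum, he, map_zero]
    have h2 := LinearMap.congr_fun h1 v
    rw [LinearMap.sum_apply, LinearMap.zero_apply] at h2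
    have h3 : ∀ a : A, R (act a.1) v = v := fun a => hv a.1 a.2
    simp_rw [h3] at h2
    rw [Finset.sum_const, Finset.card_univ, ← Nat.card_eq_fintype_card,
      ← Nat.cast_smul_eq_nsmul (AlgebraicClosure (ZMod r))] at h2
    rcases smul_eq_zero.1 h2 with h4 | h4
    · exfalso
      rw [CharP.cast_eq_zero_iff (AlgebraicClosure (ZMod r)) r] at h4
      have h5 : r ∣ 1 := by
        have := Nat.dvd_gcd h4 (dvd_refl r)
        rwa [hcop] at this
      exact (Fact.out : r.Prime).one_lt.ne' (Nat.dvd_one.1 h5)
    · exact h4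

/-- conjugation on a normal subgroup -/
def exRepConj {Γ : Type*} [Group Γ] (V : Subgroup Γ) [hn : V.Normal] (g : Γ) : V →* V where
  toFun v := ⟨g * v * g⁻¹, hn.conj_mem v v.2 g⟩
  map_one' := by ext; simp
  map_mul' a b := by ext; simp

theorem exRepConj_apply {Γ : Type*} [Group Γ] (V : Subgroup Γ) [V.Normal] (g : Γ) (v : V) :
    ((exRepConj V g v : V) : Γ) = g * v * g⁻¹ := rfl

theorem exists_rep {Γ : Type u} [Group Γ] [Finite Γ] {r : ℕ} [Fact r.Prime] (V : Subgroup Γ)
    [V.Normal] (hVc : ∀ a ∈ V, ∀ b ∈ V, a * b = b * a) (hVr : ∀ a ∈ V, a ^ r = 1) :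
    ∃ (n : ℕ) (ρ : Γ →* Module.End (AlgebraicClosure (ZMod r))
        (Fin n → AlgebraicClosure (ZMod r))),
      (∀ g, ρ g = 1 ↔ g ∈ centralizer (V : Set Γ)) ∧
      ∀ A : Subgroup Γ, (Nat.card A).Coprime r → V ⊓ centralizer (A : Set Γ) = ⊥ →
        ∀ v, (∀ a ∈ A, ρ a v = v) → v = 0 := by
  classical
  let _ : CommGroup V :=
    { (inferInstance : Group V) with
      mul_comm := fun a b => Subtype.ext (hVc a.1 a.2 b.1 b.2) }
  let _ : Module (ZMod r) (Additive V) := AddCommGroup.zmodModule (n := r) (by
    intro a
    have h1 : (Additive.toMul a) ^ r = 1 := Subtype.ext (by simpa using hVr _ (Additive.toMul a).2)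
    exact congrArg Additive.ofMul h1)
  let act₀ : Γ →* AddMonoid.End (Additive V) :=
    { toFun := fun g => MonoidHom.toAdditive (exRepConj V g)
      map_one' := by
        refine AddMonoidHom.ext (fun a => ?_)
        have : exRepConj V 1 (Additive.toMul a) = Additive.toMul a := by
          ext; simp [exRepConj_apply]
        rw [MonoidHom.toAdditive_apply_apply, this]; rfl
      map_mul' := by
        intro g h
        refine AddMonoidHom.ext (fun a => ?_)
        have : exRepConj V (g * h) (Additive.toMul a)
            = exRepConj V g (exRepConj V h (Additive.toMul a)) := by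
          ext; simp [exRepConj_apply, mul_assoc]
        rw [MonoidHom.toAdditive_apply_apply, this]; rfl }
  have hact : ∀ g (a : Additive V), act₀ g a = Additive.ofMul (exRepConj V g (Additive.toMul a)) :=
    fun _ _ => rfl
  obtain ⟨n, Φ, h1, h2⟩ := exRep_of_action (r := r) act₀
  refine ⟨n, Φ, ?_, ?_⟩
  · intro g
    rw [h1]
    constructor
    · intro h3
      rw [Subgroup.mem_centralizer_iff]
      intro v hv
      have h4 := congrArg (fun f : AddMonoid.End (Additive V) => f (Additive.ofMul (⟨v, hv⟩ : V))) h3
      simp only [AddMonoid.End.coe_one, id] at h4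
      rw [hact] at h4
      have h5 : ((exRepConj V g ⟨v, hv⟩ : V) : Γ) = v :=
        congrArg (fun a : Additive V => ((Additive.toMul a : V) : Γ)) h4
      rw [exRepConj_apply] at h5
      calc v * g = (g * v * g⁻¹) * g := by rw [h5]
        _ = g * v := by group
    · intro hg
      refine AddMonoidHom.ext (fun a => ?_)
      have : exRepConj V g (Additive.toMul a) = Additive.toMul a := by
        ext
        rw [exRepConj_apply]
        have := Subgroup.mem_centralizer_iff.1 hg _ (Additive.toMul a).2
        rw [← this]; group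
      exact (hact g a).trans (congrArg Additive.ofMul this)
  · intro A hcop hfix
    apply h2 A hcop
    intro w hinv
    have hmem : ((Additive.toMul w : V) : Γ) ∈ V ⊓ centralizer (A : Set Γ) := by
      refine ⟨(Additive.toMul w).2, ?_⟩
      change ((Additive.toMul w : V) : Γ) ∈ centralizer (A : Set Γ)
      rw [Subgroup.mem_centralizer_iff]
      intro b hb
      have h3 := hinv b hb
      rw [hact] at h3
      have h5 : ((exRepConj V b (Additive.toMul w) : V) : Γ) = (Additive.toMul w : V) :=
        congrArg (fun a : Additive V => ((Additive.toMul a : V) : Γ)) h3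
      rw [exRepConj_apply] at h5
      calc b * ((Additive.toMul w : V) : Γ)
          = (b * ((Additive.toMul w : V) : Γ) * b⁻¹) * b := by group
        _ = ((Additive.toMul w : V) : Γ) * b := by rw [h5]
    rw [hfix, Subgroup.mem_bot] at hmem
    have h5 : Additive.toMul w = 1 := Subtype.ext hmem
    exact congrArg Additive.ofMul h5

end Cfsg.Agent.Lib.Helper46.FrobPQ
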