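import Mathlib
import Cfsg.Agent.Lib.Helper46.FrobPQ.Defs
import Cfsg.Agent.Lib.Helper46.FrobPQ.Rel
import Cfsg.Agent.S0022

/-!
# S4306 farm, piece [MAP]   (file Cfsg/Agent/Lib/Helper46/FrobPQ/HypMap.lean)

PAPER PROOF.
rel: fq, hp, nF map.  nc: if π h π f = π f π h then w := h f h⁻¹ f⁻¹ ∈ ker π ≤ G; w ∈ zpowers f, w ≠ 1, so orderOf w = q divides card G: contradiction with cop.
normal: Subgroup.Normal.map hπ.  sup: map_sup, MonoidHom.map_closure, Set.image_pair, map_top_of_surjective.  sol: G.map π is a quotient of G.  cop: card (G.map π) ∣ card G (`Subgroup.card_map_dvd`).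
fix: x̄ = π x, x ∈ G, commuting with π f, π h.  The set {a | a x a⁻¹ x⁻¹ ∈ ker π} = {a | π a commutes with π x} is a subgroup containing f, h, so contains A := closure {f,h}.  Cfsg.Agent.S0022.result A G (A ≤ normalizer G as G normal) (card A = p q, Rel.card_closure) (Or.inr sol) (ker π) … x gives
c ∈ G ⊓ centralizer A with x⁻¹ c ∈ ker π; c = 1 by H.fix; so π x = 1.
-/

set_option autoImplicit false
set_option linter.unusedSectionVars false
set_option linter.unusedVariables false

namespace Cfsg.Agent.Lib.Helper46.FrobPQ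

open Subgroup
open scoped commutatorElement

universe u

theorem Hyp.map {Γ Γ' : Type*} [Group Γ] [Finite Γ] [Group Γ'] {p q : ℕ} {G : Subgroup Γ}
    {f h : Γ} (H : Hyp p q G f h) (π : Γ →* Γ') (hπ : Function.Surjective π)
    (hker : π.ker ≤ G) : Hyp p q (G.map π) (π f) (π h) := by
  have r := H.rel
  have hGn : G.Normal := H.normal
  refine ⟨⟨r.pP, r.qP, r.ne, ?_, ?_, ?_, ?_⟩, ?_, ?_, ?_, ?_, ?_⟩
  · rw [← map_pow, r.fq, map_one]
  · rw [← map_pow, r.hp, map_one]
  · obtain ⟨k, hk⟩ := r.nF
    refine ⟨k, ?_⟩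
    have hk' : f ^ k = h * f * h⁻¹ := hk
    change π f ^ k = _
    rw [← map_zpow, hk']
    simp
  · intro hc
    have hwker : h * f * h⁻¹ * f⁻¹ ∈ π.ker := by
      rw [MonoidHom.mem_ker]
      simp only [map_mul, map_inv, hc]
      group
    have hwF : h * f * h⁻¹ * f⁻¹ ∈ zpowers f := mul_mem r.nF (inv_mem (mem_zpowers f))
    have hw1 : h * f * h⁻¹ * f⁻¹ ≠ 1 := by
      intro h1
      apply r.nc
      have : h * f = (h * f * h⁻¹ * f⁻¹) * (f * h) := by group
      rw [this, h1, one_mul]
    have hord : orderOf (h * f * h⁻¹ * f⁻¹) = q := by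
      have := r.zpowers_f_eq hwF hw1
      rw [← Nat.card_zpowers, this, Nat.card_zpowers, r.orderOf_f]
    have hdvd : q ∣ Nat.card G := by
      rw [← hord]
      have : orderOf (⟨h * f * h⁻¹ * f⁻¹, hker hwker⟩ : G) ∣ Nat.card G := orderOf_dvd_natCard _
      rwa [Subgroup.orderOf_mk] at this
    have h3 := Nat.dvd_gcd hdvd (Dvd.intro_left p rfl)
    rw [Nat.Coprime.gcd_eq_one H.cop] at h3
    exact r.qP.one_lt.ne' (Nat.dvd_one.1 h3)
  · exact Subgroup.Normal.map H.normal π hπ
  · have := congrArg (Subgroup.map π) H.sup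
    rwa [Subgroup.map_sup, MonoidHom.map_closure, Set.image_pair,
      Subgroup.map_top_of_surjective π hπ] at this
  · have := H.sol
    exact Group.isSolvable_of_surjective (MonoidHom.subgroupMap_surjective π G)
  · exact Nat.Coprime.coprime_dvd_left (Subgroup.card_map_dvd G π) H.cop
  · rintro _ ⟨x, hx, rfl⟩ h1 h2
    have hA : closure {f, h} ≤ (centralizer {π x}).comap π := by
      rw [closure_le]
      rintro a (rfl | rfl)
      · simp only [coe_comap, Set.mem_preimage, SetLike.mem_coe, mem_centralizer_singleton_iff]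
        exact h1
      · simp only [coe_comap, Set.mem_preimage, SetLike.mem_coe, mem_centralizer_singleton_iff]
        exact h2
    have hfix : ∀ a ∈ closure {f, h}, a * x * a⁻¹ * x⁻¹ ∈ π.ker := by
      intro a ha
      have h3 := hA ha
      simp only [mem_comap, mem_centralizer_singleton_iff] at h3
      rw [MonoidHom.mem_ker]
      simp only [map_mul, map_inv, h3]
      group
    obtain ⟨c, hc, hc'⟩ := Cfsg.Agent.S0022.result (closure {f, h}) G
      (by rw [normalizer_eq_top]; exact le_top)
      (by rw [r.card_closure]; exact H.cop.symm) (Or.inr H.sol) π.ker hker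
      (by rw [normalizer_eq_top]; exact le_top) (by rw [normalizer_eq_top]; exact le_top)
      x hx hfix
    have hc1 : c = 1 := by
      have h4 := mem_centralizer_iff.1 hc.2
      exact H.fix c hc.1 (h4 f (subset_closure (by simp))) (h4 h (subset_closure (by simp)))
    rw [hc1, mul_one, MonoidHom.mem_ker, map_inv, inv_eq_one] at hc'
    exact hc'

end Cfsg.Agent.Lib.Helper46.FrobPQ
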