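import Mathlib
import Cfsg.Agent.Lib.Helper46.FrobPQ.Defs
import Cfsg.Agent.Lib.Helper46.FrobPQ.Sec
import Cfsg.Agent.Lib.Helper88.CoprimeAbelian

/-!
# S4306 farm, piece [KF]   (file Cfsg/Agent/Lib/Helper46/FrobPQ/KF.lean)
-/

set_option autoImplicit false
set_option linter.unusedSectionVars false
set_option linter.unusedVariables false

namespace Cfsg.Agent.Lib.Helper46.FrobPQ

open Subgroup
open scoped commutatorElement

universe u

variable {E : Type*} [Field E] {U : Type*} [AddCommGroup U] [Module E U]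
  {Γ : Type*} [Group Γ] [Finite Γ]

/-- abstract version: a fixed point of `β` in `[M, ⟨β⟩]` is trivial (coprime action). -/
theorem KF_abs {M : Type*} [Group M] [Finite M] (hM : ∀ a c : M, a * c = c * a) (β : MulAut M)
    {n : ℕ} (hn : 0 < n) (hβ : β ^ n = 1) (cop : n.Coprime (Nat.card M)) (x : M) (hfix : β x = x)
    (hx : x ∈ closure {y : M | ∃ α ∈ zpowers β, ∃ z : M, y = z⁻¹ * α z}) : x = 1 := by
  letI : CommGroup M := { (inferInstance : Group M) with mul_comm := hM }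
  have hcard : (Nat.card (zpowers β)).Coprime (Nat.card M) := by
    rw [Nat.card_zpowers]
    exact Nat.Coprime.coprime_dvd_left (orderOf_dvd_of_pow_eq_one hβ) cop
  have h1 := Helper88.fixedSub_inf_commSub (zpowers β) hcard
  have h2 : x ∈ Helper88.fixedSub (zpowers β) := by
    intro α hα
    have h3 : zpowers β ≤ MulAction.stabilizer (MulAut M) x := by
      rw [zpowers_le]
      exact hfix
    exact h3 hα
  have h4 : x ∈ Helper88.fixedSub (zpowers β) ⊓ Helper88.commSub (zpowers β) := ⟨h2, hx⟩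
  rw [h1] at h4
  exact h4

theorem kf (S S₀ : Subgroup Γ) (b : Γ) {n : ℕ} (hn : 0 < n) (bn : b ^ n = 1) (h0 : S₀ ≤ S)
    (hab : ⁅S, S⁆ ≤ S₀) (bS : b ∈ normalizer (S : Set Γ)) (bS₀ : b ∈ normalizer (S₀ : Set Γ))
    (cop : n.Coprime (Nat.card S)) : ∀ k ∈ ⁅S, zpowers b⁆, ⁅b, k⁆ ∈ S₀ → k ∈ S₀ := by
  intro k hk hbk
  have hSN : S ≤ normalizer (S₀ : Set Γ) := by
    intro g hg
    refine mem_normalizer_iff.2 fun y => ⟨fun hy => ?_, fun hy => ?_⟩
    · have h1 : g * y * g⁻¹ = ⁅g, y⁆ * y := by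
        rw [commutatorElement_def]
        group
      rw [h1]
      exact mul_mem (hab (commutator_mem_commutator hg (h0 hy))) hy
    · have h1 : y = ⁅g⁻¹, g * y * g⁻¹⁆ * (g * y * g⁻¹) := by
        rw [commutatorElement_def]
        group
      rw [h1]
      exact mul_mem (hab (commutator_mem_commutator (inv_mem hg) (h0 hy))) hy
  haveI hN : (S₀.subgroupOf S).Normal := sec_normal S S₀ hSN
  have hbN : b ∈ normalizer (S : Set Γ) ⊓ normalizer (S₀ : Set Γ) := mem_inf.2 ⟨bS, bS₀⟩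
  obtain ⟨b', hb'⟩ : ∃ b' : ↥(normalizer (S : Set Γ) ⊓ normalizer (S₀ : Set Γ)), b' = ⟨b, hbN⟩ :=
    ⟨_, rfl⟩
  have hb'c : (b' : Γ) = b := by rw [hb']
  have hcomm : ∀ a c : ↥S ⧸ S₀.subgroupOf S, a * c = c * a :=
    sec_comm S S₀ (fun g hg y hy => hab (commutator_mem_commutator hg hy))
  have hβn : (secAct S S₀ b') ^ n = 1 := by
    rw [← map_pow]
    have : b' ^ n = 1 := by
      ext
      rw [Subgroup.coe_pow, hb'c, bn]
      rfl
    rw [this, map_one]
  have hcop : n.Coprime (Nat.card (↥S ⧸ S₀.subgroupOf S)) :=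
    Nat.Coprime.coprime_dvd_right (Subgroup.card_quotient_dvd_card _) cop
  -- the commutator subgroup lands in the closure
  have hle : ⁅S, zpowers b⁆ ≤ ((closure {y : ↥S ⧸ S₀.subgroupOf S |
      ∃ α ∈ zpowers (secAct S S₀ b'), ∃ z, y = z⁻¹ * α z}).comap
        (QuotientGroup.mk' (S₀.subgroupOf S))).map S.subtype := by
    rw [commutator_le]
    intro x hx c hc
    obtain ⟨j, rfl⟩ := mem_zpowers_iff.1 hc
    have hcx : (b ^ j) * x⁻¹ * (b ^ j)⁻¹ ∈ S :=
      (mem_normalizer_iff.1 (zpow_mem bS j) _).1 (inv_mem hx)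
    have hcoe : ((b' ^ j : ↥(normalizer (S : Set Γ) ⊓ normalizer (S₀ : Set Γ))) : Γ) = b ^ j := by
      rw [Subgroup.coe_zpow, hb'c]
    refine ⟨⟨x, hx⟩ * ⟨(b ^ j) * x⁻¹ * (b ^ j)⁻¹, hcx⟩, ?_, ?_⟩
    · refine subset_closure ⟨secAct S S₀ (b' ^ j), ?_, QuotientGroup.mk ⟨x⁻¹, inv_mem hx⟩, ?_⟩
      · rw [map_zpow]
        exact zpow_mem (mem_zpowers _) j
      · rw [secAct_mk S S₀ (b' ^ j) x⁻¹ (inv_mem hx) (by rw [hcoe]; exact hcx)]
        simp only [QuotientGroup.mk'_apply, QuotientGroup.mk_mul]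
        rw [← QuotientGroup.mk_inv]
        congr 2
        · ext
          simp
        · ext
          simp only [hcoe]
    · rw [commutatorElement_def]
      simp only [Subgroup.coe_subtype, Subgroup.coe_mul]
      group
  obtain ⟨k', hk', hkk⟩ := hle hk
  have hkS : k ∈ S := by
    rw [← hkk]
    exact k'.2
  have hk'eq : k' = ⟨k, hkS⟩ := Subtype.ext hkk
  rw [hk'eq] at hk'
  have hfix : secAct S S₀ b' (QuotientGroup.mk ⟨k, hkS⟩) = QuotientGroup.mk ⟨k, hkS⟩ := by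
    rw [sec_fixed_iff, hb'c]
    exact hbk
  have := KF_abs hcomm (secAct S S₀ b') hn hβn hcop _ hfix hk'
  exact (sec_mk_eq_one S S₀ k hkS).1 this

end Cfsg.Agent.Lib.Helper46.FrobPQ
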