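import Mathlib
import Cfsg.Agent.Lib.Helper46.FrobPQ.Defs
import Cfsg.Agent.Lib.Helper46.FrobPQ.Sec
import Cfsg.Agent.Lib.Helper29.FrobFix3

/-!
# S4306 farm, piece [MFS]   (file Cfsg/Agent/Lib/Helper46/FrobPQ/MFS.lean)

PAPER PROOF.
W := Q/R (abelian t-group, `Sec.lean`; use `Additive W` for Helper29's module_formula, or transport).  Let φ = secAct Q R,
G := MulAut W (finite) acting on Additive W; K̃ := image of K, B̃ := zpowers (φ b).
`Cfsg.Agent.Lib.Helper29.FrobFix.module_formula (K R : Subgroup G) (hRK : ∀ r ∈ R, ∀ k ∈ K, r*k*r⁻¹ ∈ K)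
  (hfpf : ∀ r ∈ R, r ≠ 1 → ∀ k ∈ K, r*k = k*r → k = 1) (hsolv : IsSolvable K) (hcop : (card K * card R).Coprime (card V)) :
  card {v // ∀ g ∈ K ⊔ R, g • v = v} ^ card R * card V = card {v // ∀ g ∈ R, g•v = v} ^ card R * card {v // ∀ g ∈ K, g•v = v}`.
Case φ b = 1: then by Kfpf every k ∈ K acts trivially on W, so Cb = CK = Q and the formula is trivial.
Case φ b ≠ 1: card B̃ = n.  hfpf: r = (φ b)^j ≠ 1 commuting with k̃ ⇒ φ b commutes with k̃ (φ b is a power of r) ⇒ ⁅b,k⁆ trivial on W ⇒ (Kfpf) k̃ = 1.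
  K̃ solvable (image), card K̃ ∣ card K coprime to t, n ≠ t prime, card W a power of t.
  Fixed points: {w | K̃ fixes} = CK/R, {w | B̃ fixes} = Cb/R, {w | K̃ ⊔ B̃ fixes} = (Cb ⊓ CK)/R, and the cardinality of the image of a subgroup
  R ≤ C ≤ Q in W is R.relIndex C (e.g. card (C.subgroupOf Q).map mk, or bijection with ↥C ⧸ R.subgroupOf C).
-/

set_option autoImplicit false
set_option linter.unusedSectionVars false
set_option linter.unusedVariables false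

namespace Cfsg.Agent.Lib.Helper46.FrobPQ

open Subgroup
open scoped commutatorElement

universe u

variable {E : Type*} [Field E] {U : Type*} [AddCommGroup U] [Module E U]
  {Γ : Type*} [Group Γ] [Finite Γ]

/-- the action of `MulAut W` on `Additive W`. -/
@[reducible] def MFS_act (W : Type*) [CommGroup W] : DistribMulAction (MulAut W) (Additive W) where
  smul g v := Additive.ofMul (g (Additive.toMul v))
  one_smul _ := rfl
  mul_smul _ _ _ := rfl
  smul_zero g := by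
    change Additive.ofMul (g 1) = 0
    rw [map_one]
    rfl
  smul_add g v w := by
    change Additive.ofMul (g (Additive.toMul v * Additive.toMul w)) = _
    rw [map_mul]
    rfl

theorem MFS_abs {W : Type*} [CommGroup W] [Finite W] (K B : Subgroup (MulAut W))
    (hRK : ∀ r ∈ B, ∀ k ∈ K, r * k * r⁻¹ ∈ K)
    (hfpf : ∀ r ∈ B, r ≠ 1 → ∀ k ∈ K, r * k = k * r → k = 1) (hsolv : Group.IsSolvable K)
    (hcop : (Nat.card K * Nat.card B).Coprime (Nat.card W)) :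
    Nat.card {w : W // ∀ g ∈ K ⊔ B, g w = w} ^ Nat.card B * Nat.card W =
      Nat.card {w : W // ∀ g ∈ B, g w = w} ^ Nat.card B *
        Nat.card {w : W // ∀ g ∈ K, g w = w} := by
  have : Finite (MulAut W) := Finite.of_injective (fun f => (f : W → W)) DFunLike.coe_injective
  let _ := MFS_act W
  exact Cfsg.Agent.Lib.Helper29.FrobFix.module_formula (G := MulAut W) (V := Additive W) K B hRK
    hfpf hsolv hcop

/-- fixed points of a group of automorphisms -/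
def MFS_fix {W : Type*} [Group W] (T : Subgroup (MulAut W)) : Subgroup W where
  carrier := {w | ∀ g ∈ T, g w = w}
  one_mem' := fun g _ => map_one g
  mul_mem' := fun {a b} ha hb g hg => by rw [map_mul, ha g hg, hb g hg]
  inv_mem' := fun {a} ha g hg => by rw [map_inv, ha g hg]

theorem MFS_abs' {W : Type*} [Group W] [Finite W] (hW : ∀ a c : W, a * c = c * a)
    (K B : Subgroup (MulAut W))
    (hRK : ∀ r ∈ B, ∀ k ∈ K, r * k * r⁻¹ ∈ K)
    (hfpf : ∀ r ∈ B, r ≠ 1 → ∀ k ∈ K, r * k = k * r → k = 1) (hsolv : Group.IsSolvable K)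
    (hcop : (Nat.card K * Nat.card B).Coprime (Nat.card W)) :
    Nat.card (MFS_fix (K ⊔ B)) ^ Nat.card B * Nat.card W =
      Nat.card (MFS_fix B) ^ Nat.card B * Nat.card (MFS_fix K) := by
  let _ : CommGroup W := { (inferInstance : Group W) with mul_comm := hW }
  exact MFS_abs K B hRK hfpf hsolv hcop

theorem MFS_le_normalizer (H Z : Subgroup Γ) (hyp : ∀ g ∈ H, ∀ z ∈ Z, g * z * g⁻¹ ∈ Z) :
    H ≤ normalizer (Z : Set Γ) := by
  intro g hg
  rw [mem_normalizer_iff]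
  intro z
  refine ⟨hyp g hg z, fun hz => ?_⟩
  have := hyp g⁻¹ (H.inv_mem hg) _ hz
  have e : g⁻¹ * (g * z * g⁻¹) * g⁻¹⁻¹ = z := by group
  rwa [e] at this

theorem MFS_triv_iff (Q R : Subgroup Γ) [(R.subgroupOf Q).Normal]
    (γ : ↥(normalizer (Q : Set Γ) ⊓ normalizer (R : Set Γ))) :
    secAct Q R γ = 1 ↔ ∀ g ∈ Q, ⁅(γ : Γ), g⁆ ∈ R := by
  constructor
  · intro h1 g hg
    rw [← sec_fixed_iff Q R γ g hg, h1]
    rfl
  · intro h1
    ext w
    obtain ⟨⟨g, hg⟩, rfl⟩ := QuotientGroup.mk_surjective w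
    rw [(sec_fixed_iff Q R γ g hg).2 (h1 g hg)]
    rfl

theorem MFS_card (Q R C : Subgroup Γ) [(R.subgroupOf Q).Normal] (RC : R ≤ C) (CQ : C ≤ Q)
    (D : Subgroup (↥Q ⧸ R.subgroupOf Q))
    (hD : ∀ g (hg : g ∈ Q), (QuotientGroup.mk ⟨g, hg⟩ : ↥Q ⧸ R.subgroupOf Q) ∈ D ↔ g ∈ C) :
    Nat.card D = R.relIndex C := by
  have hcomap : D.comap (QuotientGroup.mk' (R.subgroupOf Q)) = C.subgroupOf Q := by
    ext ⟨g, hg⟩
    rw [mem_comap, mem_subgroupOf]
    exact hD g hg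
  have hidx : D.index = C.relIndex Q := by
    rw [← Subgroup.index_comap_of_surjective D (QuotientGroup.mk'_surjective _), hcomap]
    rfl
  have h1 := D.card_mul_index
  rw [sec_card, hidx, ← Subgroup.relIndex_mul_relIndex R C Q RC CQ] at h1
  exact Nat.eq_of_mul_eq_mul_right (Nat.pos_of_ne_zero index_ne_zero_of_finite) h1

theorem mfs (Q R K : Subgroup Γ) (b : Γ) {t n : ℕ} (tP : t.Prime) (nP : n.Prime)
    (Qt : IsPGroup t Q) (RQ : R ≤ Q) (comm : ∀ g ∈ Q, ∀ y ∈ Q, ⁅g, y⁆ ∈ R)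
    (KQ : K ≤ normalizer (Q : Set Γ)) (KR : K ≤ normalizer (R : Set Γ))
    (bQ : b ∈ normalizer (Q : Set Γ)) (bR : b ∈ normalizer (R : Set Γ))
    (bK : b ∈ normalizer (K : Set Γ)) (bn : b ^ n = 1) (Ksol : Group.IsSolvable K)
    (Kcop : (Nat.card K).Coprime t) (nt : n ≠ t)
    (Kfpf : ∀ k ∈ K, (∀ g ∈ Q, ⁅⁅b, k⁆, g⁆ ∈ R) → ∀ g ∈ Q, ⁅k, g⁆ ∈ R)
    (Cb CK : Subgroup Γ) (hCb : ∀ g, g ∈ Cb ↔ g ∈ Q ∧ ⁅b, g⁆ ∈ R)
    (hCK : ∀ g, g ∈ CK ↔ g ∈ Q ∧ ∀ k ∈ K, ⁅k, g⁆ ∈ R) :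
    (R.relIndex (Cb ⊓ CK)) ^ n * R.relIndex Q = (R.relIndex Cb) ^ n * R.relIndex CK := by
  have QR : Q ≤ normalizer (R : Set Γ) := by
    apply MFS_le_normalizer
    intro g hg z hz
    have e : g * z * g⁻¹ = ⁅g, z⁆ * z := by
      rw [commutatorElement_def]
      group
    rw [e]
    exact R.mul_mem (comm g hg z (RQ hz)) hz
  have hnorm : (R.subgroupOf Q).Normal := sec_normal Q R QR
  set N : Subgroup Γ := normalizer (Q : Set Γ) ⊓ normalizer (R : Set Γ) with hN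
  set φ := secAct Q R with hφ
  have KN : K ≤ N := le_inf KQ KR
  set bL : N := ⟨b, bQ, bR⟩ with hbL
  set β := φ bL with hβ
  set K' : Subgroup N := K.subgroupOf N with hK'
  set Kt := K'.map φ with hKt
  set Bt := zpowers β with hBt
  have hβn : β ^ n = 1 := by
    have : bL ^ n = 1 := Subtype.ext (by simpa using bn)
    rw [hβ, ← map_pow, this, map_one]
  have triv : ∀ γ : N, φ γ = 1 ↔ ∀ g ∈ Q, ⁅(γ : Γ), g⁆ ∈ R := MFS_triv_iff Q R
  have Kfpf' : ∀ κ ∈ K', β * φ κ = φ κ * β → φ κ = 1 := by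
    intro κ hκ hc
    rw [triv]
    apply Kfpf κ.1 (mem_subgroupOf.1 hκ)
    have h1 : φ ⁅bL, κ⁆ = 1 := by
      rw [commutatorElement_def, map_mul, map_mul, map_mul, map_inv, map_inv, ← hβ, hc]
      group
    exact (triv _).1 h1
  have hfixK : ∀ g (hg : g ∈ Q),
      (QuotientGroup.mk ⟨g, hg⟩ : ↥Q ⧸ R.subgroupOf Q) ∈ MFS_fix Kt ↔ g ∈ CK := by
    intro g hg
    rw [hCK]
    constructor
    · intro h1
      refine ⟨hg, fun k hk => ?_⟩
      have := h1 (φ ⟨k, KN hk⟩) ⟨⟨k, KN hk⟩, mem_subgroupOf.2 hk, rfl⟩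
      exact (sec_fixed_iff Q R _ g hg).1 this
    · rintro ⟨-, h1⟩ _ ⟨κ, hκ, rfl⟩
      exact (sec_fixed_iff Q R κ g hg).2 (h1 κ.1 (mem_subgroupOf.1 hκ))
  have hfixB : ∀ g (hg : g ∈ Q),
      (QuotientGroup.mk ⟨g, hg⟩ : ↥Q ⧸ R.subgroupOf Q) ∈ MFS_fix Bt ↔ g ∈ Cb := by
    intro g hg
    rw [hCb]
    constructor
    · intro h1
      exact ⟨hg, (sec_fixed_iff Q R bL g hg).1 (h1 β (mem_zpowers β))⟩
    · rintro ⟨-, h1⟩ r hr
      have h2 : β (QuotientGroup.mk ⟨g, hg⟩) = QuotientGroup.mk ⟨g, hg⟩ :=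
        (sec_fixed_iff Q R bL g hg).2 h1
      have h3 : zpowers β ≤ MulAction.stabilizer (MulAut (↥Q ⧸ R.subgroupOf Q))
          (QuotientGroup.mk ⟨g, hg⟩ : ↥Q ⧸ R.subgroupOf Q) := by
        rw [zpowers_le]
        exact h2
      exact h3 hr
  have hfixKB : MFS_fix (Kt ⊔ Bt) = MFS_fix Kt ⊓ MFS_fix Bt := by
    ext w
    constructor
    · intro h1
      exact ⟨fun g hg => h1 g ((le_sup_left : Kt ≤ Kt ⊔ Bt) hg),
        fun g hg => h1 g ((le_sup_right : Bt ≤ Kt ⊔ Bt) hg)⟩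
    · rintro ⟨h1, h2⟩ g hg
      have h3 : Kt ⊔ Bt ≤ MulAction.stabilizer (MulAut (↥Q ⧸ R.subgroupOf Q)) w :=
        sup_le (fun g hg => h1 g hg) (fun g hg => h2 g hg)
      exact h3 hg
  have hconjR : ∀ a ∈ normalizer (R : Set Γ), ∀ g ∈ R, ⁅a, g⁆ ∈ R := by
    intro a ha g hg
    rw [commutatorElement_def]
    exact R.mul_mem ((mem_normalizer_iff.1 ha g).1 hg) (R.inv_mem hg)
  have RCb : R ≤ Cb := fun g hg => (hCb g).2 ⟨RQ hg, hconjR b bR g hg⟩
  have RCK : R ≤ CK := fun g hg => (hCK g).2 ⟨RQ hg, fun k hk => hconjR k (KR hk) g hg⟩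
  have CbQ : Cb ≤ Q := fun g hg => ((hCb g).1 hg).1
  have CKQ : CK ≤ Q := fun g hg => ((hCK g).1 hg).1
  by_cases hβ1 : β = 1
  · have e1 : Cb = Q := by
      ext g
      rw [hCb]
      exact ⟨fun h => h.1, fun hg => ⟨hg, (triv bL).1 hβ1 g hg⟩⟩
    have e2 : CK = Q := by
      ext g
      rw [hCK]
      refine ⟨fun h => h.1, fun hg => ⟨hg, fun k hk => ?_⟩⟩
      exact (triv ⟨k, KN hk⟩).1 (Kfpf' ⟨k, KN hk⟩ (mem_subgroupOf.2 hk) (by rw [hβ1]; simp)) g hg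
    rw [e1, e2, inf_idem]
  have cK : Nat.card (MFS_fix Kt) = R.relIndex CK := MFS_card Q R CK RCK CKQ _ hfixK
  have cB : Nat.card (MFS_fix Bt) = R.relIndex Cb := MFS_card Q R Cb RCb CbQ _ hfixB
  have cKB : Nat.card (MFS_fix (Kt ⊔ Bt)) = R.relIndex (Cb ⊓ CK) :=
    MFS_card Q R (Cb ⊓ CK) (le_inf RCb RCK) (inf_le_left.trans CbQ) _ (by
      intro g hg
      rw [hfixKB, mem_inf, hfixK, hfixB, mem_inf, and_comm])
  have cBt : Nat.card Bt = n := by
    have := Fact.mk nP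
    rw [hBt, Nat.card_zpowers, orderOf_eq_prime hβn hβ1]
  have hRK : ∀ r ∈ Bt, ∀ k ∈ Kt, r * k * r⁻¹ ∈ Kt := by
    rintro r hr _ ⟨κ, hκ, rfl⟩
    obtain ⟨j, rfl⟩ := mem_zpowers_iff.1 hr
    refine ⟨bL ^ j * κ * (bL ^ j)⁻¹, ?_, by rw [map_mul, map_mul, map_inv, map_zpow]⟩
    apply mem_subgroupOf.2
    have := (mem_normalizer_iff.1 (zpow_mem bK j) κ.1).1 (mem_subgroupOf.1 hκ)
    simpa using this
  have hfpf : ∀ r ∈ Bt, r ≠ 1 → ∀ k ∈ Kt, r * k = k * r → k = 1 := by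
    rintro r hr hr1 _ ⟨κ, hκ, rfl⟩ hc
    obtain ⟨j, rfl⟩ := mem_zpowers_iff.1 hr
    have hnj : ¬ (n : ℤ) ∣ j := by
      rintro ⟨m, rfl⟩
      apply hr1
      rw [zpow_mul, zpow_natCast, hβn, one_zpow]
    have hcop : IsCoprime (n : ℤ) j := (Nat.prime_iff_prime_int.1 nP).coprime_iff_not_dvd.2 hnj
    obtain ⟨u, v, huv⟩ := hcop
    have hβj : β = (β ^ j) ^ v := by
      have h1 : β = β ^ (u * (n : ℤ) + v * j) := by rw [huv, zpow_one]
      rw [zpow_add, zpow_mul', zpow_natCast, hβn, one_zpow, one_mul, zpow_mul'] at h1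
      exact h1
    have hcomm : Commute β (φ κ) := by
      rw [hβj]
      exact Commute.zpow_left hc v
    exact Kfpf' κ hκ hcomm
  have hsolv : Group.IsSolvable Kt := by
    have s1 : Group.IsSolvable K' := Group.isSolvable_of_isSolvable_injective
      (f := (subgroupOfEquivOfLe KN).toMonoidHom) (MulEquiv.injective _)
    exact Group.isSolvable_of_surjective (f := φ.subgroupMap K') (φ.subgroupMap_surjective K')
  have hcop : (Nat.card Kt * Nat.card Bt).Coprime (Nat.card (↥Q ⧸ R.subgroupOf Q)) := by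
    have := Fact.mk tP
    obtain ⟨m, hm⟩ := IsPGroup.iff_card.1 Qt
    have hW : Nat.card (↥Q ⧸ R.subgroupOf Q) ∣ t ^ m := by
      rw [sec_card, ← hm]
      exact Subgroup.relIndex_dvd_card _ _
    obtain ⟨a, -, ha⟩ := (Nat.dvd_prime_pow tP).1 hW
    rw [ha, cBt]
    apply Nat.Coprime.pow_right
    apply Nat.Coprime.mul_left
    · have h1 : Nat.card Kt ∣ Nat.card K' := Subgroup.card_map_dvd _ _
      have h2 : Nat.card K' = Nat.card K := Nat.card_congr (subgroupOfEquivOfLe KN).toEquiv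
      exact Nat.Coprime.coprime_dvd_left (h2 ▸ h1) Kcop
    · exact (Nat.coprime_primes nP tP).2 nt
  have key := MFS_abs' (sec_comm Q R comm) Kt Bt hRK hfpf hsolv hcop
  rw [cKB, cB, cK, cBt, sec_card] at key
  exact key

end Cfsg.Agent.Lib.Helper46.FrobPQ
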