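import Mathlib
import Cfsg.Agent.Lib.Helper46.FrobPQ.Defs
import Cfsg.Agent.Lib.Helper46.FrobPQ.Wt

/-!
# S4306 farm, piece [N0]   (file Cfsg/Agent/Lib/Helper46/FrobPQ/NB0.lean)

PAPER PROOF.
Z := Q ⊓ centralizer Q, X := wt ρ Z μ.  μ is multiplicative on Z (wt_mul, wt_one, wt_inv).  As ⁅g,y⁆ ∈ Z is central in Q: ⁅g g', y⁆ = ⁅g,y⁆ ⁅g',y⁆, ⁅g, y y'⁆ = ⁅g,y⁆⁅g,y'⁆, ⁅g⁻¹,y⁆ = ⁅g,y⁆⁻¹ for g, g', y, y' ∈ Q.
* exists_R: R := {g ∈ Q | ∀ y ∈ Q, μ ⁅g,y⁆ = 1} is a subgroup.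
* XQ: Z is central in Q.  XS: S centralizes Z.  Xb: wt_stab (b ∈ stab Z μ by bμ; b normalizes Z since it normalizes Q).
* ZR, RQ clear.  QR: ⁅g z g⁻¹, y⁆ = ⁅z,y⁆ for z, g, y ∈ Q (class 2) or g z g⁻¹ = ⁅g,z⁆ z ∈ Z R.  SR: ⁅x g x⁻¹, y⁆ = x ⁅g, x⁻¹ y x⁆ x⁻¹ = ⁅g, x⁻¹ y x⁆ (S centralizes Z).  bR: the same with bμ.
  (for `∈ normalizer` prove both directions: use the statement for x and x⁻¹.)
* comm_X: ρ g ρ y v = ρ ⁅g,y⁆ ρ y ρ g v and ρ y ρ g v ∈ X, μ ⁅g,y⁆ = 1.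
* KS: commutator_le, b normalizes S.  bK: b normalizes S and zpowers b (`Subgroup.commutator` is preserved by conjugation: map_commutator / direct).
* cardQ, cardR: orders are powers of t.
-/

set_option autoImplicit false
set_option linter.unusedSectionVars false
set_option linter.unusedVariables false

namespace Cfsg.Agent.Lib.Helper46.FrobPQ

open Subgroup
open scoped commutatorElement

universe u

variable {E : Type*} [Field E] {U : Type*} [AddCommGroup U] [Module E U]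
  {Γ : Type*} [Group Γ] [Finite Γ]

variable {ρ : Γ →* Module.End E U} {Q S R : Subgroup Γ} {b : Γ} {t s n : ℕ} {μ : Γ → E}

/-! ### auxiliary lemmas -/

theorem N0_norm_of_forall {H : Subgroup Γ} {c : Γ} (h1 : ∀ x ∈ H, c * x * c⁻¹ ∈ H)
    (h2 : ∀ x ∈ H, c⁻¹ * x * c ∈ H) : c ∈ normalizer (H : Set Γ) := by
  rw [mem_normalizer_iff]
  intro x
  refine ⟨h1 x, fun hx => ?_⟩
  have h3 := h2 _ hx
  have h4 : c⁻¹ * (c * x * c⁻¹) * c = x := by group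
  rwa [h4] at h3

theorem N0_conj_mem {H : Subgroup Γ} {c : Γ} (hc : c ∈ normalizer (H : Set Γ)) {x : Γ}
    (hx : x ∈ H) : c * x * c⁻¹ ∈ H := (mem_normalizer_iff.1 hc x).1 hx

theorem N0_conj_mem' {H : Subgroup Γ} {c : Γ} (hc : c ∈ normalizer (H : Set Γ)) {x : Γ}
    (hx : x ∈ H) : c⁻¹ * x * c ∈ H := by
  have := N0_conj_mem (inv_mem hc) hx
  rwa [inv_inv] at this

theorem N0_conjZ {Q : Subgroup Γ} {c : Γ} (hc : c ∈ normalizer (Q : Set Γ)) {z : Γ}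
    (hz : z ∈ Q ⊓ centralizer (Q : Set Γ)) : c * z * c⁻¹ ∈ Q ⊓ centralizer (Q : Set Γ) := by
  obtain ⟨hzQ, hzC⟩ := mem_inf.1 hz
  refine mem_inf.2 ⟨N0_conj_mem hc hzQ, ?_⟩
  rw [mem_centralizer_iff] at hzC ⊢
  intro y hy
  have h1 := hzC _ (N0_conj_mem' hc hy)
  calc y * (c * z * c⁻¹) = c * ((c⁻¹ * y * c) * z) * c⁻¹ := by group
    _ = c * (z * (c⁻¹ * y * c)) * c⁻¹ := by rw [h1]
    _ = c * z * c⁻¹ * y := by group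

theorem N0_normZ {Q : Subgroup Γ} {c : Γ} (hc : c ∈ normalizer (Q : Set Γ)) :
    c ∈ normalizer ((Q ⊓ centralizer (Q : Set Γ) : Subgroup Γ) : Set Γ) := by
  refine N0_norm_of_forall (fun z hz => N0_conjZ hc hz) (fun z hz => ?_)
  have := N0_conjZ (inv_mem hc) hz
  rwa [inv_inv] at this

theorem N0_comm_mem {Q : Subgroup Γ} (cl2 : ∀ g ∈ Q, ∀ y ∈ Q, ⁅g, y⁆ ∈ centralizer (Q : Set Γ))
    {g y : Γ} (hg : g ∈ Q) (hy : y ∈ Q) : ⁅g, y⁆ ∈ Q ⊓ centralizer (Q : Set Γ) :=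
  mem_inf.2 ⟨by
    rw [commutatorElement_def]
    exact mul_mem (mul_mem (mul_mem hg hy) (inv_mem hg)) (inv_mem hy), cl2 g hg y hy⟩

theorem N0_comm_mul {Q : Subgroup Γ} (cl2 : ∀ g ∈ Q, ∀ y ∈ Q, ⁅g, y⁆ ∈ centralizer (Q : Set Γ))
    {g g' y : Γ} (hg : g ∈ Q) (hg' : g' ∈ Q) (hy : y ∈ Q) :
    ⁅g * g', y⁆ = ⁅g', y⁆ * ⁅g, y⁆ := by
  have h1 := mem_centralizer_iff.1 (cl2 g' hg' y hy) g hg
  calc ⁅g * g', y⁆ = (g * ⁅g', y⁆) * (y * g⁻¹ * y⁻¹) := by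
        simp only [commutatorElement_def]; group
    _ = (⁅g', y⁆ * g) * (y * g⁻¹ * y⁻¹) := by rw [h1]
    _ = ⁅g', y⁆ * ⁅g, y⁆ := by simp only [commutatorElement_def]; group

theorem N0_beta_mul {Q : Subgroup Γ} (cl2 : ∀ g ∈ Q, ∀ y ∈ Q, ⁅g, y⁆ ∈ centralizer (Q : Set Γ))
    (hne : wt ρ (Q ⊓ centralizer (Q : Set Γ)) μ ≠ ⊥)
    {g g' y : Γ} (hg : g ∈ Q) (hg' : g' ∈ Q) (hy : y ∈ Q) :
    μ ⁅g * g', y⁆ = μ ⁅g', y⁆ * μ ⁅g, y⁆ := by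
  rw [N0_comm_mul cl2 hg hg' hy, wt_mul hne (N0_comm_mem cl2 hg' hy) (N0_comm_mem cl2 hg hy)]

theorem N0_beta_one (hne : wt ρ (Q ⊓ centralizer (Q : Set Γ)) μ ≠ ⊥) (y : Γ) :
    μ ⁅(1 : Γ), y⁆ = 1 := by
  have : ⁅(1 : Γ), y⁆ = 1 := by simp [commutatorElement_def]
  rw [this, wt_one hne]

theorem N0_beta_inv {Q : Subgroup Γ} (cl2 : ∀ g ∈ Q, ∀ y ∈ Q, ⁅g, y⁆ ∈ centralizer (Q : Set Γ))
    (hne : wt ρ (Q ⊓ centralizer (Q : Set Γ)) μ ≠ ⊥)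
    {g y : Γ} (hg : g ∈ Q) (hy : y ∈ Q) : μ ⁅g⁻¹, y⁆ * μ ⁅g, y⁆ = 1 := by
  rw [← N0_beta_mul cl2 hne hg (inv_mem hg) hy, mul_inv_cancel, N0_beta_one hne]

theorem N0_wt_of_comm {Z : Subgroup Γ} {g : Γ} (hg : ∀ z ∈ Z, g * z = z * g) {v : U}
    (hv : v ∈ wt ρ Z μ) : ρ g v ∈ wt ρ Z μ := by
  intro z hz
  have h1 : ρ z (ρ g v) = ρ g (ρ z v) := by
    rw [← Module.End.mul_apply, ← Module.End.mul_apply, ← map_mul, ← map_mul, hg z hz]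
  rw [h1, hv z hz, map_smul]

theorem exists_R (ρ : Γ →* Module.End E U)
    (Q S : Subgroup Γ) (b : Γ) {t s n : ℕ} (tP : t.Prime) (sP : s.Prime) (nP : n.Prime)
    (ts : t ≠ s) (nt : n ≠ t) (ns : n ≠ s) (Qt : IsPGroup t Q) (Ss : IsPGroup s S)
    (tE : (t : E) ≠ 0) (nE : (n : E) ≠ 0)
    (SQ : S ≤ normalizer (Q : Set Γ)) (bQ : b ∈ normalizer (Q : Set Γ))
    (bS : b ∈ normalizer (S : Set Γ)) (bn : b ^ n = 1)
    (cl2 : ∀ g ∈ Q, ∀ y ∈ Q, ⁅g, y⁆ ∈ centralizer (Q : Set Γ))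
    (SZ : S ≤ centralizer ((Q ⊓ centralizer (Q : Set Γ) : Subgroup Γ) : Set Γ))
    (Sab : ⁅S, S⁆ ≤ centralizer (Q : Set Γ))
    (HY : ∀ y ∈ Q, (∀ x ∈ S, ⁅x, b⁆ * y = y * ⁅x, b⁆) → b * y = y * b →
      y ∈ centralizer (Q : Set Γ))
    (μ : Γ → E) (hne : wt ρ (Q ⊓ centralizer (Q : Set Γ)) μ ≠ ⊥)
    (bμ : ∀ z ∈ Q ⊓ centralizer (Q : Set Γ), μ (b * z * b⁻¹) = μ z)
    (bfix : ∀ v ∈ wt ρ (Q ⊓ centralizer (Q : Set Γ)) μ, ρ b v = v → v = 0) :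
    ∃ R : Subgroup Γ, NB ρ Q S R b t s n μ := by
  let R : Subgroup Γ :=
    { carrier := {g | g ∈ Q ∧ ∀ y ∈ Q, μ ⁅g, y⁆ = 1}
      one_mem' := ⟨one_mem _, fun y _ => N0_beta_one hne y⟩
      mul_mem' := by
        rintro g g' ⟨hg, hg1⟩ ⟨hg', hg1'⟩
        refine ⟨mul_mem hg hg', fun y hy => ?_⟩
        rw [N0_beta_mul cl2 hne hg hg' hy, hg1 y hy, hg1' y hy, one_mul]
      inv_mem' := by
        rintro g ⟨hg, hg1⟩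
        refine ⟨inv_mem hg, fun y hy => ?_⟩
        have := N0_beta_inv cl2 hne hg hy
        rwa [hg1 y hy, mul_one] at this }
  exact ⟨R, ⟨tP, sP, nP, ts, nt, ns, Qt, Ss, tE, nE, SQ, bQ, bS, bn, cl2, SZ, Sab, HY, hne, bμ,
    bfix, fun g => Iff.rfl⟩⟩

theorem NB.comm_mem (H : NB ρ Q S R b t s n μ) {g y : Γ} (hg : g ∈ Q) (hy : y ∈ Q) :
    ⁅g, y⁆ ∈ Q ⊓ centralizer (Q : Set Γ) := N0_comm_mem H.cl2 hg hy

theorem NB.XQ (H : NB ρ Q S R b t s n μ) :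
    ∀ g ∈ Q, ∀ v ∈ wt ρ (Q ⊓ centralizer (Q : Set Γ)) μ,
      ρ g v ∈ wt ρ (Q ⊓ centralizer (Q : Set Γ)) μ := by
  intro g hg v hv
  exact N0_wt_of_comm (fun z hz => mem_centralizer_iff.1 (mem_inf.1 hz).2 g hg) hv

theorem NB.XS (H : NB ρ Q S R b t s n μ) :
    ∀ g ∈ S, ∀ v ∈ wt ρ (Q ⊓ centralizer (Q : Set Γ)) μ,
      ρ g v ∈ wt ρ (Q ⊓ centralizer (Q : Set Γ)) μ := by
  intro g hg v hv
  exact N0_wt_of_comm (fun z hz => (mem_centralizer_iff.1 (H.SZ hg) z hz).symm) hv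

theorem NB.b_stab (H : NB ρ Q S R b t s n μ) : b ∈ stab (Q ⊓ centralizer (Q : Set Γ)) μ :=
  mem_stab.2 ⟨N0_normZ H.bQ, H.bμ⟩

theorem NB.S_stab (H : NB ρ Q S R b t s n μ) {x : Γ} (hx : x ∈ S) :
    x ∈ stab (Q ⊓ centralizer (Q : Set Γ)) μ := by
  refine mem_stab.2 ⟨N0_normZ (H.SQ hx), fun z hz => ?_⟩
  have h1 := mem_centralizer_iff.1 (H.SZ hx) z hz
  have h2 : x * z * x⁻¹ = z := by rw [← h1]; group
  rw [h2]

theorem NB.Xb (H : NB ρ Q S R b t s n μ) :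
    ∀ v ∈ wt ρ (Q ⊓ centralizer (Q : Set Γ)) μ,
      ρ b v ∈ wt ρ (Q ⊓ centralizer (Q : Set Γ)) μ :=
  fun v hv => wt_stab ρ _ μ H.b_stab hv

theorem NB.ZR (H : NB ρ Q S R b t s n μ) : Q ⊓ centralizer (Q : Set Γ) ≤ R := by
  intro z hz
  rw [H.hR]
  refine ⟨(mem_inf.1 hz).1, fun y hy => ?_⟩
  have h1 := mem_centralizer_iff.1 (mem_inf.1 hz).2 y hy
  have h2 : ⁅z, y⁆ = 1 := by
    rw [commutatorElement_def, ← h1]; group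
  rw [h2, wt_one H.hne]

theorem NB.RQ (H : NB ρ Q S R b t s n μ) : R ≤ Q := fun g hg => ((H.hR g).1 hg).1

theorem NB.QR (H : NB ρ Q S R b t s n μ) : Q ≤ normalizer (R : Set Γ) := by
  have key : ∀ g ∈ Q, ∀ z ∈ R, g * z * g⁻¹ ∈ R := by
    intro g hg z hz
    obtain ⟨hzQ, hz1⟩ := (H.hR z).1 hz
    rw [H.hR]
    refine ⟨mul_mem (mul_mem hg hzQ) (inv_mem hg), fun y hy => ?_⟩
    rw [N0_beta_mul H.cl2 H.hne (mul_mem hg hzQ) (inv_mem hg) hy,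
      N0_beta_mul H.cl2 H.hne hg hzQ hy, hz1 y hy, one_mul, N0_beta_inv H.cl2 H.hne hg hy]
  intro g hg
  refine N0_norm_of_forall (key g hg) (fun z hz => ?_)
  have := key g⁻¹ (inv_mem hg) z hz
  rwa [inv_inv] at this

theorem NB.normR_of_stab (H : NB ρ Q S R b t s n μ) {c : Γ} (hcQ : c ∈ normalizer (Q : Set Γ))
    (hc : c ∈ stab (Q ⊓ centralizer (Q : Set Γ)) μ) : c ∈ normalizer (R : Set Γ) := by
  have key : ∀ c ∈ normalizer (Q : Set Γ), c ∈ stab (Q ⊓ centralizer (Q : Set Γ)) μ →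
      ∀ g ∈ R, c * g * c⁻¹ ∈ R := by
    intro c hcQ hc g hg
    obtain ⟨hgQ, hg1⟩ := (H.hR g).1 hg
    rw [H.hR]
    refine ⟨N0_conj_mem hcQ hgQ, fun y hy => ?_⟩
    have hy' : c⁻¹ * y * c ∈ Q := N0_conj_mem' hcQ hy
    have h1 : ⁅c * g * c⁻¹, y⁆ = c * ⁅g, c⁻¹ * y * c⁆ * c⁻¹ := by
      simp only [commutatorElement_def]; group
    rw [h1, (mem_stab.1 hc).2 _ (H.comm_mem hgQ hy'), hg1 _ hy']
  refine N0_norm_of_forall (key c hcQ hc) (fun z hz => ?_)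
  have := key c⁻¹ (inv_mem hcQ) (inv_mem hc) z hz
  rwa [inv_inv] at this

theorem NB.SR (H : NB ρ Q S R b t s n μ) : S ≤ normalizer (R : Set Γ) :=
  fun x hx => H.normR_of_stab (H.SQ hx) (H.S_stab hx)

theorem NB.bR (H : NB ρ Q S R b t s n μ) : b ∈ normalizer (R : Set Γ) :=
  H.normR_of_stab H.bQ H.b_stab

theorem NB.comm_X (H : NB ρ Q S R b t s n μ) :
    ∀ g ∈ R, ∀ y ∈ Q, ∀ v ∈ wt ρ (Q ⊓ centralizer (Q : Set Γ)) μ,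
      ρ g (ρ y v) = ρ y (ρ g v) := by
  intro g hg y hy v hv
  obtain ⟨hgQ, hg1⟩ := (H.hR g).1 hg
  have h1 : g * y = ⁅g, y⁆ * (y * g) := by
    rw [commutatorElement_def]; group
  have h2 : ρ g (ρ y v) = ρ ⁅g, y⁆ (ρ y (ρ g v)) := by
    rw [← Module.End.mul_apply, ← map_mul, h1, map_mul, map_mul, Module.End.mul_apply,
      Module.End.mul_apply]
  have h3 : ρ y (ρ g v) ∈ wt ρ (Q ⊓ centralizer (Q : Set Γ)) μ := H.XQ y hy _ (H.XQ g hgQ v hv)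
  rw [h2, h3 _ (H.comm_mem hgQ hy), hg1 y hy, one_smul]

theorem NB.KS (H : NB ρ Q S R b t s n μ) : ⁅S, zpowers b⁆ ≤ S := by
  rw [commutator_le]
  intro x hx c hc
  have hcN : c ∈ normalizer (S : Set Γ) := (zpowers_le.2 H.bS) hc
  have h1 : ⁅x, c⁆ = x * (c * x⁻¹ * c⁻¹) := by
    rw [commutatorElement_def]; group
  rw [h1]
  exact mul_mem hx (N0_conj_mem hcN (inv_mem hx))

theorem NB.bK (H : NB ρ Q S R b t s n μ) :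
    b ∈ normalizer ((⁅S, zpowers b⁆ : Subgroup Γ) : Set Γ) := by
  have hb : b ∈ normalizer ((zpowers b : Subgroup Γ) : Set Γ) :=
    le_normalizer (mem_zpowers b)
  rw [mem_normalizer_iff_map_conj_eq, map_commutator, mem_normalizer_iff_map_conj_eq.1 H.bS,
    mem_normalizer_iff_map_conj_eq.1 hb]

theorem N0_card_ne {P : Subgroup Γ} {t : ℕ} [Fact t.Prime] (hP : IsPGroup t P)
    (tE : (t : E) ≠ 0) : (Nat.card P : E) ≠ 0 := by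
  obtain ⟨k, hk⟩ := IsPGroup.iff_card.1 hP
  rw [hk]
  push_cast
  exact pow_ne_zero k tE

theorem NB.cardQ (H : NB ρ Q S R b t s n μ) : (Nat.card Q : E) ≠ 0 := by
  have : Fact t.Prime := ⟨H.tP⟩
  exact N0_card_ne H.Qt H.tE

theorem NB.cardR (H : NB ρ Q S R b t s n μ) : (Nat.card R : E) ≠ 0 := by
  have : Fact t.Prime := ⟨H.tP⟩
  exact N0_card_ne (H.Qt.to_le H.RQ) H.tE

end Cfsg.Agent.Lib.Helper46.FrobPQ
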