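import Mathlib
import Cfsg.Agent.Lib.Helper46.FrobPQ.Defs
import Cfsg.Agent.Lib.Helper46.FrobPQ.Wt
import Cfsg.Agent.Lib.Helper46.FrobPQ.ExWt

/-!
# S4306 farm, piece [PC]   (file Cfsg/Agent/Lib/Helper46/FrobPQ/PC.lean)

PAPER PROOF.
Suppose ρ (b z b⁻¹) v ≠ ρ z v with z ∈ R, v ∈ X.  z₁ := b z b⁻¹ z⁻¹ ∈ R and ρ z₁ (ρ z v) ≠ ρ z v with ρ z v ∈ X.
exists_wt gives η and 0 ≠ u ∈ X ⊓ wt ρ R η with η z₁ ≠ 1.  By wt_mul/wt_inv, η (b z b⁻¹) ≠ η z, so b ∉ stab R η.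
B := zpowers b (order n prime as b ≠ 1): B ⊓ stab = 1 (a nontrivial element of B generates B).
w = ∑_{g:B} ρ g u ∈ X is fixed by b (sum_fixed_mem), so w = 0 by bfix; free_orbit ⇒ u = 0.  Contradiction.
-/

set_option autoImplicit false
set_option linter.unusedSectionVars false
set_option linter.unusedVariables false

namespace Cfsg.Agent.Lib.Helper46.FrobPQ

open Subgroup
open scoped commutatorElement

universe u

variable {E : Type*} [Field E] {U : Type*} [AddCommGroup U] [Module E U]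
  {Γ : Type*} [Group Γ] [Finite Γ]

theorem pc_mem_zpowers {b g : Γ} {n : ℕ} (hn : n.Prime) (bn : b ^ n = 1) (hg : g ∈ zpowers b)
    (hg1 : g ≠ 1) : b ∈ zpowers g := by
  obtain ⟨k, rfl⟩ := hg
  have hnk : ¬ (n : ℤ) ∣ k := by
    rintro ⟨c, rfl⟩
    apply hg1
    change b ^ ((n : ℤ) * c) = 1
    rw [zpow_mul, zpow_natCast, bn, one_zpow]
  obtain ⟨x, y, hxy⟩ := ((Nat.prime_iff_prime_int.1 hn).irreducible.coprime_iff_not_dvd).2 hnk
  refine ⟨y, ?_⟩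
  change (b ^ k) ^ y = b
  have h1 : b ^ (x * (n : ℤ) + y * k) = b := by rw [hxy, zpow_one]
  rw [zpow_add, mul_comm x, zpow_mul, zpow_natCast, bn, one_zpow, one_mul, mul_comm y,
    zpow_mul] at h1
  exact h1

theorem pc [IsAlgClosed E] [FiniteDimensional E U] (ρ : Γ →* Module.End E U)
    (X : Submodule E U) (R : Subgroup Γ) (b : Γ) {n : ℕ} (hn : n.Prime) (bn : b ^ n = 1)
    (bR : b ∈ normalizer (R : Set Γ)) (bX : ∀ v ∈ X, ρ b v ∈ X)
    (RX : ∀ z ∈ R, ∀ v ∈ X, ρ z v ∈ X)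
    (Rcomm : ∀ z ∈ R, ∀ w ∈ R, ∀ v ∈ X, ρ z (ρ w v) = ρ w (ρ z v))
    (Rcard : (Nat.card R : E) ≠ 0) (bfix : ∀ v ∈ X, ρ b v = v → v = 0) :
    ∀ z ∈ R, ∀ v ∈ X, ρ (b * z * b⁻¹) v = ρ z v := by
  intro z hz v hv
  by_contra hcon
  have hbz : b * z * b⁻¹ ∈ R := (mem_normalizer_iff.1 bR z).1 hz
  have hz₁ : b * z * b⁻¹ * z⁻¹ ∈ R := mul_mem hbz (inv_mem hz)
  obtain ⟨η, u, huX, hu0, huw, hη⟩ := exists_wt ρ X R RX Rcomm Rcard (b * z * b⁻¹ * z⁻¹) hz₁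
    ⟨ρ z v, RX z hz v hv, by
      rw [← Module.End.mul_apply, ← map_mul, inv_mul_cancel_right]
      exact hcon⟩
  have hne : wt ρ R η ≠ ⊥ := by
    intro h
    rw [h] at huw
    exact hu0 ((Submodule.mem_bot E).1 huw)
  have hbstab : b ∉ stab R η := by
    intro hb
    apply hη
    rw [wt_mul hne hbz (inv_mem hz), hb.2 z hz, ← wt_mul hne hz (inv_mem hz), mul_inv_cancel,
      wt_one hne]
  have : Fintype (zpowers b) := Fintype.ofFinite _
  have hfree : ∀ g ∈ zpowers b, g ∈ stab R η → g = 1 := by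
    intro g hg hgs
    by_contra hg1
    exact hbstab (zpowers_le.2 hgs (pc_mem_zpowers hn bn hg hg1))
  have hpowX : ∀ k : ℕ, ρ (b ^ k) u ∈ X := by
    intro k
    induction k with
    | zero => simpa using huX
    | succ k ih =>
      rw [pow_succ', map_mul, Module.End.mul_apply]
      exact bX _ ih
  have hwX : ∑ g : zpowers b, ρ (g : Γ) u ∈ X := by
    refine Submodule.sum_mem _ fun g _ => ?_
    obtain ⟨k, hk⟩ := mem_powers_iff_mem_zpowers.2 g.2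
    rw [← hk]
    exact hpowX k
  have hw0 := bfix _ hwX (sum_fixed_mem ρ (zpowers b) u (mem_zpowers b))
  exact hu0 (free_orbit ρ R (zpowers b) (zpowers_le.2 bR) η huw hfree hw0)

end Cfsg.Agent.Lib.Helper46.FrobPQ
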