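import Mathlib
import Cfsg.Agent.Lib.Helper46.FrobPQ.Defs
import Cfsg.Agent.Lib.Helper46.FrobPQ.Rel
import Cfsg.Agent.Lib.Helper46.FrobPQ.Wt
import Cfsg.Agent.Lib.Helper46.FrobPQ.NB0
import Cfsg.Agent.Lib.Helper46.FrobPQ.PC

/-!
# S4306 farm, piece [N2]   (file Cfsg/Agent/Lib/Helper46/FrobPQ/NB2.lean)

PAPER PROOF.
X := wt ρ Z μ.  For x ∈ S put b_x := x b x⁻¹.  b_x^n = 1, b_x ∈ normalizer R (SR, bR), X is invariant under ρ b_x (XS for x and x⁻¹, Xb), and ρ b_x v = v ⇒ ρ b (ρ x⁻¹ v) = ρ x⁻¹ v ⇒ ρ x⁻¹ v = 0 ⇒ v = 0.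
pc (X, R, b_x; RX from XQ and RQ; Rcomm from comm_X; Rcard = cardR) ⇒ ρ (b_x z b_x⁻¹) v = ρ z v for z ∈ R, v ∈ X.
H := {γ ∈ normalizer R | ∀ z ∈ R, ∀ v ∈ X, ρ (γ z γ⁻¹) v = ρ z v} is a subgroup (like `stab`).  It contains all b_x (x = 1: b).  ⁅x,b⁆ = b_x b⁻¹ ∈ H.  comm_zpowers_le ⇒ ⁅S, zpowers b⁆ ≤ H.
-/

set_option autoImplicit false
set_option linter.unusedSectionVars false
set_option linter.unusedVariables false

namespace Cfsg.Agent.Lib.Helper46.FrobPQ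

open Subgroup
open scoped commutatorElement

universe u

variable {E : Type*} [Field E] {U : Type*} [AddCommGroup U] [Module E U]
  {Γ : Type*} [Group Γ] [Finite Γ]

variable {ρ : Γ →* Module.End E U} {Q S R : Subgroup Γ} {b : Γ} {t s n : ℕ} {μ : Γ → E}

/-- the elements of the normalizer of `R` whose conjugation action on `R` is invisible on `X` -/
def N2_H (ρ : Γ →* Module.End E U) (X : Submodule E U) (R : Subgroup Γ) : Subgroup Γ where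
  carrier := {γ | γ ∈ normalizer (R : Set Γ) ∧ ∀ z ∈ R, ∀ v ∈ X, ρ (γ * z * γ⁻¹) v = ρ z v}
  one_mem' := ⟨one_mem _, fun z _ v _ => by simp⟩
  mul_mem' := by
    rintro a c ⟨ha, ha'⟩ ⟨hc, hc'⟩
    refine ⟨mul_mem ha hc, fun z hz v hv => ?_⟩
    have h1 : c * z * c⁻¹ ∈ R := N0_conj_mem hc hz
    have h2 : a * c * z * (a * c)⁻¹ = a * (c * z * c⁻¹) * a⁻¹ := by group
    rw [h2, ha' _ h1 v hv, hc' z hz v hv]
  inv_mem' := by
    rintro a ⟨ha, ha'⟩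
    refine ⟨inv_mem ha, fun z hz v hv => ?_⟩
    have h1 : a⁻¹ * z * a⁻¹⁻¹ ∈ R := N0_conj_mem (inv_mem ha) hz
    have h2 := ha' _ h1 v hv
    have h3 : a * (a⁻¹ * z * a⁻¹⁻¹) * a⁻¹ = z := by group
    rw [h3] at h2
    exact h2.symm

theorem N2_mem_H {ρ : Γ →* Module.End E U} {X : Submodule E U} {R : Subgroup Γ} {γ : Γ} :
    γ ∈ N2_H ρ X R ↔
      γ ∈ normalizer (R : Set Γ) ∧ ∀ z ∈ R, ∀ v ∈ X, ρ (γ * z * γ⁻¹) v = ρ z v := Iff.rfl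

theorem NB.N2_conj_mem [IsAlgClosed E] [FiniteDimensional E U] (H : NB ρ Q S R b t s n μ) {x : Γ}
    (hx : x ∈ S) : x * b * x⁻¹ ∈ N2_H ρ (wt ρ (Q ⊓ centralizer (Q : Set Γ)) μ) R := by
  have hN : x * b * x⁻¹ ∈ normalizer (R : Set Γ) :=
    mul_mem (mul_mem (H.SR hx) H.bR) (inv_mem (H.SR hx))
  have happ : ∀ v, ρ (x * b * x⁻¹) v = ρ x (ρ b (ρ x⁻¹ v)) := by
    intro v
    rw [map_mul, map_mul, Module.End.mul_apply, Module.End.mul_apply]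
  have hxx : ∀ v, ρ x (ρ x⁻¹ v) = v := by
    intro v
    rw [← Module.End.mul_apply, ← map_mul, mul_inv_cancel, map_one, Module.End.one_apply]
  have hxx' : ∀ v, ρ x⁻¹ (ρ x v) = v := by
    intro v
    rw [← Module.End.mul_apply, ← map_mul, inv_mul_cancel, map_one, Module.End.one_apply]
  refine N2_mem_H.2 ⟨hN, ?_⟩
  refine pc ρ _ R (x * b * x⁻¹) H.nP (by rw [conj_pow, H.bn]; group) hN ?_
    (fun z hz v hv => H.XQ z (H.RQ hz) v hv)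
    (fun z hz w hw v hv => H.comm_X z hz w (H.RQ hw) v hv) H.cardR ?_
  · intro v hv
    rw [happ]
    exact H.XS x hx _ (H.Xb _ (H.XS x⁻¹ (inv_mem hx) v hv))
  · intro v hv hfix
    rw [happ] at hfix
    have h1 : ρ b (ρ x⁻¹ v) = ρ x⁻¹ v := by
      have := congrArg (ρ x⁻¹) hfix
      rwa [hxx'] at this
    have h2 := H.bfix _ (H.XS x⁻¹ (inv_mem hx) v hv) h1
    have h3 := hxx v
    rw [h2, map_zero] at h3
    exact h3.symm

theorem NB.cent [IsAlgClosed E] [FiniteDimensional E U] (H : NB ρ Q S R b t s n μ) :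
    (∀ z ∈ R, ∀ v ∈ wt ρ (Q ⊓ centralizer (Q : Set Γ)) μ, ρ (b * z * b⁻¹) v = ρ z v) ∧
    ∀ k ∈ ⁅S, zpowers b⁆, ∀ z ∈ R, ∀ v ∈ wt ρ (Q ⊓ centralizer (Q : Set Γ)) μ,
      ρ (k * z * k⁻¹) v = ρ z v := by
  have hb : b ∈ N2_H ρ (wt ρ (Q ⊓ centralizer (Q : Set Γ)) μ) R := by
    have := H.N2_conj_mem (one_mem S)
    simpa using this
  refine ⟨(N2_mem_H.1 hb).2, fun k hk => ?_⟩
  have hle : ⁅S, zpowers b⁆ ≤ N2_H ρ (wt ρ (Q ⊓ centralizer (Q : Set Γ)) μ) R := by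
    refine comm_zpowers_le S _ b H.bS (fun x hx => ?_)
    have h1 : ⁅x, b⁆ = (x * b * x⁻¹) * b⁻¹ := by rw [commutatorElement_def]
    rw [h1]
    exact mul_mem (H.N2_conj_mem hx) (inv_mem hb)
  exact (N2_mem_H.1 (hle hk)).2

end Cfsg.Agent.Lib.Helper46.FrobPQ
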