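import Mathlib
import Cfsg.Agent.Lib.Helper46.FrobPQ.Defs
import Cfsg.Agent.Lib.Helper46.FrobPQ.Rel
import Cfsg.Agent.Lib.Helper46.FrobPQ.NB0
import Cfsg.Agent.Lib.Helper46.FrobPQ.NB2
import Cfsg.Agent.S0026

/-!
# S4306 farm, piece [N3]   (file Cfsg/Agent/Lib/Helper46/FrobPQ/NB3.lean)

PAPER PROOF.
K := ⁅S, zpowers b⁆ ≤ S (KS), normalizes R (SR).  Sc := {z ∈ R | ∃ a, ∀ v ∈ X, ρ z v = a • v} is a subgroup of R (X is ρ(R)-invariant; a ≠ 0 automatically for the inverse: ρ z is invertible; if X were ⊥ … it is not: hne).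
S0026 (K acting on R, coprime s/t): R = ⁅R,K⁆ ⊔ (R ⊓ C(K)).  R₁ := R ⊓ centralizer K is normalized by b (bR, bK).  S0026 (zpowers b acting on R₁; card = n or 1, prime to t): R₁ = ⁅R₁,⟨b⟩⁆ ⊔ (R₁ ⊓ C(b)).
* generators ⁅z,k⁆ (z ∈ R, k ∈ K): ρ ⁅z,k⁆ v = ρ z ρ (k z⁻¹ k⁻¹) v = ρ z ρ z⁻¹ v = v by NB.cent.  Similarly ⁅z, b^j⁆ (the set H of N2 is a subgroup; or comm_zpowers_le-type induction; or use that NB.cent.1 iterates).
* y ∈ R₁ ⊓ C(b): y commutes with all ⁅x,b⁆ ∈ K and with b, so y ∈ C(Q) by HY, y ∈ Z, ρ y v = μ y • v.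
So Sc = R: NB.scal.   NB.symp: ne = hne, inv = XQ, le = RQ, scal, comm: ⁅g,y⁆ ∈ Z ≤ R, nd: g ∉ R ⇒ ∃ y, μ ⁅g,y⁆ ≠ 1, ρ ⁅g,y⁆ v = μ ⁅g,y⁆ • v ≠ v for 0 ≠ v ∈ X; card = cardQ.
-/

set_option autoImplicit false
set_option linter.unusedSectionVars false
set_option linter.unusedVariables false

namespace Cfsg.Agent.Lib.Helper46.FrobPQ

open Subgroup
open scoped commutatorElement

universe u

variable {E : Type*} [Field E] {U : Type*} [AddCommGroup U] [Module E U]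
  {Γ : Type*} [Group Γ] [Finite Γ]

variable {ρ : Γ →* Module.End E U} {Q S R : Subgroup Γ} {b : Γ} {t s n : ℕ} {μ : Γ → E}

/-- the elements of `R` acting as scalars on `X` -/
def N3_Sc (ρ : Γ →* Module.End E U) (X : Submodule E U) (R : Subgroup Γ) : Subgroup Γ where
  carrier := {z | z ∈ R ∧ ∃ a : E, ∀ v ∈ X, ρ z v = a • v}
  one_mem' := ⟨one_mem _, 1, fun v _ => by simp⟩
  mul_mem' := by
    rintro z w ⟨hz, a, ha⟩ ⟨hw, c, hc⟩
    refine ⟨mul_mem hz hw, c * a, fun v hv => ?_⟩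
    rw [map_mul, Module.End.mul_apply, hc v hv, map_smul, ha v hv, smul_smul]
  inv_mem' := by
    rintro z ⟨hz, a, ha⟩
    refine ⟨inv_mem hz, a⁻¹, fun v hv => ?_⟩
    have h1 : ρ z⁻¹ (ρ z v) = v := by
      rw [← Module.End.mul_apply, ← map_mul, inv_mul_cancel, map_one, Module.End.one_apply]
    rw [ha v hv, map_smul] at h1
    by_cases ha0 : a = 0
    · rw [ha0, zero_smul] at h1
      rw [← h1]
      simp
    · rw [← h1, smul_smul, inv_mul_cancel₀ ha0, one_smul]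
      rw [h1]

theorem N3_mem_Sc {ρ : Γ →* Module.End E U} {X : Submodule E U} {R : Subgroup Γ} {z : Γ} :
    z ∈ N3_Sc ρ X R ↔ z ∈ R ∧ ∃ a : E, ∀ v ∈ X, ρ z v = a • v := Iff.rfl

theorem N3_comm_mem {ρ : Γ →* Module.End E U} {X : Submodule E U} {R : Subgroup Γ} {z c : Γ}
    (hz : z ∈ R) (hc : c ∈ N2_H ρ X R) : ⁅z, c⁆ ∈ N3_Sc ρ X R := by
  obtain ⟨hcN, hc'⟩ := N2_mem_H.1 hc
  have h1 : ⁅z, c⁆ = z * (c * z⁻¹ * c⁻¹) := by
    rw [commutatorElement_def]; group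
  refine N3_mem_Sc.2 ⟨?_, 1, fun v hv => ?_⟩
  · rw [h1]
    exact mul_mem hz (N0_conj_mem hcN (inv_mem hz))
  · rw [h1, map_mul, Module.End.mul_apply, hc' _ (inv_mem hz) v hv, ← Module.End.mul_apply,
      ← map_mul, mul_inv_cancel, map_one, Module.End.one_apply, one_smul]

theorem N3_coprime {A B : Subgroup Γ} {s t : ℕ} (sP : s.Prime) (tP : t.Prime) (hst : s ≠ t)
    (hA : IsPGroup s A) (hB : IsPGroup t B) : (Nat.card A).Coprime (Nat.card B) := by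
  have : Fact s.Prime := ⟨sP⟩
  have : Fact t.Prime := ⟨tP⟩
  obtain ⟨i, hi⟩ := IsPGroup.iff_card.1 hA
  obtain ⟨j, hj⟩ := IsPGroup.iff_card.1 hB
  rw [hi, hj]
  exact Nat.Coprime.pow _ _ ((Nat.coprime_primes sP tP).2 hst)

theorem N3_norm_centralizer {K : Subgroup Γ} {c : Γ} (hc : c ∈ normalizer (K : Set Γ)) :
    c ∈ normalizer ((centralizer (K : Set Γ) : Subgroup Γ) : Set Γ) := by
  have key : ∀ c ∈ normalizer (K : Set Γ), ∀ y ∈ centralizer (K : Set Γ),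
      c * y * c⁻¹ ∈ centralizer (K : Set Γ) := by
    intro c hc y hy
    rw [mem_centralizer_iff] at hy ⊢
    intro k hk
    have h1 := hy _ (N0_conj_mem' hc hk)
    calc k * (c * y * c⁻¹) = c * ((c⁻¹ * k * c) * y) * c⁻¹ := by group
      _ = c * (y * (c⁻¹ * k * c)) * c⁻¹ := by rw [h1]
      _ = c * y * c⁻¹ * k := by group
  refine N0_norm_of_forall (key c hc) (fun y hy => ?_)
  have := key c⁻¹ (inv_mem hc) y hy
  rwa [inv_inv] at this

theorem N3_norm_inf {A B : Subgroup Γ} {c : Γ} (hA : c ∈ normalizer (A : Set Γ))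
    (hB : c ∈ normalizer (B : Set Γ)) : c ∈ normalizer ((A ⊓ B : Subgroup Γ) : Set Γ) :=
  N0_norm_of_forall
    (fun x hx => mem_inf.2 ⟨N0_conj_mem hA (mem_inf.1 hx).1, N0_conj_mem hB (mem_inf.1 hx).2⟩)
    (fun x hx => mem_inf.2 ⟨N0_conj_mem' hA (mem_inf.1 hx).1, N0_conj_mem' hB (mem_inf.1 hx).2⟩)

theorem NB.scal [IsAlgClosed E] [FiniteDimensional E U] (H : NB ρ Q S R b t s n μ) :
    ∀ z ∈ R, ∃ a : E, ∀ v ∈ wt ρ (Q ⊓ centralizer (Q : Set Γ)) μ, ρ z v = a • v := by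
  have htF : Fact t.Prime := ⟨H.tP⟩
  set X := wt ρ (Q ⊓ centralizer (Q : Set Γ)) μ with hX
  set K : Subgroup Γ := ⁅S, zpowers b⁆ with hK
  have hRt : IsPGroup t R := H.Qt.to_le H.RQ
  have hKN : K ≤ normalizer (R : Set Γ) := H.KS.trans H.SR
  have hbH : b ∈ N2_H ρ X R := N2_mem_H.2 ⟨H.bR, H.cent.1⟩
  have hKH : K ≤ N2_H ρ X R := fun k hk => N2_mem_H.2 ⟨hKN hk, H.cent.2 k hk⟩
  have hsolR : Group.IsSolvable R := by
    have := hRt.isNilpotent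
    infer_instance
  have e1 : ⁅R, K⁆ ⊔ (R ⊓ centralizer (K : Set Γ)) = R :=
    Cfsg.Agent.S0026.result K R hKN (N3_coprime H.sP H.tP H.ts.symm (H.Ss.to_le H.KS) hRt)
      (Or.inr hsolR)
  set R₁ : Subgroup Γ := R ⊓ centralizer (K : Set Γ) with hR₁
  have hR₁R : R₁ ≤ R := inf_le_left
  have hbR₁ : b ∈ normalizer (R₁ : Set Γ) := N3_norm_inf H.bR (N3_norm_centralizer H.bK)
  have hR₁t : IsPGroup t R₁ := hRt.to_le hR₁R
  have hsolR₁ : Group.IsSolvable R₁ := by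
    have := hR₁t.isNilpotent
    infer_instance
  have hcop : (Nat.card (zpowers b)).Coprime (Nat.card R₁) := by
    obtain ⟨j, hj⟩ := IsPGroup.iff_card.1 hR₁t
    rw [hj, Nat.card_zpowers]
    apply Nat.Coprime.pow_right
    exact Nat.Coprime.coprime_dvd_left (orderOf_dvd_of_pow_eq_one H.bn)
      ((Nat.coprime_primes H.nP H.tP).2 H.nt)
  have e2 : ⁅R₁, zpowers b⁆ ⊔ (R₁ ⊓ centralizer ((zpowers b : Subgroup Γ) : Set Γ)) = R₁ :=
    Cfsg.Agent.S0026.result (zpowers b) R₁ (zpowers_le.2 hbR₁) hcop (Or.inr hsolR₁)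
  have hle : R ≤ N3_Sc ρ X R := by
    refine e1.symm.le.trans (sup_le ?_ ?_)
    · rw [commutator_le]
      intro z hz k hk
      exact N3_comm_mem hz (hKH hk)
    · refine e2.symm.le.trans (sup_le ?_ ?_)
      · rw [commutator_le]
        intro z hz c hc
        exact N3_comm_mem (hR₁R hz) ((zpowers_le.2 hbH) hc)
      · intro y hy
        obtain ⟨hy1, hyb⟩ := mem_inf.1 hy
        obtain ⟨hyR, hyK⟩ := mem_inf.1 hy1
        have hyQ : y ∈ Q := H.RQ hyR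
        have hyC : y ∈ centralizer (Q : Set Γ) := by
          refine H.HY y hyQ (fun x hx => ?_) ?_
          · exact mem_centralizer_iff.1 hyK _ (commutator_mem_commutator hx (mem_zpowers b))
          · exact mem_centralizer_iff.1 hyb b (mem_zpowers b)
        exact N3_mem_Sc.2 ⟨hyR, μ y, fun v hv => hv y (mem_inf.2 ⟨hyQ, hyC⟩)⟩
  intro z hz
  exact (N3_mem_Sc.1 (hle hz)).2

theorem NB.symp [IsAlgClosed E] [FiniteDimensional E U] (H : NB ρ Q S R b t s n μ) :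
    SympCfg ρ (wt ρ (Q ⊓ centralizer (Q : Set Γ)) μ) Q R := by
  refine ⟨H.hne, H.XQ, H.RQ, H.scal, fun g hg y hy => H.ZR (H.comm_mem hg hy), ?_, H.cardQ⟩
  intro g hg hgR
  rw [H.hR] at hgR
  push Not at hgR
  obtain ⟨y, hy, hμ⟩ := hgR hg
  obtain ⟨v, hv, hv0⟩ := Submodule.exists_mem_ne_zero_of_ne_bot H.hne
  refine ⟨y, hy, v, hv, ?_⟩
  rw [hv _ (H.comm_mem hg hy)]
  intro h1
  have h2 : (μ ⁅g, y⁆ - 1) • v = 0 := by rw [sub_smul, h1, one_smul, sub_self]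
  rcases smul_eq_zero.1 h2 with h3 | h3
  · exact hμ (sub_eq_zero.1 h3)
  · exact hv0 h3

end Cfsg.Agent.Lib.Helper46.FrobPQ
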