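import Mathlib
import Cfsg.Agent.Lib.Helper46.FrobPQ.Defs
import Cfsg.Agent.Lib.Helper46.FrobPQ.Bridge
import Cfsg.Agent.Lib.Helper46.FrobPQ.MFS
import Cfsg.Agent.S0026

/-!
# S4306 farm, piece [NK]   (file Cfsg/Agent/Lib/Helper46/FrobPQ/NK.lean)

`K` acts trivially on `Q / R` (formalised by helper25 after the paper proof of helper46).
-/

set_option autoImplicit false
set_option linter.unusedSectionVars false
set_option linter.unusedVariables false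
set_option linter.style.haveILetI false

namespace Cfsg.Agent.Lib.Helper46.FrobPQ

open Subgroup
open scoped commutatorElement

universe u

theorem nk_arith {t n a u c w e' : ℕ} (ht : 2 ≤ t) (hn : n.Prime) (ha : Even a) (hu : Even u)
    (h1 : n * w + a = n * c + u) (hwu : w ≤ u) (hwc : w ≤ c) (hua : u < a) (hce : c + e' = a)
    (hle : t ^ e' ≤ (n - 1) ^ 2) : False := by
  obtain ⟨e, rfl⟩ := Nat.exists_eq_add_of_le hwc
  obtain ⟨n', rfl⟩ : ∃ n', n = n' + 1 := ⟨n - 1, by have := hn.pos; omega⟩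
  have h2 : a = (n' + 1) * e + u := by nlinarith
  have he : 1 ≤ e := by
    rcases Nat.eq_zero_or_pos e with h0 | h0
    · subst h0; omega
    · exact h0
  have h3 : n' * e ≤ e' := by
    have : w + e + e' = n' * e + e + u := by rw [hce, h2]; ring
    omega
  simp only [Nat.add_sub_cancel] at hle
  rcases hn.eq_two_or_odd' with h2' | hodd
  · have hn1 : n' = 1 := by omega
    subst hn1
    have h4 : 1 ≤ e' := by omega
    have h5 : t ^ 1 ≤ t ^ e' := Nat.pow_le_pow_right (by omega) h4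
    simp only [pow_one, one_pow] at h5 hle
    omega
  · have hev : Even ((n' + 1) * e) := by
      have h4 : Even ((n' + 1) * e + u) := h2 ▸ ha
      exact (Nat.even_add.1 h4).2 hu
    have he2 : Even e := by
      rcases Nat.even_mul.1 hev with h | h
      · exact absurd h (Nat.not_even_iff_odd.2 hodd)
      · exact h
    have he3 : 2 ≤ e := by obtain ⟨j, hj⟩ := he2; omega
    have h4 : 2 * n' ≤ e' := le_trans (by nlinarith) h3
    have h5 : 2 ^ (2 * n') ≤ t ^ e' :=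
      (Nat.pow_le_pow_left ht _).trans (Nat.pow_le_pow_right (by omega) h4)
    have h6 : n' < 2 ^ n' := Nat.lt_two_pow_self
    have h7 : 2 ^ (2 * n') = (2 ^ n') ^ 2 := by rw [mul_comm, pow_mul]
    nlinarith

theorem nk_even {t a d : ℕ} (ht : t.Prime) (h : t ^ a = d ^ 2) : Even a := by
  have h1 : (t ^ a).factorization t = (d ^ 2).factorization t := by rw [h]
  rw [Nat.factorization_pow, Nat.factorization_pow] at h1
  simp only [Finsupp.smul_apply, smul_eq_mul, ht.factorization_self, mul_one] at h1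
  rw [h1]
  exact even_two_mul _

variable {E : Type*} [Field E] {U : Type*} [AddCommGroup U] [Module E U]
  {Γ : Type*} [Group Γ] [Finite Γ]

/-- the elements of `Q` centralized mod `R` by all elements of `T` -/
def nkC (Q R : Subgroup Γ) (hQR : ∀ g ∈ Q, ∀ z ∈ R, g * z * g⁻¹ ∈ R) (T : Set Γ) :
    Subgroup Γ where
  carrier := {g | g ∈ Q ∧ ∀ k ∈ T, ⁅k, g⁆ ∈ R}
  mul_mem' := by
    rintro a c ⟨ha, ha'⟩ ⟨hc, hc'⟩
    refine ⟨mul_mem ha hc, fun k hk => ?_⟩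
    have h1 : ⁅k, a * c⁆ = ⁅k, a⁆ * (a * ⁅k, c⁆ * a⁻¹) := by
      simp only [commutatorElement_def]; group
    rw [h1]
    exact mul_mem (ha' k hk) (hQR a ha _ (hc' k hk))
  one_mem' := ⟨one_mem _, fun k _ => by simp⟩
  inv_mem' := by
    rintro a ⟨ha, ha'⟩
    refine ⟨inv_mem ha, fun k hk => ?_⟩
    have h1 : ⁅k, a⁻¹⁆ = a⁻¹ * ⁅k, a⁆⁻¹ * a⁻¹⁻¹ := by
      simp only [commutatorElement_def]; group
    rw [h1]
    exact hQR a⁻¹ (inv_mem ha) _ (inv_mem (ha' k hk))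

theorem nk_symp [IsAlgClosed E] [FiniteDimensional E U] {ρ : Γ →* Module.End E U}
    {X : Submodule E U} {Q R : Subgroup Γ} (hC : SympCfg ρ X Q R) (K : Subgroup Γ)
    (hcop : (Nat.card K).Coprime (Nat.card Q)) (Ksol : Group.IsSolvable K)
    (KQ : K ≤ normalizer (Q : Set Γ)) (KR : K ≤ normalizer (R : Set Γ))
    (Kinv : ∀ k ∈ K, ∀ z ∈ R, ∀ v ∈ X, ρ (k * z * k⁻¹) v = ρ z v)
    (CK : Subgroup Γ) (hCK : ∀ g, g ∈ CK ↔ g ∈ Q ∧ ∀ k ∈ K, ⁅k, g⁆ ∈ R) :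
    SympCfg ρ X CK R := by
  classical
  have hCKQ : CK ≤ Q := fun g hg => ((hCK g).1 hg).1
  have hQR : ∀ g ∈ Q, ∀ z ∈ R, g * z * g⁻¹ ∈ R := by
    intro g hg z hz
    have h1 : g * z * g⁻¹ = ⁅g, z⁆ * z := by simp only [commutatorElement_def]; group
    rw [h1]
    exact mul_mem (hC.comm g hg z (hC.le hz)) hz
  have hKR : ∀ k ∈ K, ∀ z ∈ R, k * z * k⁻¹ ∈ R := fun k hk z hz =>
    (mem_normalizer_iff.1 (KR hk) z).1 hz
  have hKQ : ∀ k ∈ K, ∀ z ∈ Q, k * z * k⁻¹ ∈ Q := fun k hk z hz =>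
    (mem_normalizer_iff.1 (KQ hk) z).1 hz
  obtain ⟨v₀, hv₀X, hv₀⟩ := Submodule.exists_mem_ne_zero_of_ne_bot hC.ne
  obtain ⟨χ, hχ⟩ : ∃ χ : Γ → E, ∀ z ∈ R, ∀ v ∈ X, ρ z v = χ z • v := by
    refine ⟨fun z => if h : z ∈ R then (hC.scal z h).choose else 0, fun z hz v hv => ?_⟩
    simp only [dif_pos hz]
    exact (hC.scal z hz).choose_spec v hv
  have huniq : ∀ z ∈ R, ∀ a : E, (∀ v ∈ X, ρ z v = a • v) → χ z = a := by
    intro z hz a ha
    apply smul_left_injective E hv₀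
    show χ z • v₀ = a • v₀
    rw [← hχ z hz v₀ hv₀X, ha v₀ hv₀X]
  have χmul : ∀ z ∈ R, ∀ z' ∈ R, χ (z * z') = χ z * χ z' := by
    intro z hz z' hz'
    refine huniq _ (mul_mem hz hz') _ fun v hv => ?_
    rw [map_mul, Module.End.mul_apply, hχ z' hz' v hv, map_smul, hχ z hz v hv, smul_smul, mul_comm]
  have χone : χ 1 = 1 := huniq 1 (one_mem _) 1 (fun v _ => by simp)
  have χQ : ∀ g ∈ Q, ∀ z ∈ R, χ (g * z * g⁻¹) = χ z := by
    intro g hg z hz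
    refine huniq _ (hQR g hg z hz) _ fun v hv => ?_
    rw [map_mul, map_mul, Module.End.mul_apply, Module.End.mul_apply,
      hχ z hz _ (hC.inv g⁻¹ (inv_mem hg) v hv), map_smul, ← Module.End.mul_apply, ← map_mul,
      mul_inv_cancel, map_one, Module.End.one_apply]
  have χK : ∀ k ∈ K, ∀ z ∈ R, χ (k * z * k⁻¹) = χ z := by
    intro k hk z hz
    refine huniq _ (hKR k hk z hz) _ fun v hv => ?_
    rw [Kinv k hk z hz v hv, hχ z hz v hv]
  have B1 : ∀ g ∈ Q, ∀ y ∈ Q, ∀ y' ∈ Q, χ ⁅g, y * y'⁆ = χ ⁅g, y⁆ * χ ⁅g, y'⁆ := by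
    intro g hg y hy y' hy'
    have h1 : ⁅g, y * y'⁆ = ⁅g, y⁆ * (y * ⁅g, y'⁆ * y⁻¹) := by
      simp only [commutatorElement_def]; group
    rw [h1, χmul _ (hC.comm g hg y hy) _ (hQR y hy _ (hC.comm g hg y' hy')),
      χQ y hy _ (hC.comm g hg y' hy')]
  have B2 : ∀ g ∈ Q, ∀ y ∈ Q, χ ⁅g, y⁆ * χ ⁅g, y⁻¹⁆ = 1 := by
    intro g hg y hy
    rw [← B1 g hg y hy y⁻¹ (inv_mem hy), mul_inv_cancel, commutatorElement_one_right, χone]
  have B3 : ∀ g ∈ CK, ∀ y ∈ Q, ∀ k ∈ K, χ ⁅g, k * y * k⁻¹⁆ = χ ⁅g, y⁆ := by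
    intro g hg y hy k hk
    have hgQ := hCKQ hg
    have hr : ⁅k⁻¹, g⁆ ∈ R := ((hCK g).1 hg).2 k⁻¹ (inv_mem hk)
    have h1 : ⁅g, k * y * k⁻¹⁆ =
        k * (⁅k⁻¹, g⁆ * ⁅g, y⁆ * (y * ⁅k⁻¹, g⁆⁻¹ * y⁻¹)) * k⁻¹ := by
      simp only [commutatorElement_def]; group
    have h2 : y * ⁅k⁻¹, g⁆⁻¹ * y⁻¹ ∈ R := hQR y hy _ (inv_mem hr)
    have h3 : ⁅g, y⁆ ∈ R := hC.comm g hgQ y hy
    rw [h1, χK k hk _ (mul_mem (mul_mem hr h3) h2), χmul _ (mul_mem hr h3) _ h2, χmul _ hr _ h3,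
      χQ y hy _ (inv_mem hr)]
    have h4 : χ ⁅k⁻¹, g⁆ * χ ⁅k⁻¹, g⁆⁻¹ = 1 := by
      rw [← χmul _ hr _ (inv_mem hr), mul_inv_cancel, χone]
    calc χ ⁅k⁻¹, g⁆ * χ ⁅g, y⁆ * χ ⁅k⁻¹, g⁆⁻¹ = (χ ⁅k⁻¹, g⁆ * χ ⁅k⁻¹, g⁆⁻¹) * χ ⁅g, y⁆ := by ring
      _ = χ ⁅g, y⁆ := by rw [h4, one_mul]
  refine
    { ne := hC.ne
      inv := fun g hg => hC.inv g (hCKQ hg)
      le := ?_
      scal := hC.scal
      comm := fun g hg y hy => hC.comm g (hCKQ hg) y (hCKQ hy)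
      nd := ?_
      card := ?_ }
  · intro z hz
    refine (hCK z).2 ⟨hC.le hz, fun k hk => ?_⟩
    have h1 : ⁅k, z⁆ = k * z * k⁻¹ * z⁻¹ := by simp only [commutatorElement_def]
    rw [h1]
    exact mul_mem (hKR k hk z hz) (inv_mem hz)
  · intro g hg hgR
    have hgQ := hCKQ hg
    obtain ⟨y, hy, v, hv, hne⟩ := hC.nd g hgQ hgR
    have hy1 : χ ⁅g, y⁆ ≠ 1 := by
      intro h1
      apply hne
      rw [hχ _ (hC.comm g hgQ y hy) v hv, h1, one_smul]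
    by_contra hcon
    push Not at hcon
    apply hy1
    let T : Subgroup Γ :=
      { carrier := {y | y ∈ Q ∧ χ ⁅g, y⁆ = 1}
        mul_mem' := by
          rintro a c ⟨ha, ha'⟩ ⟨hc, hc'⟩
          exact ⟨mul_mem ha hc, by rw [B1 g hgQ a ha c hc, ha', hc', one_mul]⟩
        one_mem' := ⟨one_mem _, by rw [commutatorElement_one_right, χone]⟩
        inv_mem' := by
          rintro a ⟨ha, ha'⟩
          refine ⟨inv_mem ha, ?_⟩
          have := B2 g hgQ a ha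
          rwa [ha', one_mul] at this }
    have hT1 : ⁅Q, K⁆ ≤ T := by
      rw [Subgroup.commutator_le]
      intro y' hy' k hk
      have h1 : ⁅y', k⁆ = y' * (k * y'⁻¹ * k⁻¹) := by
        simp only [commutatorElement_def]; group
      have h2 : k * y'⁻¹ * k⁻¹ ∈ Q := hKQ k hk _ (inv_mem hy')
      rw [h1]
      refine ⟨mul_mem hy' h2, ?_⟩
      rw [B1 g hgQ y' hy' _ h2, B3 g hg _ (inv_mem hy') k hk, B2 g hgQ y' hy']
    have hT2 : Q ⊓ centralizer (K : Set Γ) ≤ T := by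
      intro y₂ hy₂
      have h1 : y₂ ∈ CK := by
        refine (hCK y₂).2 ⟨hy₂.1, fun k hk => ?_⟩
        have h2 : k * y₂ = y₂ * k := mem_centralizer_iff.1 hy₂.2 k hk
        have h3 : ⁅k, y₂⁆ = 1 := by
          rw [commutatorElement_eq_one_iff_mul_comm]; exact h2
        rw [h3]; exact one_mem _
      refine ⟨hy₂.1, ?_⟩
      by_contra h2
      have h3 := hcon y₂ h1 v₀ hv₀X
      rw [hχ _ (hC.comm g hgQ y₂ hy₂.1) v₀ hv₀X] at h3
      apply h2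
      apply smul_left_injective E hv₀
      show χ ⁅g, y₂⁆ • v₀ = (1 : E) • v₀
      rw [h3, one_smul]
    have hQT : Q ≤ T := by
      have h1 := Cfsg.Agent.S0026.result K Q KQ hcop (Or.inl Ksol)
      rw [← h1]
      exact sup_le hT1 hT2
    exact (hQT hy).2
  · intro h0
    apply hC.card
    obtain ⟨m, hm⟩ := Subgroup.card_dvd_of_le hCKQ
    rw [hm, Nat.cast_mul, h0, zero_mul]

theorem nk [IsAlgClosed E] [FiniteDimensional E U] {ρ : Γ →* Module.End E U}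
    {X : Submodule E U} {Q R : Subgroup Γ} (hC : SympCfg ρ X Q R) (K : Subgroup Γ)
    (b : Γ) {t s n : ℕ} (tP : t.Prime) (sP : s.Prime) (nP : n.Prime) (ts : t ≠ s) (nt : n ≠ t)
    (Qt : IsPGroup t Q) (Ks : IsPGroup s K) (nE : (n : E) ≠ 0)
    (bn : b ^ n = 1) (bQ : b ∈ normalizer (Q : Set Γ)) (bR : b ∈ normalizer (R : Set Γ))
    (bK : b ∈ normalizer (K : Set Γ)) (bX : ∀ v ∈ X, ρ b v ∈ X)
    (bfix : ∀ v ∈ X, ρ b v = v → v = 0)
    (KQ : K ≤ normalizer (Q : Set Γ)) (KR : K ≤ normalizer (R : Set Γ))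
    (Kinv : ∀ k ∈ K, ∀ z ∈ R, ∀ v ∈ X, ρ (k * z * k⁻¹) v = ρ z v)
    (Kfpf : ∀ k ∈ K, (∀ g ∈ Q, ⁅⁅b, k⁆, g⁆ ∈ R) → ∀ g ∈ Q, ⁅k, g⁆ ∈ R) :
    ∀ k ∈ K, ∀ g ∈ Q, ⁅k, g⁆ ∈ R := by
  classical
  by_contra hcon
  push Not at hcon
  obtain ⟨k₀, hk₀, g₀, hg₀, hbad⟩ := hcon
  haveI : Fact t.Prime := ⟨tP⟩
  haveI : Fact s.Prime := ⟨sP⟩
  have hQR : ∀ g ∈ Q, ∀ z ∈ R, g * z * g⁻¹ ∈ R := by
    intro g hg z hz
    have h1 : g * z * g⁻¹ = ⁅g, z⁆ * z := by simp only [commutatorElement_def]; group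
    rw [h1]
    exact mul_mem (hC.comm g hg z (hC.le hz)) hz
  obtain ⟨N, hN⟩ := Qt.exists_card_eq
  obtain ⟨M, hM⟩ := Ks.exists_card_eq
  have Ksol : Group.IsSolvable K := by
    haveI := Ks.isNilpotent
    infer_instance
  have Kcop : (Nat.card K).Coprime t := by
    rw [hM]
    exact Nat.Coprime.pow_left _ ((Nat.coprime_primes sP tP).2 ts.symm)
  have KcopQ : (Nat.card K).Coprime (Nat.card Q) := by
    rw [hN]
    exact Nat.Coprime.pow_right _ Kcop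
  have ncop : n.Coprime (Nat.card Q) := by
    rw [hN]
    exact Nat.Coprime.pow_right _ ((Nat.coprime_primes nP tP).2 nt)
  set Cb : Subgroup Γ := nkC Q R hQR {b} with hCbdef
  set CK : Subgroup Γ := nkC Q R hQR (K : Set Γ) with hCKdef
  have hCb : ∀ g, g ∈ Cb ↔ g ∈ Q ∧ ⁅b, g⁆ ∈ R := fun g =>
    ⟨fun h => ⟨h.1, h.2 b rfl⟩, fun h => ⟨h.1, fun k hk => by
      rw [Set.mem_singleton_iff.1 hk]; exact h.2⟩⟩
  have hCK : ∀ g, g ∈ CK ↔ g ∈ Q ∧ ∀ k ∈ K, ⁅k, g⁆ ∈ R := fun g => Iff.rfl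
  have hC' : SympCfg ρ X CK R := nk_symp hC K KcopQ Ksol KQ KR Kinv CK hCK
  have hCbQ : Cb ≤ Q := fun g hg => hg.1
  have hCKQ : CK ≤ Q := fun g hg => hg.1
  have hRCK : R ≤ CK := hC'.le
  have hRCb : R ≤ Cb := by
    intro z hz
    refine (hCb z).2 ⟨hC.le hz, ?_⟩
    have h1 : ⁅b, z⁆ = b * z * b⁻¹ * z⁻¹ := by simp only [commutatorElement_def]
    rw [h1]
    exact mul_mem ((mem_normalizer_iff.1 bR z).1 hz) (inv_mem hz)
  obtain ⟨d, hd⟩ := sq_a hC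
  obtain ⟨d', hd'⟩ := sq_a hC'
  have hki := ki_a hC b nP bn bQ bX nE ncop bfix Cb hCb
  have hmfs := mfs Q R K b tP nP Qt hC.le hC.comm KQ KR bQ bR bK bn Ksol Kcop nt Kfpf Cb CK hCb hCK
  have hpow : ∀ A B : Subgroup Γ, B ≤ Q → ∃ j, A.relIndex B = t ^ j := by
    intro A B hB
    have h1 : A.relIndex B ∣ t ^ N := by
      rw [← hN]
      exact (Subgroup.relIndex_dvd_card A B).trans (Subgroup.card_dvd_of_le hB)
    obtain ⟨j, _, hj⟩ := (Nat.dvd_prime_pow tP).1 h1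
    exact ⟨j, hj⟩
  obtain ⟨a, ha⟩ := hpow R Q le_rfl
  obtain ⟨u', hu⟩ := hpow R CK hCKQ
  obtain ⟨c, hc⟩ := hpow R Cb hCbQ
  obtain ⟨w, hw⟩ := hpow R (Cb ⊓ CK) (inf_le_left.trans hCbQ)
  obtain ⟨e', he'⟩ := hpow Cb Q le_rfl
  obtain ⟨x, hx⟩ := hpow CK Q le_rfl
  obtain ⟨x1, hx1⟩ := hpow (Cb ⊓ CK) CK hCKQ
  obtain ⟨x2, hx2⟩ := hpow (Cb ⊓ CK) Cb hCbQ
  have t2 : 2 ≤ t := tP.two_le
  have inj := Nat.pow_right_injective t2
  have e1 : c + e' = a := by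
    apply inj
    show t ^ (c + e') = t ^ a
    rw [pow_add, ← hc, ← he', ← ha]
    exact Subgroup.relIndex_mul_relIndex R Cb Q hRCb hCbQ
  have e2 : u' + x = a := by
    apply inj
    show t ^ (u' + x) = t ^ a
    rw [pow_add, ← hu, ← hx, ← ha]
    exact Subgroup.relIndex_mul_relIndex R CK Q hRCK hCKQ
  have e3 : w + x1 = u' := by
    apply inj
    show t ^ (w + x1) = t ^ u'
    rw [pow_add, ← hw, ← hx1, ← hu]
    exact Subgroup.relIndex_mul_relIndex R (Cb ⊓ CK) CK (le_inf hRCb hRCK) inf_le_right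
  have e4 : w + x2 = c := by
    apply inj
    show t ^ (w + x2) = t ^ c
    rw [pow_add, ← hw, ← hx2, ← hc]
    exact Subgroup.relIndex_mul_relIndex R (Cb ⊓ CK) Cb (le_inf hRCb hRCK) inf_le_left
  have e5 : x ≠ 0 := by
    intro h0
    rw [h0, pow_zero, Subgroup.relIndex_eq_one] at hx
    exact hbad ((hx hg₀).2 k₀ hk₀)
  have e6 : n * w + a = n * c + u' := by
    apply inj
    show t ^ (n * w + a) = t ^ (n * c + u')
    rw [pow_add, pow_add, mul_comm n w, mul_comm n c, pow_mul, pow_mul, ← hw, ← ha, ← hc, ← hu]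
    exact hmfs
  refine nk_arith (t := t) (n := n) (a := a) (u := u') (c := c) (w := w) (e' := e') t2 nP
    (nk_even tP (d := d) (by rw [← ha, hd])) (nk_even tP (d := d') (by rw [← hu, hd'])) e6
    (by omega) (by omega) (by omega) e1 (by rw [← he']; exact hki)

end Cfsg.Agent.Lib.Helper46.FrobPQ
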