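import Mathlib
import Cfsg.Agent.Lib.Helper46.FrobPQ.Defs
import Cfsg.Agent.Lib.Helper46.FrobPQ.NB0
import Cfsg.Agent.Lib.Helper46.FrobPQ.NB2
import Cfsg.Agent.Lib.Helper46.FrobPQ.NB3
import Cfsg.Agent.Lib.Helper46.FrobPQ.KF
import Cfsg.Agent.Lib.Helper46.FrobPQ.NK

/-!
# S4306 farm, piece [N5]   (file Cfsg/Agent/Lib/Helper46/FrobPQ/NB5.lean)

PAPER PROOF.
nk with hC = H.symp, K = ⁅S, zpowers b⁆.  Ks: subgroup of the s-group S.  bX = Xb, bfix, KQ (K ≤ S ≤ N(Q)), KR, Kinv = H.cent.2.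
Kfpf: S₀ := {x ∈ S | ∀ g ∈ Q, ⁅x,g⁆ ∈ R} is a subgroup of S (it is the kernel of the action on Q/R; ⁅x x', g⁆ = x ⁅x',g⁆ x⁻¹ ⁅x,g⁆, S normalizes R), contains ⁅S,S⁆ (which centralizes Q), normalized by b (b normalizes S, Q, R).
kf S S₀ b ⇒ for k ∈ K: ⁅b,k⁆ ∈ S₀ → k ∈ S₀.  (⁅b,k⁆ ∈ S since b normalizes S.)
-/

set_option autoImplicit false
set_option linter.unusedSectionVars false
set_option linter.unusedVariables false

namespace Cfsg.Agent.Lib.Helper46.FrobPQ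

open Subgroup
open scoped commutatorElement

universe u

variable {E : Type*} [Field E] {U : Type*} [AddCommGroup U] [Module E U]
  {Γ : Type*} [Group Γ] [Finite Γ]

variable {ρ : Γ →* Module.End E U} {Q S R : Subgroup Γ} {b : Γ} {t s n : ℕ} {μ : Γ → E}

/-- the kernel of the action of `S` on `Q / R` -/
def N5_S0 (Q S R : Subgroup Γ) (hSR : S ≤ normalizer (R : Set Γ)) : Subgroup Γ where
  carrier := {x | x ∈ S ∧ ∀ g ∈ Q, ⁅x, g⁆ ∈ R}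
  one_mem' := ⟨one_mem _, fun g _ => by simp [commutatorElement_def]⟩
  mul_mem' := by
    rintro x x' ⟨hx, hx1⟩ ⟨hx', hx1'⟩
    refine ⟨mul_mem hx hx', fun g hg => ?_⟩
    have h1 : ⁅x * x', g⁆ = x * ⁅x', g⁆ * x⁻¹ * ⁅x, g⁆ := by
      simp only [commutatorElement_def]; group
    rw [h1]
    exact mul_mem (N0_conj_mem (hSR hx) (hx1' g hg)) (hx1 g hg)
  inv_mem' := by
    rintro x ⟨hx, hx1⟩
    refine ⟨inv_mem hx, fun g hg => ?_⟩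
    have h1 : ⁅x⁻¹, g⁆ = x⁻¹ * ⁅x, g⁆⁻¹ * x := by
      simp only [commutatorElement_def]; group
    rw [h1]
    exact N0_conj_mem' (hSR hx) (inv_mem (hx1 g hg))

theorem N5_mem_S0 {Q S R : Subgroup Γ} {hSR : S ≤ normalizer (R : Set Γ)} {x : Γ} :
    x ∈ N5_S0 Q S R hSR ↔ x ∈ S ∧ ∀ g ∈ Q, ⁅x, g⁆ ∈ R := Iff.rfl

theorem N5_norm_S0 {Q S R : Subgroup Γ} {hSR : S ≤ normalizer (R : Set Γ)} {c : Γ}
    (hS : c ∈ normalizer (S : Set Γ)) (hQ : c ∈ normalizer (Q : Set Γ))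
    (hR : c ∈ normalizer (R : Set Γ)) : c ∈ normalizer ((N5_S0 Q S R hSR : Subgroup Γ) : Set Γ) := by
  have key : ∀ c, c ∈ normalizer (S : Set Γ) → c ∈ normalizer (Q : Set Γ) →
      c ∈ normalizer (R : Set Γ) → ∀ x ∈ N5_S0 Q S R hSR, c * x * c⁻¹ ∈ N5_S0 Q S R hSR := by
    intro c hS hQ hR x hx
    obtain ⟨hxS, hx1⟩ := N5_mem_S0.1 hx
    refine N5_mem_S0.2 ⟨N0_conj_mem hS hxS, fun g hg => ?_⟩
    have h1 : ⁅c * x * c⁻¹, g⁆ = c * ⁅x, c⁻¹ * g * c⁆ * c⁻¹ := by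
      simp only [commutatorElement_def]; group
    rw [h1]
    exact N0_conj_mem hR (hx1 _ (N0_conj_mem' hQ hg))
  refine N0_norm_of_forall (key c hS hQ hR) (fun x hx => ?_)
  have := key c⁻¹ (inv_mem hS) (inv_mem hQ) (inv_mem hR) x hx
  rwa [inv_inv] at this

theorem NB.K_triv [IsAlgClosed E] [FiniteDimensional E U] (H : NB ρ Q S R b t s n μ) :
    ∀ k ∈ ⁅S, zpowers b⁆, ∀ g ∈ Q, ⁅k, g⁆ ∈ R := by
  have hsF : Fact s.Prime := ⟨H.sP⟩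
  have hcop : n.Coprime (Nat.card S) := by
    obtain ⟨j, hj⟩ := IsPGroup.iff_card.1 H.Ss
    rw [hj]
    exact Nat.Coprime.pow_right _ ((Nat.coprime_primes H.nP H.sP).2 H.ns)
  have hab : ⁅S, S⁆ ≤ N5_S0 Q S R H.SR := by
    intro c hc
    refine N5_mem_S0.2 ⟨commutator_le_self S hc, fun g hg => ?_⟩
    have h1 := mem_centralizer_iff.1 (H.Sab hc) g hg
    have h2 : ⁅c, g⁆ = 1 := by
      rw [commutatorElement_def, ← h1]; group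
    rw [h2]
    exact one_mem _
  have hkf := kf S (N5_S0 Q S R H.SR) b H.nP.pos H.bn (fun x hx => (N5_mem_S0.1 hx).1) hab H.bS
    (N5_norm_S0 H.bS H.bQ H.bR) hcop
  refine nk H.symp ⁅S, zpowers b⁆ b H.tP H.sP H.nP H.ts H.nt H.Qt (H.Ss.to_le H.KS) H.nE H.bn H.bQ
    H.bR H.bK H.Xb H.bfix (H.KS.trans H.SQ) (H.KS.trans H.SR) H.cent.2 ?_
  intro k hk hbk
  have hkS : k ∈ S := H.KS hk
  have h1 : ⁅b, k⁆ ∈ S := by
    have : ⁅b, k⁆ = (b * k * b⁻¹) * k⁻¹ := by rw [commutatorElement_def]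
    rw [this]
    exact mul_mem (N0_conj_mem H.bS hkS) (inv_mem hkS)
  exact (N5_mem_S0.1 (hkf k hk (N5_mem_S0.2 ⟨h1, hbk⟩))).2

end Cfsg.Agent.Lib.Helper46.FrobPQ
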