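import Mathlib
import Cfsg.Agent.Lib.Helper46.FrobPQ.Defs
import Cfsg.Agent.Lib.Helper46.FrobPQ.NB0
import Cfsg.Agent.Lib.Helper46.FrobPQ.NB5
import Cfsg.Agent.S0022

/-!
# S4306 farm, piece [N6]   (file Cfsg/Agent/Lib/Helper46/FrobPQ/NB6.lean)

PAPER PROOF.
K := ⁅S, zpowers b⁆.  Let g ∈ Q with ⁅b,g⁆ ∈ R.  By K_triv, ⁅k,g⁆ ∈ R for k ∈ K.
S0022 (A := K, K := Q, N := R): c₁ ∈ Q ⊓ C(K), g⁻¹ c₁ ∈ R.  Q₁ := Q ⊓ centralizer K is normalized by b; R₁ := R ⊓ Q₁ is normal in Q₁ and b-invariant; ⁅b,c₁⁆ ∈ R (c₁ ∈ g R, b normalizes R, Q/R abelian: ⁅b, g r⁆ = ⁅b,g⁆ g⁅b,r⁆g⁻¹) and ∈ Q₁; the same for all powers of b.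
S0022 (A := zpowers b, K := Q₁, N := R₁): c₂ ∈ Q₁ ⊓ C(b), c₁⁻¹ c₂ ∈ R.  HY ⇒ c₂ ∈ C(Q), so c₂ ∈ Z ≤ R.  Hence g ∈ R.
-/

set_option autoImplicit false
set_option linter.unusedSectionVars false
set_option linter.unusedVariables false

namespace Cfsg.Agent.Lib.Helper46.FrobPQ

open Subgroup
open scoped commutatorElement

universe u

variable {E : Type*} [Field E] {U : Type*} [AddCommGroup U] [Module E U]
  {Γ : Type*} [Group Γ] [Finite Γ]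

variable {ρ : Γ →* Module.End E U} {Q S R : Subgroup Γ} {b : Γ} {t s n : ℕ} {μ : Γ → E}

/-- the elements of the normalizer of `R` fixing the coset `g R` -/
def N6_T (R : Subgroup Γ) (g : Γ) : Subgroup Γ where
  carrier := {a | a ∈ normalizer (R : Set Γ) ∧ ⁅a, g⁆ ∈ R}
  one_mem' := ⟨one_mem _, by simp [commutatorElement_def]⟩
  mul_mem' := by
    rintro x x' ⟨hx, hx1⟩ ⟨hx', hx1'⟩
    refine ⟨mul_mem hx hx', ?_⟩
    have h1 : ⁅x * x', g⁆ = x * ⁅x', g⁆ * x⁻¹ * ⁅x, g⁆ := by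
      simp only [commutatorElement_def]; group
    rw [h1]
    exact mul_mem (N0_conj_mem hx hx1') hx1
  inv_mem' := by
    rintro x ⟨hx, hx1⟩
    refine ⟨inv_mem hx, ?_⟩
    have h1 : ⁅x⁻¹, g⁆ = x⁻¹ * ⁅x, g⁆⁻¹ * x := by
      simp only [commutatorElement_def]; group
    rw [h1]
    exact N0_conj_mem' hx (inv_mem hx1)

theorem N6_mem_T {R : Subgroup Γ} {g a : Γ} :
    a ∈ N6_T R g ↔ a ∈ normalizer (R : Set Γ) ∧ ⁅a, g⁆ ∈ R := Iff.rfl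

theorem NB.fpf [IsAlgClosed E] [FiniteDimensional E U] (H : NB ρ Q S R b t s n μ) :
    ∀ g ∈ Q, ⁅b, g⁆ ∈ R → g ∈ R := by
  intro g hg hbg
  have htF : Fact t.Prime := ⟨H.tP⟩
  set K : Subgroup Γ := ⁅S, zpowers b⁆ with hK
  have hKN : K ≤ normalizer (R : Set Γ) := H.KS.trans H.SR
  have hsolQ : Group.IsSolvable Q := by
    have := H.Qt.isNilpotent
    infer_instance
  obtain ⟨c₁, hc₁, hgc₁⟩ := Cfsg.Agent.S0022.result K Q (H.KS.trans H.SQ)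
    (N3_coprime H.sP H.tP H.ts.symm (H.Ss.to_le H.KS) H.Qt) (Or.inr hsolQ) R H.RQ H.QR hKN g hg
    (fun a ha => H.K_triv a ha g hg)
  set Q₁ : Subgroup Γ := Q ⊓ centralizer (K : Set Γ) with hQ₁
  have hQ₁Q : Q₁ ≤ Q := inf_le_left
  have hbQ₁ : b ∈ normalizer (Q₁ : Set Γ) := N3_norm_inf H.bQ (N3_norm_centralizer H.bK)
  have hQ₁t : IsPGroup t Q₁ := H.Qt.to_le hQ₁Q
  have hsolQ₁ : Group.IsSolvable Q₁ := by
    have := hQ₁t.isNilpotent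
    infer_instance
  have hcop : (Nat.card (zpowers b)).Coprime (Nat.card Q₁) := by
    obtain ⟨j, hj⟩ := IsPGroup.iff_card.1 hQ₁t
    rw [hj, Nat.card_zpowers]
    apply Nat.Coprime.pow_right
    exact Nat.Coprime.coprime_dvd_left (orderOf_dvd_of_pow_eq_one H.bn)
      ((Nat.coprime_primes H.nP H.tP).2 H.nt)
  have hbT : b ∈ N6_T R c₁ := by
    refine N6_mem_T.2 ⟨H.bR, ?_⟩
    have e1 : ⁅b, c₁⁆ = ⁅b, g⁆ * (g * ((b * (g⁻¹ * c₁) * b⁻¹) * (g⁻¹ * c₁)⁻¹) * g⁻¹) := by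
      simp only [commutatorElement_def]; group
    rw [e1]
    exact mul_mem hbg (N0_conj_mem (H.QR hg) (mul_mem (N0_conj_mem H.bR hgc₁) (inv_mem hgc₁)))
  obtain ⟨c₂, hc₂, hc₁c₂⟩ := Cfsg.Agent.S0022.result (zpowers b) Q₁ (zpowers_le.2 hbQ₁) hcop
    (Or.inr hsolQ₁) (R ⊓ Q₁) inf_le_right
    (fun y hy => N3_norm_inf (H.QR (hQ₁Q hy)) (le_normalizer hy))
    (zpowers_le.2 (N3_norm_inf H.bR hbQ₁)) c₁ hc₁
    (fun a ha => mem_inf.2 ⟨(N6_mem_T.1 ((zpowers_le.2 hbT) ha)).2,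
      mul_mem (N0_conj_mem ((zpowers_le.2 hbQ₁) ha) hc₁) (inv_mem hc₁)⟩)
  obtain ⟨hc₂Q₁, hc₂b⟩ := mem_inf.1 hc₂
  obtain ⟨hc₂Q, hc₂K⟩ := mem_inf.1 hc₂Q₁
  have hc₂C : c₂ ∈ centralizer (Q : Set Γ) := by
    refine H.HY c₂ hc₂Q (fun x hx => ?_) ?_
    · exact mem_centralizer_iff.1 hc₂K _ (commutator_mem_commutator hx (mem_zpowers b))
    · exact mem_centralizer_iff.1 hc₂b b (mem_zpowers b)
  have hc₂R : c₂ ∈ R := H.ZR (mem_inf.2 ⟨hc₂Q, hc₂C⟩)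
  have e2 : g = c₂ * (c₁⁻¹ * c₂)⁻¹ * (g⁻¹ * c₁)⁻¹ := by group
  rw [e2]
  exact mul_mem (mul_mem hc₂R (inv_mem (mem_inf.1 hc₁c₂).1)) (inv_mem hgc₁)

end Cfsg.Agent.Lib.Helper46.FrobPQ
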