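import Mathlib
import Cfsg.Agent.Lib.Helper46.FrobPQ.Defs
import Cfsg.Agent.Lib.Helper46.FrobPQ.NB0
import Cfsg.Agent.Lib.Helper46.FrobPQ.NB2
import Cfsg.Agent.Lib.Helper46.FrobPQ.NB5
import Cfsg.Agent.S0027

/-!
# S4306 farm, piece [N7]   (file Cfsg/Agent/Lib/Helper46/FrobPQ/NB7.lean)

PAPER PROOF.
K := ⁅S, zpowers b⁆.  ⁅Q,K⁆ ≤ R (K_triv; ⁅g,k⁆ = ⁅k,g⁆⁻¹).  S0027 (K acting on Q): ⁅Q,K⁆ = ⁅⁅Q,K⁆,K⁆ ≤ ⁅R,K⁆ (commutator_mono).  I := {z ∈ R | ∀ v ∈ X, ρ z v = v} is a subgroup containing the generators ⁅z,k⁆ of ⁅R,K⁆ (NB.cent.2 as in N3).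
So ρ ⁅k,g⁆ v = v for v ∈ X, and ρ (k g k⁻¹) v = ρ ⁅k,g⁆ (ρ g v) = ρ g v (ρ g v ∈ X).
-/

set_option autoImplicit false
set_option linter.unusedSectionVars false
set_option linter.unusedVariables false

namespace Cfsg.Agent.Lib.Helper46.FrobPQ

open Subgroup
open scoped commutatorElement

universe u

variable {E : Type*} [Field E] {U : Type*} [AddCommGroup U] [Module E U]
  {Γ : Type*} [Group Γ] [Finite Γ]

variable {ρ : Γ →* Module.End E U} {Q S R : Subgroup Γ} {b : Γ} {t s n : ℕ} {μ : Γ → E}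

/-- the elements of `R` acting trivially on `X` -/
def N7_I (ρ : Γ →* Module.End E U) (X : Submodule E U) (R : Subgroup Γ) : Subgroup Γ where
  carrier := {z | z ∈ R ∧ ∀ v ∈ X, ρ z v = v}
  one_mem' := ⟨one_mem _, fun v _ => by simp⟩
  mul_mem' := by
    rintro z w ⟨hz, hz1⟩ ⟨hw, hw1⟩
    refine ⟨mul_mem hz hw, fun v hv => ?_⟩
    rw [map_mul, Module.End.mul_apply, hw1 v hv, hz1 v hv]
  inv_mem' := by
    rintro z ⟨hz, hz1⟩
    refine ⟨inv_mem hz, fun v hv => ?_⟩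
    have h1 : ρ z⁻¹ (ρ z v) = v := by
      rw [← Module.End.mul_apply, ← map_mul, inv_mul_cancel, map_one, Module.End.one_apply]
    rwa [hz1 v hv] at h1

theorem N7_mem_I {ρ : Γ →* Module.End E U} {X : Submodule E U} {R : Subgroup Γ} {z : Γ} :
    z ∈ N7_I ρ X R ↔ z ∈ R ∧ ∀ v ∈ X, ρ z v = v := Iff.rfl

theorem NB.K_cent [IsAlgClosed E] [FiniteDimensional E U] (H : NB ρ Q S R b t s n μ) :
    ∀ k ∈ ⁅S, zpowers b⁆, ∀ g ∈ Q, ∀ v ∈ wt ρ (Q ⊓ centralizer (Q : Set Γ)) μ,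
      ρ (k * g * k⁻¹) v = ρ g v := by
  have htF : Fact t.Prime := ⟨H.tP⟩
  set X := wt ρ (Q ⊓ centralizer (Q : Set Γ)) μ with hX
  set K : Subgroup Γ := ⁅S, zpowers b⁆ with hK
  have hKN : K ≤ normalizer (R : Set Γ) := H.KS.trans H.SR
  have h1 : ⁅Q, K⁆ ≤ R := by
    rw [commutator_le]
    intro g hg k hk
    rw [← commutatorElement_inv]
    exact inv_mem (H.K_triv k hk g hg)
  have hsolQ : Group.IsSolvable Q := by
    have := H.Qt.isNilpotent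
    infer_instance
  have h2 : ⁅⁅Q, K⁆, K⁆ = ⁅Q, K⁆ :=
    Cfsg.Agent.S0027.result K Q (H.KS.trans H.SQ)
      (N3_coprime H.sP H.tP H.ts.symm (H.Ss.to_le H.KS) H.Qt) (Or.inr hsolQ)
  have h3 : ⁅Q, K⁆ ≤ ⁅R, K⁆ := h2.symm.le.trans (commutator_mono h1 le_rfl)
  have h4 : ⁅R, K⁆ ≤ N7_I ρ X R := by
    rw [commutator_le]
    intro z hz k hk
    have e1 : ⁅z, k⁆ = z * (k * z⁻¹ * k⁻¹) := by
      rw [commutatorElement_def]; group
    refine N7_mem_I.2 ⟨?_, fun v hv => ?_⟩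
    · rw [e1]
      exact mul_mem hz (N0_conj_mem (hKN hk) (inv_mem hz))
    · rw [e1, map_mul, Module.End.mul_apply, H.cent.2 k hk _ (inv_mem hz) v hv,
        ← Module.End.mul_apply, ← map_mul, mul_inv_cancel, map_one, Module.End.one_apply]
  intro k hk g hg v hv
  have h5 : ⁅k, g⁆ ∈ N7_I ρ X R := by
    apply h4
    apply h3
    rw [← commutatorElement_inv]
    exact inv_mem (commutator_mem_commutator hg hk)
  have e2 : k * g * k⁻¹ = ⁅k, g⁆ * g := by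
    rw [commutatorElement_def]; group
  rw [e2, map_mul, Module.End.mul_apply, (N7_mem_I.1 h5).2 _ (H.XQ g hg v hv)]

end Cfsg.Agent.Lib.Helper46.FrobPQ
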