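import Mathlib
import Cfsg.Agent.Lib.Helper46.FrobPQ.Defs
import Cfsg.Agent.Lib.Helper46.FrobPQ.NB0
import Cfsg.Agent.Lib.Helper46.FrobPQ.NB3
import Cfsg.Agent.Lib.Helper46.FrobPQ.NB6
import Cfsg.Agent.Lib.Helper46.FrobPQ.NB7
import Cfsg.Agent.Lib.Helper46.FrobPQ.Bridge

/-!
# S4306 farm, piece [NAB]   (file Cfsg/Agent/Lib/Helper46/FrobPQ/NAB.lean)

PAPER PROOF.
exists_R gives R with H : NB ….  Let x ∈ S.  cm_a with hC = H.symp, b (bn, bQ, Xb, nE, n coprime to card Q = t^k, bfix, bfpf = H.fpf), x (xQ from SQ, xX = H.XS x), m := Nat.card S (> 0, x^m = 1, = s^j coprime to n and to card Q),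
xb := H.K_cent ⁅x,b⁆ (commutator_mem_commutator hx (mem_zpowers b)).  Conclusion ⁅x,g⁆ ∈ R, so μ ⁅⁅x,g⁆,y⁆ = 1 by H.hR.
-/

set_option autoImplicit false
set_option linter.unusedSectionVars false
set_option linter.unusedVariables false

namespace Cfsg.Agent.Lib.Helper46.FrobPQ

open Subgroup
open scoped commutatorElement

universe u

variable {E : Type*} [Field E] {U : Type*} [AddCommGroup U] [Module E U]
  {Γ : Type*} [Group Γ] [Finite Γ]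

theorem nab [IsAlgClosed E] [FiniteDimensional E U] (ρ : Γ →* Module.End E U)
    (Q S : Subgroup Γ) (b : Γ) {t s n : ℕ} (tP : t.Prime) (sP : s.Prime) (nP : n.Prime)
    (ts : t ≠ s) (nt : n ≠ t) (ns : n ≠ s) (Qt : IsPGroup t Q) (Ss : IsPGroup s S)
    (tE : (t : E) ≠ 0) (nE : (n : E) ≠ 0)
    (SQ : S ≤ normalizer (Q : Set Γ)) (bQ : b ∈ normalizer (Q : Set Γ))
    (bS : b ∈ normalizer (S : Set Γ)) (bn : b ^ n = 1)
    (cl2 : ∀ g ∈ Q, ∀ y ∈ Q, ⁅g, y⁆ ∈ centralizer (Q : Set Γ))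
    (SZ : S ≤ centralizer ((Q ⊓ centralizer (Q : Set Γ) : Subgroup Γ) : Set Γ))
    (Sab : ⁅S, S⁆ ≤ centralizer (Q : Set Γ))
    (HY : ∀ y ∈ Q, (∀ x ∈ S, ⁅x, b⁆ * y = y * ⁅x, b⁆) → b * y = y * b →
      y ∈ centralizer (Q : Set Γ))
    (μ : Γ → E) (hne : wt ρ (Q ⊓ centralizer (Q : Set Γ)) μ ≠ ⊥)
    (bμ : ∀ z ∈ Q ⊓ centralizer (Q : Set Γ), μ (b * z * b⁻¹) = μ z)
    (bfix : ∀ v ∈ wt ρ (Q ⊓ centralizer (Q : Set Γ)) μ, ρ b v = v → v = 0) :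
    ∀ x ∈ S, ∀ g ∈ Q, ∀ y ∈ Q, μ ⁅⁅x, g⁆, y⁆ = 1 := by
  obtain ⟨R, H⟩ := exists_R ρ Q S b tP sP nP ts nt ns Qt Ss tE nE SQ bQ bS bn cl2 SZ Sab HY μ hne bμ
    bfix
  have htF : Fact t.Prime := ⟨tP⟩
  have hsF : Fact s.Prime := ⟨sP⟩
  obtain ⟨i, hi⟩ := IsPGroup.iff_card.1 Qt
  obtain ⟨j, hj⟩ := IsPGroup.iff_card.1 Ss
  intro x hx g hg y hy
  have hxm : x ^ Nat.card S = 1 := by
    have h1 : (⟨x, hx⟩ : S) ^ Nat.card S = 1 := pow_card_eq_one'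
    have h2 := congrArg Subtype.val h1
    rw [Subgroup.coe_pow, Subgroup.coe_one] at h2
    exact h2
  have h := cm_a H.symp b nP bn bQ H.Xb nE
    (by rw [hi]; exact Nat.Coprime.pow_right _ ((Nat.coprime_primes nP tP).2 nt)) bfix H.fpf
    x (SQ hx) (H.XS x hx) (Nat.card S) Nat.card_pos hxm
    (by rw [hj]; exact Nat.Coprime.pow_left _ ((Nat.coprime_primes sP nP).2 ns.symm))
    (by rw [hi, hj]; exact Nat.Coprime.pow _ _ ((Nat.coprime_primes sP tP).2 ts.symm))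
    (H.K_cent ⁅x, b⁆ (commutator_mem_commutator hx (mem_zpowers b))) g hg
  exact ((H.hR _).1 h).2 y hy

end Cfsg.Agent.Lib.Helper46.FrobPQ
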