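import Mathlib
import Cfsg.Agent.Lib.Helper46.FrobPQ.Defs

/-!
# S4306 farm, piece [OR]   (file Cfsg/Agent/Lib/Helper46/FrobPQ/NoNormalR.lean)

PAPER PROOF.
φ : Γ →* MulAut ↥V := MulAut.conjNormal; ker φ = centralizer V.  P̃ := P.map φ is an r-group (φ(g)^(r^k) = φ(g^(r^k)) = 1).  P̃ acts on ↥V; `IsPGroup.card_modEq_card_fixedPoints`: card V ≡ card (fixed points) mod r; r ∣ card V (V ≠ ⊥ is an r-group), 1 is fixed, so there is a fixed point v ≠ 1.
M := V ⊓ centralizer P is normal in Γ (V, P normal), ≠ ⊥, so M = V by hmin: P centralizes V.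
-/

set_option autoImplicit false
set_option linter.unusedSectionVars false
set_option linter.unusedVariables false

namespace Cfsg.Agent.Lib.Helper46.FrobPQ

open Subgroup
open scoped commutatorElement

universe u

theorem no_normal_r {Γ : Type*} [Group Γ] [Finite Γ] {r : ℕ} (hr : r.Prime) (V : Subgroup Γ)
    [V.Normal] (hV1 : V ≠ ⊥) (hVr : IsPGroup r V)
    (hmin : ∀ M : Subgroup Γ, M.Normal → M ≤ V → M = ⊥ ∨ M = V)
    (P : Subgroup Γ) [P.Normal]
    (hP : ∀ g ∈ P, ∃ k : ℕ, g ^ r ^ k ∈ centralizer (V : Set Γ)) :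
    P ≤ centralizer (V : Set Γ) := by
  classical
  have : Fact r.Prime := ⟨hr⟩
  let φ : Γ →* MulAut V := MulAut.conjNormal
  have hφ : ∀ (g : Γ) (v : V), ((φ g v : V) : Γ) = g * v * g⁻¹ := fun g v => rfl
  have hker : ∀ g : Γ, g ∈ centralizer (V : Set Γ) → φ g = 1 := by
    intro g hg
    ext v
    rw [hφ]
    have := (mem_centralizer_iff.1 hg) v v.2
    rw [← this]
    simp
  let P' : Subgroup (MulAut V) := P.map φ
  have hP' : IsPGroup r P' := by
    rintro ⟨_, g, hg, rfl⟩
    obtain ⟨k, hk⟩ := hP g hg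
    refine ⟨k, ?_⟩
    apply Subtype.ext
    change (φ g) ^ r ^ k = 1
    rw [← map_pow]
    exact hker _ hk
  have hdvd : r ∣ Nat.card V := by
    have : Nontrivial V := (Subgroup.nontrivial_iff_ne_bot V).2 hV1
    obtain ⟨n, hcard⟩ := hVr.exists_card_eq
    rw [hcard]
    rcases n with _ | n
    · rw [pow_zero] at hcard
      have h1 : 1 < Nat.card V := Finite.one_lt_card
      omega
    · exact dvd_pow_self r (Nat.succ_ne_zero n)
  have h1fix : (1 : V) ∈ MulAction.fixedPoints P' V := by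
    intro g
    change (g : MulAut V) 1 = 1
    exact map_one _
  obtain ⟨b, hb, hb1⟩ := hP'.exists_fixed_point_of_prime_dvd_card_of_fixed_point V hdvd h1fix
  let M : Subgroup Γ := V ⊓ centralizer (P : Set Γ)
  have hMn : M.Normal := inferInstance
  have hbM : (b : Γ) ∈ M := by
    refine ⟨b.2, ?_⟩
    change (b : Γ) ∈ centralizer (P : Set Γ)
    rw [mem_centralizer_iff]
    intro g hg
    have h2 := hb ⟨φ g, g, hg, rfl⟩
    have h3 : ((φ g b : V) : Γ) = b := congrArg Subtype.val h2
    rw [hφ] at h3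
    exact mul_inv_eq_iff_eq_mul.1 h3
  have hM : M = V := by
    rcases hmin M hMn inf_le_left with h | h
    · exfalso
      rw [h, mem_bot] at hbM
      exact hb1 (Subtype.ext hbM.symm)
    · exact h
  intro g hg
  rw [mem_centralizer_iff]
  intro v hv
  have hvM : v ∈ M := by rw [hM]; exact hv
  exact ((mem_centralizer_iff.1 hvM.2) g hg).symm

end Cfsg.Agent.Lib.Helper46.FrobPQ
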